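import Cfsg.Agent.H6.CA16

/-! Automorphisms of classical groups, part 17: graph-field automorphisms of plus type and field automorphisms of minus
type orthogonal groups. -/

set_option autoImplicit false
set_option linter.unusedSectionVars false

namespace H6.CA
open H5 H5.Form Module Matrix

universe u
variable {F : Type u} {F₀ : Type*} [Field F] [Field F₀] [Fintype F] [Fintype F₀] {ι ι' : Type} [Fintype ι] [DecidableEq ι]
  [Fintype ι'] [DecidableEq ι'] {φ : F₀ →+* F} {σ : F ≃+* F}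

variable {m p f r : ℕ} [Fact p.Prime]

/-- an orthogonal family -/
def wM (m : ℕ) (x y k : F) (i : Option (Fin m)) : IM m → F := i.elim (Pi.single (.inr 0) (x - k) + Pi.single (.inr 1) y)
  fun i => Pi.single (.inl (.inl i)) (-k) + Pi.single (.inl (.inr i)) 1

lemma rhoM_refl {a b x y : F} {k c : Fˣ} (h : x ^ 2 + a * x * y + b * y ^ 2 = k * k) (hc : (c : F) = 2 * k - (2 * x + a * y)) :
    (∀ i, (minusF m a b).Q (wM m x y k i) = (i.elim (k * c) fun _ => -k : Fˣ)) ∧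
    (∀ i j, i ≠ j → (minusF m a b).B (wM m x y k i) (wM m x y k j) = 0) ∧ ∀ v, (k : F) • (v - ∑ i,
      (((i.elim (k * c) fun _ => -k : Fˣ) : F)⁻¹ * (minusF m a b).B v (wM m x y k i)) • wM m x y k i) = rhoM m a b x y v := by
  refine ⟨?_, ?_, fun v => ?_⟩
  · rintro (_ | i) <;> simp [wM, Cfsg.quadFormMinus, Pi.single_apply, hc]
    linear_combination h
  · rintro (_ | i) (_ | j) e <;> simp [wM, minusF_B, Pi.single_apply, Finset.sum_add_distrib] at e ⊢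
    simp [e, Ne.symm e]
  · ext ((i | i) | i)
    · simp [wM, minusF_B, Pi.single_apply, rhoM, Finset.sum_add_distrib, h]; field_simp; ring
    · simp [wM, minusF_B, Pi.single_apply, rhoM, Finset.sum_add_distrib]; field_simp; ring
    · fin_cases i <;> simp [wM, minusF_B, Pi.single_apply, rhoM] <;> field_simp <;> grind

lemma gfo_mem (h : 5 ≤ m) (h3 : 3 ≤ m) {x y : MulAut (Cfsg.POmega F (plusF F m).Q)} (hx : GFO _ x) (hy : GFO _ y)
    (ox : orderOf x = 2) (oy : orderOf y = 2) : y * x⁻¹ ∈ IP F h3 := by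
  obtain ⟨-, α, s, σ, o, S, -, pr, e⟩ := gfo_class h hx Nat.prime_two ox
  obtain ⟨-, β, t, τ, o', T, -, pt, e'⟩ := gfo_class h hy Nat.prime_two oy
  obtain rfl := inv_uniq o o'
  obtain ⟨Ψ, a, k⟩ := exists_PsiP h3 (sur_plus (F := F) h)
  have q : ∀ α x, Ψ (α * x * α⁻¹) = Ψ x := fun α x => by
    rw [map_mul, map_mul, map_inv, mul_inv_eq_iff_eq_mul]; exact Prod.ext (mul_comm _ _) (mul_comm' _ _)
  have h1 := (q α x).symm.trans ((congrArg Ψ e).trans (a _ _ S.toSL))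
  have h2 := (q β y).symm.trans ((congrArg Ψ e').trans (a _ _ T.toSL))
  rw [← k, MonoidHom.mem_ker, map_mul, map_inv, h1, h2, pr, pt, mul_inv_cancel]

theorem plus_gf (h : 5 ≤ m + 1) (h3 : 3 ≤ m + 1) (hF : Fintype.card F = p ^ f)
    {x : MulAut (Cfsg.POmega F (plusF F (m + 1)).Q)}
    (hx : GFO _ x) (hp : r.Prime) (hr : orderOf x = r) :
    r ∣ f ∧ ∀ (F₀ : Type*) [Field F₀] [Fintype F₀], Fintype.card F₀ = p ^ (f / r) →
      (∃ a b : F₀, (∀ z₁ z₂ : F₀, z₁ ^ 2 + a * z₁ * z₂ + b * z₂ ^ 2 = 0 → z₁ = 0 ∧ z₂ = 0) ∧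
        Nonempty (↥(IP F h3 ⊓ Subgroup.centralizer {x}) ≃* Cfsg.inndiagPOmegaMinus m F₀ a b)) ∧
      ((p = 2 → Cfsg.splitClassCount (IP F h3) (Cfsg.Inn _) x = 1) ∧
        (p ≠ 2 → Cfsg.splitClassCount (IP F h3) (Cfsg.Inn _) x =
          if Odd (m + 1) ∧ p ^ (f / 2) % 4 = 1 then 4 else 2)) ∧
      (∀ δ ∈ IP F h3, orderOf (δ * x) = r ↔ Cfsg.IsConjUnder (IP F h3) x (δ * x)) ∧
      ∀ y, GFO _ y → orderOf y = 2 → Cfsg.IsConjUnder (IP F h3) x y := by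
  obtain ⟨rfl, α, s, σ, o, S, s2, pr, e⟩ := gfo_class h hx hp hr
  have dv : 2 ∣ f := o ▸ card_ra hF ▸ orderOf_dvd_natCard σ
  refine ⟨dv, fun F₀ _ _ hF₀ => ?_⟩
  obtain ⟨-, φ, hφ⟩ := exists_sub hF o F₀ hF₀
  have hK := card_pow hF dv hF₀
  have := plus_normal (F := F) h
  have h5 := c5_plus h3
  have E := eo_plus' (F := F) h3
  obtain ⟨a, b, hab⟩ := exists_aniso F₀
  obtain ⟨ε₀, E₀⟩ := exists_eo_minus hab (m := m) (by omega)
  have hι : Fintype.card (IM m) = 2 * (m + 1) := by simp; ring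
  have ty : ∀ {t : Sm _} {h' : (IM m → F) ≃ₗ[F] _} {Ψ' l'}, parP h3 t = -1 → DS φ σ h' t.1 (plusF F (m + 1)) Ψ' l' →
      ¬ Ψ'.HasTS (m + 1) := fun a D n => by
    obtain ⟨T, b, c⟩ := D.mt hι n
    simpa [show par _ _ _ _ = _ from a] using par_fix E.nd E.five (mt_plus F _) b c
  refine (exists_desc (ι := IM m) (hι.trans (by simp [two_mul])) S.toSL s2).elim fun h₀ ds => ?_
  refine (exists_DS E.nd hφ (ke_orth φ) ds S one_ne_zero rfl (by simp)).elim fun Ψ D => ?_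
  refine (D.minus hι (ty pr D) hab).elim fun h₀ D => ?_
  have := transfer (B := Cfsg.inndiagPOmegaMinus m F₀ a b) (even_le E h5) e hr
    ⟨(even_iso E E₀ h5 hι D (c5_minus (by omega))).map (·.trans (MulEquiv.subgroupCongr (inn_minus hab (by omega) E₀).symm)), rfl, by
    rw [← o]
    exact even_coset E E₀ h5 hι D fun g hg h' Ψ' l' D' => iff_of_false (ty pr D)
      (ty (by rw [map_mul, pr, show parP _ _ = 1 from hg, one_mul]) D')⟩
  obtain ⟨i, j, c⟩ := this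
  refine ⟨⟨a, b, hab, i⟩, ?_, c, fun y hy oy => ?_⟩
  · rw [j, ← two_eq_iff hF]
    refine ⟨fun c => even_one E E₀ h5 hι D (.inl c), fun p2 => ?_⟩
    replace p2 := (two_eq_iff hF).not.2 p2
    have p0 := (two_map φ).not.1 p2
    obtain ⟨l, hl⟩ := exists_qc p0
    obtain ⟨k, k1, k2⟩ := exists_k hφ p2 o hl
    obtain ⟨⟨u, v⟩, uv⟩ : ∃ z : F₀ × F₀, (exists_xy hab l).choose = z := ⟨_, rfl⟩
    have h3 := (exists_xy hab l).choose_spec
    simp only [uv] at h3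
    have h4 : φ u ^ 2 + φ a * φ u * φ v + φ b * φ v ^ 2 = k * k := by rw [k1, ← h3]; simp
    have v0 : v ≠ 0 := by
      rintro rfl; simpa [hl] using (qc_eq_one (c := l)).2 ⟨u, by simp [← h3, sq]⟩
    let D₀ : F₀ˣ := Units.mk0 _ (disc_ne_zero_of_aniso hab)
    have d : qc F₀ D₀ = -1 := (Int.units_eq_one_or _).resolve_left fun e => by
      obtain ⟨d, hd⟩ := qc_eq_one.1 e
      exact p0 (hab (d - a) 2 (by replace hd : a ^ 2 - 4 * b = d * d := hd; linear_combination -hd)).2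
    have n : (2 * k - (2 * φ u + φ a * φ v)) * σ (2 * k - (2 * φ u + φ a * φ v)) = φ (D₀ * Units.mk0 v v0 ^ 2 : F₀ˣ) := by
      simp [D.fx.map, map_ofNat, k2, D₀]; linear_combination 4 * h4
    have n0 := left_ne_zero_of_mul (n ▸ (map_ne_zero φ).2 (Units.ne_zero _))
    obtain ⟨r1, r2, r3⟩ := rhoM_refl (m := m) (c := Units.mk0 _ n0) h4 rfl
    rw [even_two E E₀ h5 hι D p2 o (neg_sq (by omega) p2 hK) hl (ext_minus φ m a b) r1 r2 fun x => (r3 _).trans ?_,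
      Fintype.prod_option]
    · simp only [Option.elim, Finset.prod_const, map_mul]
      rw [D.fx.qc_two p2 o (x := -k) (a := -1 * l) (by simp [k2, ← k1]), D.fx.qc_two p2 o (x := k) (a := -1 * l)
        (by simp [k2, ← k1]), D.fx.qc_two p2 o (x := Units.mk0 _ n0) n.symm, ← hF₀]
      refine if_congr (Iff.trans ?_ (not_iff_comm.1 (sign_pow p0 (m + 1)).symm)) rfl rfl
      simp [d, hl, pow_succ', neg_eq_iff_eq_neg, Int.units_ne_iff_eq_neg, -neg_one_mul, -neg_mul]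
      rw [neg_mul, neg_inj]
    · ext ((i | i) | i)
      · simp [rM, mkRho, rhoM, uv]
      · simp [rM, mkRho, rhoM]
      · fin_cases i <;> simp [rM, mkRho, rhoM, uv]
  · have := c _ (gfo_mem h h3 hx hy hr oy)
    rw [inv_mul_cancel_right] at this
    exact this.1 oy

lemma NM.transfer {V : Type*} [AddCommGroup V] [Module F V] {H H' : Type*} [Group H] [Group H'] {Γ : Subgroup (Equiv.Perm V)}
    {G : Subgroup (V ≃ₗ[F] V)} (N : NM Γ G) (e : H ≃* G) (e' : H' ≃* G) (s : Γ) (y) :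
    N.ind e s (quotCenterCongr (e'.trans e.symm) y) = quotCenterCongr (e'.trans e.symm) (N.ind e' s y) := by
  obtain ⟨y, rfl⟩ := QuotientGroup.mk_surjective y
  obtain ⟨z, hz⟩ := N.exists_cj e' s y
  rw [N.ind_mk' e' hz]
  exact N.ind_mk' e (by simpa using hz)

lemma conj_iso {Φ Φ' : Form (Kind.orth F) (ι → F)} (nd : Φ.Nondeg) (nd' : Φ'.Nondeg) (h5 : 5 ≤ Fintype.card ι)
    {h : (ι → F) ≃ₗ[F] (ι → F)} (hh : Φ'.IsIso Φ h) {s : Sm Φ} (hs : Ds σ h s.1) {x : MulAut (Cfsg.POmega F Φ.Q)}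
    {ψ : Cfsg.POmega F Φ.Q ≃* Cfsg.POmega F Φ'.Q} (hx : Cfsg.IsFieldAutPOmegaOf Φ'.Q σ ((ψ.symm.trans x).trans ψ)) :
    ∃ α, α * x * α⁻¹ = indO nd h5 s := by
  let e : Cfsg.Omega F Φ'.Q ≃* Φ.EG := (commutatorCongr ((oEquiv Φ').trans hh.isomCongr)).trans (Φ.omEquiv.trans
    (MulEquiv.subgroupCongr (nd.Om_eq_EG (by simp; omega) (Or.inr (by simp; omega)))))
  have N := (bigO nd h5).nm'
  have := (N.eq_ind e (s := s)).2 fun g g' E => hx g g' (by
    simpa using (sm_iff 1 σ _ _).2 fun v => h.injective (by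
      have : h (g'.1.1.1 *ᵥ h.symm _) = s.1 (h (g.1.1.1 *ᵥ h.symm _)) := E (h v)
      simpa [sm_one, hs _] using this))
  refine ⟨ψ.trans (quotCenterCongr (e.trans (omE nd h5).symm)), mul_inv_eq_iff_eq_mul.2 (MulEquiv.ext fun y => ?_)⟩
  exact Eq.trans (by simp [← this]) (N.transfer _ e s (ψ y)).symm

theorem minus_field (h : 3 ≤ m) (hF : Fintype.card F = p ^ f) {a b : F}
    (hab : ∀ z₁ z₂ : F, z₁ ^ 2 + a * z₁ * z₂ + b * z₂ ^ 2 = 0 → z₁ = 0 ∧ z₂ = 0)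
    {I : Subgroup (MulAut (Cfsg.POmega F (minusF m a b).Q))} (hI : I = Cfsg.inndiagPOmegaMinus m F a b)
    {x : MulAut (Cfsg.POmega F (minusF m a b).Q)} (hx : Cfsg.IsFieldAutClassPOmegaMinus m x)
    (hp : r.Prime) (hr : orderOf x = r) : r ∣ f ∧ ∀ (F₀ : Type*) [Field F₀] [Fintype F₀], Fintype.card F₀ = p ^ (f / r) →
      Odd r ∧ (∃ a b : F₀, (∀ z₁ z₂ : F₀, z₁ ^ 2 + a * z₁ * z₂ + b * z₂ ^ 2 = 0 → z₁ = 0 ∧ z₂ = 0) ∧
        Nonempty (↥(I ⊓ Subgroup.centralizer {x}) ≃* Cfsg.inndiagPOmegaMinus m F₀ a b)) ∧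
      Cfsg.splitClassCount I (Cfsg.Inn _) x = 1 ∧ ∀ δ ∈ I, orderOf (δ * x) = r ↔ Cfsg.IsConjUnder I x (δ * x) := by
  obtain ⟨a', b', ψ, σ, hab', σ1, σa, σb, hx⟩ := hx
  have nd := nd_minus (m := m) hab
  have h5 := c5_minus (m := m) (by omega)
  have hι : Fintype.card (IM m) = 2 * (m + 1) := by simp; ring
  obtain ⟨h₀, hh⟩ := minus_iso (nd_minus (m := m) hab') nd (by simp [two_mul]) (by simp [two_mul])
    (minusF_not_hasTS m hab') (minusF_not_hasTS m hab)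
  have ds : Ds σ h₀ (lp h₀ * fm _ σ * (lp h₀)⁻¹) := fun v => by simp [← map_inv]
  have S : Sim (minusF m a b) _ σ 1 := sim_orth ds.sl one_ne_zero fun v => by
    obtain ⟨v, rfl⟩ := h₀.surjective v
    rw [ds, hh.2, hh.2, (sim_fm_minus m σa σb).Q]
  have := conj_iso nd (nd_minus hab') h5 hh (s := ⟨_, S.mem⟩) ds hx
  obtain ⟨α, e⟩ := this
  have N := (bigO nd h5).nm'
  have o : orderOf σ = r := (N.order _ (s := ⟨_, S.mem⟩) ds).symm.trans ((order_conj e).trans hr)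
  have dv : r ∣ f := o ▸ card_ra hF ▸ orderOf_dvd_natCard σ
  refine ⟨dv, fun F₀ _ _ hF₀ => ?_⟩
  obtain ⟨-, φ, hφ⟩ := exists_sub hF o F₀ hF₀
  obtain ⟨a₀, rfl⟩ := (hφ _).1 σa
  obtain ⟨b₀, rfl⟩ := (hφ _).1 σb
  have od : Odd r := hp.eq_two_or_odd'.resolve_left fun r2 => by
    obtain ⟨θ, hθ⟩ := exists_root_quadratic (r2 ▸ card_pow hF dv hF₀) rfl φ a₀ b₀
    simpa using (hab' θ 1 (by simpa using hθ)).2
  have hab₀ : ∀ z₁ z₂ : F₀, z₁ ^ 2 + a₀ * z₁ * z₂ + b₀ * z₂ ^ 2 = 0 → z₁ = 0 ∧ z₂ = 0 := fun x y e => by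
    simpa using hab' (φ x) (φ y) (by simpa using congrArg φ e)
  obtain ⟨K, _, _, _, hK⟩ := exists_quad (F := F)
  have E := eo_minus hab hK (m := m) (by omega)
  obtain ⟨ε₀, E₀⟩ := exists_eo_minus hab₀ (m := m) (by omega)
  have X := ext_minus φ m a₀ b₀
  have D : DS φ σ h₀ (⟨_, S.mem⟩ : Sm _).1 (minusF m a b) (minusF m a₀ b₀) 1 :=
    ⟨hφ, ke_orth φ, ds, fun u v => by rw [hh.1, X.B, one_mul], fun v => by rw [hh.2, X.Q, one_mul], one_ne_zero, rfl, E₀.nd⟩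
  obtain rfl := hI.trans (inn_minus hab (by omega) E)
  obtain ⟨ψ, -, -, hψ⟩ := exists_psi hab hK (m := m) (by omega)
  have : (Subgroup.map (piO nd h5) ((parM hab hK (by omega)).comp (ext_minus _ m a b).exS).ker).Normal := normal_map
    ((bigO nd h5).sur' (noEx_ts (m := m + 1) (by simp; omega) (minusF_not_hasTS m hab)) _ _) hψ
  have := transfer (B := Cfsg.inndiagPOmegaMinus m F₀ a₀ b₀) (even_le E h5) e hr
    ⟨(even_iso E E₀ h5 hι D h5).map (·.trans (MulEquiv.subgroupCongr (inn_minus hab₀ (by omega) E₀).symm)),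
    even_one E E₀ h5 hι D (.inr (o ▸ od)), by
    rw [← o]
    refine even_coset E E₀ h5 hι D fun g hg h' Ψ' l' D' => iff_of_false (minusF_not_hasTS m hab₀) fun n => ?_
    obtain ⟨T, t, -⟩ := D'.mt hι n
    exact minusF_not_hasTS m hab ⟨T, by have := t.2; simp at this; omega, t.1⟩⟩
  exact ⟨od, ⟨a₀, b₀, hab₀, this.1⟩, this.2⟩

end H6.CA
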