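import Cfsg.Agent.H6.DN3

/-! Schur multipliers through Steinberg covers; lifting the relations of type `D`; the spin representation. -/

set_option autoImplicit false
set_option linter.unusedSectionVars false

namespace H6.DN
open Subgroup Cfsg H5 H6.CA H6.CTR StSys Mult Mult.CE Chev
open scoped commutatorElement

section gen
variable {Φ ι : Type} [Fintype ι] [DecidableEq ι] {R : RS Φ ι} {F : Type*} [Field F] {G E : Type*} [Group G] [Group E]

/-- transport of a Chevalley system -/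
def tr [Finite Φ] (S : ChevSys R F G) (e : G ≃* E) : ChevSys R F E :=
  let Y : StSys R F E := ⟨fun r t => e (S.x r t), fun r t u => by rw [S.add, map_mul], fun r s a b t u => by
    simpa [map_list_prod, Function.comp_def] using congrArg e (S.comm r s a b t u)⟩
  have h : ∀ r t, e.symm.toMonoidHom (Y.x r t) = S.x r t := fun _ _ => e.symm_apply_apply _
  ⟨Y, S.nconj.comap h e.symm.injective, S.nd.comap h S.inj, S.inj.comap h⟩

lemma tr_grp [Finite Φ] {S : ChevSys R F G} (h : S.grp = ⊤) (e : G ≃* E) : (tr S e).grp = ⊤ :=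
  (map_U (S := S.toStSys) (θ := e.toMonoidHom) (fun _ _ => rfl) _).symm.trans ((congrArg _ h).trans
    (map_top_of_surjective _ e.surjective))

theorem center_eq [Finite Φ] (S : ChevSys R F G) (hS : S.grp = ⊤) (h3 : S.R3) :
    center G = (R.cm Fˣ).ker.map (S.nconj.Theta h3) := by
  ext g
  constructor
  · intro hg
    have hc : ∀ r t, g * S.x r t * g⁻¹ = S.x r t := fun r t => by rw [mul_inv_eq_iff_eq_mul, mem_center_iff.1 hg]
    obtain ⟨c, rfl, h⟩ := S.nconj.exists_chi h3 (S.mem_H_of_central (hS ▸ mem_top g) hc)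
    refine ⟨c, ?_, rfl⟩
    ext j : 2
    simpa [R.chi_simple] using S.inj.x_injective _ ((h.conj (R.simple j) 1).symm.trans (hc _ 1))
  · rintro ⟨c, hc, rfl⟩
    have h := S.nconj.actsC_Theta h3 c
    rw [show R.cm Fˣ c = 1 from hc] at h
    have : S.grp ≤ centralizer {S.nconj.Theta h3 c} := S.U_le_iff.2 fun r _ t => by
      rw [mem_centralizer_singleton_iff, eq_comm, ← mul_inv_eq_iff_eq_mul]
      simpa [R.chi_one] using h.conj r t
    exact mem_center_iff.2 fun y => mem_centralizer_singleton_iff.1 (this (hS ▸ mem_top y))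

universe u

lemma schur_aux {U Q : Type u} [Finite F] [Group U] [Group Q] [Finite Q] [Finite Φ] (C : ChevSys R F U)
    (S : ChevSys R F Q) {θ : U →* Q} (hθ : ∀ r t, θ (C.x r t) = S.x r t) (hC : C.grp = ⊤)
    (hS : S.grp = ⊤) (hZ : center Q = ⊥) (hP : commutator U = ⊤)
    (hI : ∀ h3 : C.R3, ∀ c ∈ (R.cm Fˣ).ker, C.nconj.Theta h3 c = 1 → c = 1)
    {A : Type*} [CommGroup A] (e : (R.cm Fˣ).ker ≃* A)
    (hL : ∀ (Δ : Type u) [Group Δ] (τ : Δ →* Q), CE τ → ∃ ψ : U →* Δ, τ.comp ψ = θ) : HasSchurMultiplier Q A := by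
  have ce : CE θ := ⟨by
    rw [← MonoidHom.range_eq_top, MonoidHom.range_eq_map, ← hC, StSys.grp, StSys.map_U hθ]; exact hS,
    ChevSys.ker_le_center hθ hC⟩
  have cz : ∀ g : Q, (∀ a, a * g = g * a) → g = 1 := fun g hg => mem_bot.1 (hZ.le (mem_center_iff.2 hg))
  have r3 : S.R3 := S.nconj.r3 fun y _ hy => cz y fun a => by
    have : S.grp ≤ centralizer {y} := S.U_le_iff.2 fun r _ t => mem_centralizer_singleton_iff.2
      (mul_inv_eq_iff_eq_mul.1 (hy r t)).symm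
    exact mem_centralizer_singleton_iff.1 (this (hS.ge (mem_top a)))
  have h3 : C.R3 := C.nconj.r3_of_central fun r t u ht hu => ce.cent (by
    rw [MonoidHom.mem_ker, map_mul, map_mul, map_inv, map_h hθ, map_h hθ, map_h hθ, r3 r t u ht hu, mul_inv_cancel])
  have k : θ.ker = (R.cm Fˣ).ker.map (C.nconj.Theta h3) := by
    rw [← center_eq C hC h3]
    refine le_antisymm ce.cent fun g hg => cz _ fun a => ?_
    obtain ⟨a, rfl⟩ := ce.surj a
    rw [← map_mul, ← map_mul, mem_center_iff.1 hg]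
  have f := MulEquiv.ofBijective ((C.nconj.Theta h3).subgroupMap (R.cm Fˣ).ker) ⟨(injective_iff_map_eq_one _).2
    fun c hc => Subtype.ext (hI h3 c c.2 (congrArg Subtype.val hc)), MonoidHom.subgroupMap_surjective _ _⟩
  have : Finite θ.ker := Finite.of_equiv _ (f.trans (MulEquiv.subgroupCongr k.symm)).toEquiv
  have := Finite.of_equiv _ (QuotientGroup.quotientKerEquivOfSurjective _ ce.surj).symm.toEquiv
  have := Finite.of_subgroup_quotient θ.ker
  exact schur_of_lift hP ce ((MulEquiv.subgroupCongr k).trans (f.symm.trans e)) hL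

theorem schur_sys {F Q : Type u} [Field F] [Finite F] [Group Q] [Finite Q] [Finite Φ] (S : ChevSys R F Q) (hR : R.Rk2)
    (hS : S.grp = ⊤) (hZ : center Q = ⊥) (hP : commutator (PresentedGroup (coverRels R F)) = ⊤)
    (hI : ∀ (hN : (cover R F).NConj) (h3 : (cover R F).R3), ∀ c ∈ (R.cm Fˣ).ker, hN.Theta h3 c = 1 → c = 1)
    {A : Type*} [CommGroup A] (e : (R.cm Fˣ).ker ≃* A)
    (hL : ∀ (Δ : Type u) [Group Δ] (τ : Δ →* Q), CE τ → ∃ Y : StSys R F Δ, ∀ r t, τ (Y.x r t) = S.x r t) :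
    HasSchurMultiplier Q A := by
  refine schur_aux (S.pull hR (cover R F) S.lift_x) S S.lift_x (cover_grp R F) hS hZ hP (hI _) e fun Δ _ τ h => ?_
  obtain ⟨Y, hY⟩ := hL Δ τ h
  exact ⟨Y.lift, StSys.hom_ext (cover_grp R F) fun r t => ((congrArg τ (Y.lift_x r t)).trans (hY r t)).trans
    (S.lift_x r t).symm⟩

lemma vac {A : Type*} [Ring A] [Algebra F A] {S : StSys R F G} (hN : S.NConj) (h3 : S.R3) {Y : StSys R F Aˣ} {φ : G →* Aˣ}
    (hφ : ∀ r t, φ (S.x r t) = Y.x r t) {p : A} (hp : p ≠ 0) {j : ι}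
    (h : ∀ i c, c ≠ 0 → (Y.h (R.simple i) c).1 * p = (if i = j then c else 1) • p) {c} (hc : hN.Theta h3 c = 1) : c j = 1 := by
  have : ∀ c, (φ (hN.Theta h3 c)).1 * p = (c j : F) • p := fun c => by
    induction c using Pi.mulSingle_induction with
    | one => simp
    | mul c d ih ih' => simp [mul_assoc, ih, ih', smul_smul, mul_comm]
    | mulSingle i c =>
      rw [hN.Theta_single, map_h hφ, h i _ c.ne_zero]
      by_cases e : i = j <;> simp [e, Pi.mulSingle_apply, eq_comm (a := j)]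
  exact Units.ext (smul_left_injective F hp (by simpa [hc] using (this c).symm))

lemma comm_A3' {u v w : E} (h1 : ⁅u, w⁆ ∈ center E) (h3 : ⁅v, w⁆ * ⁅⁅u, v⁆, w⁆ = ⁅⁅u, v⁆, w⁆ * ⁅v, w⁆) :
    ⁅u, ⁅v, w⁆⁆ = ⁅⁅u, v⁆, ⁅v, w⁆⁆ * ⁅⁅u, v⁆, w⁆ := by
  have e1 : ∀ x, ⁅x, ⁅u, w⁆ * w⁆ = ⁅x, w⁆ := fun x => by
    rw [commutatorElement_def, ← mul_assoc, mem_center_iff.1 h1, _root_.mul_inv_rev, ← mul_assoc,
      mem_center_iff.1 (inv_mem h1)]
    group
  have e2 : u * ⁅v, w⁆ * u⁻¹ = ⁅u, v⁆ * ⁅v, w⁆ * (⁅u, v⁆)⁻¹ * ⁅⁅u, v⁆, w⁆ := by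
    rw [conjugate_commutatorElement, show u * w * u⁻¹ = ⁅u, w⁆ * w by group, e1]
    simp only [commutatorElement_def]; group
  rw [commutatorElement_def u ⁅v, w⁆, e2, commutatorElement_def ⁅u, v⁆ ⁅v, w⁆, mul_assoc _ _ ⁅v, w⁆⁻¹,
    mul_assoc _ ⁅v, w⁆⁻¹, mul_right_inj, mul_inv_eq_iff_eq_mul, mul_assoc, ← h3, inv_mul_cancel_left]

variable (hS : R.SL) {S : StSys R F G}
include hS

lemma perfect (h : S.grp = ⊤) : commutator G = ⊤ := top_unique (h.ge.trans (S.U_le_iff.2 fun r _ t => by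
  obtain ⟨a, h1, -⟩ := hS.nb r r (by simp [RS.pair_self])
  obtain ⟨b, hd⟩ := hS.exists_dec h1
  obtain ⟨ε, e, f⟩ := hS.exists_eps S hd
  simpa [f, e, commutator_def] using commutator_mem_commutator (mem_top (S.x a (ε⁻¹ * t))) (mem_top (S.x b 1))))

variable {τ : E →* G} (h : CE τ)

lemma cm_pos {r s : Φ} (e : 1 ≤ R.pair r s) : h.Cm S r s := by
  obtain ⟨a, h1, h2, h3⟩ := hS.nb r s e
  exact hS.cm_of_wit h h1 h2 (by omega)

lemma key {a b a' b' r : Φ} (hd : R.Dec a b r) (hd' : R.Dec a' b' r) (e : R.pair a a' = 1) : R.pair a b' = 0 ∧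
    ∃ ε₁ ε₂ : F, ε₁ ≠ 0 ∧ ε₂ ≠ 0 ∧ ∀ s₁ s₂ s₃, h.c (S.x a' s₁) (S.x b' (ε₂ * s₂ * s₃)) =
      h.c (S.x a (ε₁ * s₁ * s₂)) (S.x b' (ε₂ * s₂ * s₃)) * h.c (S.x a (ε₁ * s₁ * s₂)) (S.x b s₃) := by
  obtain ⟨β, h1⟩ := hS.exists_dec (a := a') (r := a) (hS.symm a a' ▸ e)
  have p1 := RS.pair_add hd.vec a'
  have p2 := RS.pair_add hd'.vec a
  have p3 := RS.pair_add h1.vec b
  rw [RS.SL.pair_dec hd', hS.symm a' a, e] at p1
  rw [RS.SL.pair_dec hd, e] at p2
  rw [hS.symm b a, hd.pr, hS.symm b a', hS.symm b β] at p3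
  have h2 : R.Dec β b b' := ⟨by omega, by
    have := hd.vec.symm.trans hd'.vec
    rw [h1.vec, add_assoc, add_right_inj] at this
    exact this.symm⟩
  obtain ⟨ε₁, e1, f1⟩ := hS.exists_eps S h1
  obtain ⟨ε₂, e2, f2⟩ := hS.exists_eps S h2
  obtain ⟨ε, -, f⟩ := hS.exists_eps S hd
  refine ⟨by omega, ε₁, ε₂, e1, e2, fun s₁ s₂ s₃ => ?_⟩
  have := comm_A3' (u := h.s (S.x a' s₁)) (v := h.s (S.x β s₂)) (w := h.s (S.x b s₃))
    (h.cent (by simpa [commutatorElement_eq_one_iff_mul_comm] using hS.commute S (by omega) _ _))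
    ((cm_pos hS h (r := b') (s := r) (by simp [RS.SL.pair_dec (hS.dsymm hd')])).comm ((h.τ_c _ _).trans (f2 _ _))
      (by simp only [map_commutatorElement, h.τ_s, f1, f]; rfl))
  rw [h.comm_eq ⁅_, _⁆, h.comm_eq ⁅_, _⁆, h.comm_eq _ ⁅_, _⁆] at this
  simpa only [map_commutatorElement, h.τ_s, f1, f2] using this

lemma eqv_adj (hI : S.Inj) {a b a' b' r : Φ} (hd : R.Dec a b r) (hd' : R.Dec a' b' r) (e : R.pair a a' = 1)
    (c : h.Cm S a b') : RS.SL.Eqv h S a b a' b' := by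
  obtain ⟨-, ε₁, ε₂, e1, e2, key⟩ := key hS h (S := S) hd hd' e
  simp only [c _ _, one_mul] at key
  obtain ⟨ε', e', f'⟩ := hS.exists_eps S hd'
  have k1 : ∀ t u, h.c (S.x a t) (S.x b u) = h.c (S.x a' 1) (S.x b' (ε₂ * (ε₁⁻¹ * t) * u)) :=
    fun t u => by rw [key, mul_one, mul_inv_cancel_left₀ e1]
  have k2 : ∀ t u, h.c (S.x a' t) (S.x b' u) = h.c (S.x a' 1) (S.x b' (t * u)) := fun t u => by
    have := key t 1 (ε₂⁻¹ * u)
    rw [mul_one, mul_one, mul_inv_cancel_left₀ e2, k1] at this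
    rw [this]; congr 2; field_simp
  intro t u t' u' h3
  rw [← h.τ_c, ← h.τ_c, k1, k2 t', h.τ_c, h.τ_c, f', f'] at h3
  rw [k1, k2 t', mul_left_cancel₀ (mul_ne_zero e' one_ne_zero) (hI.x_injective r h3)]

lemma cm_tri (hI : S.Inj) {a b a' b' a'' b'' r : Φ} (hd : R.Dec a b r) (hd' : R.Dec a' b' r) (hd'' : R.Dec a'' b'' r)
    (e : R.pair a a' = 1) (e' : R.pair a a'' = 1) (e'' : R.pair b'' a' = 1) (c : h.Cm S a b'') (c' : h.Cm S b'' b') :
    h.Cm S a b' := by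
  have sw : RS.SL.Eqv h S a b b'' a'' := fun t u t' u' h1 => by
    obtain ⟨ε, -, hε⟩ := hS.exists_eps S hd''
    have h2 : h.c (S.x b'' t') (S.x a'' u') = h.c (S.x a'' (-u')) (S.x b'' t') := by
      have := h.c_mul_left (h.s (S.x a'' (-u'))) (S.x a'' u') (S.x b'' t')
      rw [(cm_pos hS h (r := a'') (s := r) (by simp [RS.SL.pair_dec hd''])).comm (h.τ_s _) ((h.τ_c _ _).trans (hε _ _)),
        mul_inv_cancel_right, h.τ_s, ← S.add] at this
      rw [← h.c_inv, inv_eq_iff_mul_eq_one, ← this]; simp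
    have h3 := congrArg τ h2
    rw [h.τ_c, h.τ_c] at h3
    rw [h2, eqv_adj hS h hI hd hd'' e' c _ _ _ _ (h1.trans h3)]
  have q := hS.eqv_trans h hd (hS.dsymm hd'') sw (eqv_adj hS h hI (hS.dsymm hd'') hd' e'' c')
  obtain ⟨p, ε₁, ε₂, e1, e2, key⟩ := key hS h (S := S) hd hd' e
  intro t u
  have := key (ε₁⁻¹ * t) 1 (ε₂⁻¹ * u)
  simp only [mul_one, mul_inv_cancel_left₀ e1, mul_inv_cancel_left₀ e2] at this
  have k := congrArg τ this
  rw [map_mul, h.τ_c, h.τ_c, h.τ_c, commutatorElement_eq_one_iff_mul_comm.2 (hS.commute S p.ge t u), one_mul] at k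
  rwa [q _ _ _ _ k.symm, eq_comm, mul_eq_right] at this
end gen

variable {F : Type*} [Field F] {G E : Type*} [Group G] [Group E] {l : ℕ} {a b c d : Ix l}

lemma pr_nm2 (h : Ok a b) (h' : Ok c d) : pr (nm a b) (nm c d) = ip l a c - ip l a d - ip l b c + ip l b d := by
  rw [pr_nm h]
  have k := fun x : Ix l => h'.diff (f := fun y => ip l x y) (c := 0) (ip_rev x)
  rw [k, k]; ring

lemma dec_nm (h : Ok a b) (h' : Ok b c) (h'' : Ok a c) : (rsD l).Dec (nm a b) (nm b c) (nm a c) :=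
  ⟨by rw [pairD, pr_nm2 h h']; simp only [ok_iff, ip] at *; grind, funext fun k => by
    have := fun {a b : Ix l} (h : Ok a b) => h.diff (f := fun a => uu l k a) (uu_rev k)
    simp only [rsD, vD, Pi.add_apply, this h, this h', this h'']; ring⟩

lemma typeB {r s : RD l} (e : pr r s = 0) (c : ¬ (Ok r.1.1 s.1.1 ∧ Ok r.1.1 s.1.2)) :
    ∃ x y, Ok x y ∧ r = nm x y ∧ s = nm x y.rev := by
  have p := ok r
  have q := ok_iff.1 (ok s)
  have p1 : Ok r.1.1 r.1.2.rev := by simp only [ok_iff, rev_val] at p ⊢; omega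
  have p2 : Ok r.1.2.rev r.1.1.rev.rev := by simp only [ok_iff, rev_val] at p ⊢; omega
  by_cases d : s.1.1 = r.1.1 ∨ s.1.2 = r.1.1.rev
  · refine ⟨_, _, p, (nm_self r).symm, (pr_two ?_).symm⟩
    rw [pr_nm p1]
    simp only [pr, ip, ok_iff, rev_val, Fin.ext_iff] at *; grind (splits := 30)
  · refine ⟨_, _, p.flip, (pr_two ?_).symm, (pr_two ?_).symm⟩
    · rw [pr_nm p.flip]
      simp only [ip, ok_iff, rev_val] at p ⊢; grind (splits := 30)
    · rw [pr_nm p2]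
      simp only [pr, ip, ok_iff, rev_val, Fin.ext_iff] at *; grind (splits := 30)

lemma wordsD : ∀ r s : RD 0, pr r s = 0 → ∃ w ∈ [[2, 0], [3, 0], [3, 2], [1, 2, 0, 1, 3, 1, 2, 0, 1, 0],
    [1, 2, 0, 1, 3, 0, 1, 2, 0, 1], [3, 1, 2, 0, 1, 3, 1, 2, 0, 1], [1, 2, 0, 1], [1, 3, 0, 1], [1, 3, 2, 1],
    [2, 0, 1, 3, 1, 2, 1, 0], [2, 0, 1, 3, 0, 1, 2, 0], [3, 1, 2, 0, 1, 3, 2, 0]],
    (rsD 0).actL w r = s ∧ (rsD 0).actL w s = r ∧ (rsD 0).etaL w r = (rsD 0).etaL w s := by decide +kernel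

lemma cmA {S : StSys (rsD (l + 1)) F G} {τ : E →* G} (h : CE τ) {a b c d : Ix (l + 1)} (p : Ok a b) (q : Ok c d)
    (u : Ok a c) (v : Ok a d) (w : pr (nm a b) (nm c d) = 0) : h.Cm S (nm a b) (nm c d) := by
  obtain ⟨k, hk⟩ := exists_free [a, b, c, d] (by simp)
  simp only [List.mem_cons, List.not_mem_nil, or_false, forall_eq_or_imp, forall_eq] at hk
  refine slD.cm_of_wit h (a := nm a k) ?_ ?_ ?_ <;> simp only [pairD, w, pr_nm2 hk.1, p, q] <;>
    simp only [ok_iff, ip] at * <;> grind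

theorem lfD {S : ChevSys (rsD l) F G} (hF : l = 0 → ∃ v : F, v ≠ 0 ∧ v ≠ 1) {τ : E →* G} (h : CE τ) :
    ∃ Y : StSys (rsD l) F E, ∀ r t, τ (Y.x r t) = S.x r t := by
  refine slD.exists_lift h S.inj fun r s e => ?_
  rcases l with _ | l
  · have h1 : s ≠ r := by rintro rfl; simp [RS.pair_self] at e
    rcases four_or_three (hF rfl) with h4 | ⟨h4, h5⟩
    · obtain ⟨v, h0, hv⟩ := exists_zpow_ne (m := 2) h4 (k := 2) (by simp) (by simp)
      exact h.cm_of_kill S.nconj (kill_of_TK ⟨r, v, h0, Or.inl ⟨by simp [e], by rwa [RS.pair_self]⟩⟩) (slD.commute _ e.ge)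
    · obtain ⟨w, -, e1, e2, e3⟩ := wordsD r s (pairD r s ▸ e)
      exact h.cm_of_word S.nconj h4 h5 h1 (slD.terms_nil e.ge h1).1 (slD.terms_nil e.ge h1).2 e1 e2 e3
  rw [pairD] at e
  by_cases c : Ok r.1.1 s.1.1 ∧ Ok r.1.1 s.1.2
  · simpa only [nm_self] using cmA h (ok r) (ok s) c.1 c.2 (by simpa only [nm_self] using e)
  obtain ⟨x, y, p, rfl, rfl⟩ := typeB e c
  clear e c
  obtain ⟨j, hj⟩ := exists_free [x, y] (by simp)
  obtain ⟨m, hm⟩ := exists_free [x, y, j] (by simp)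
  simp only [List.mem_cons, List.not_mem_nil, or_false, forall_eq_or_imp, forall_eq] at hj hm
  have p' : Ok x y.rev ∧ Ok y.rev m ∧ Ok j y.rev := by simp only [ok_iff, rev_val] at p hj hm ⊢; omega
  refine cm_tri slD h S.inj (dec_nm p hm.2.1 hm.1) (slD.dsymm (dec_nm p'.1 p'.2.1 hm.1)) (dec_nm hj.1 hm.2.2 hm.1) ?_ ?_ ?_
    (cmA h p hm.2.2 hj.1 hm.1 ?_) (cmA h hm.2.2 p'.1 hj.1.symm p'.2.2 ?_) <;>
    simp only [pairD, pr_nm2, p, p', hj, hm] <;> simp only [ok_iff, ip, rev_val] at p hj hm ⊢ <;> grind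

end H6.DN
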