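import Cfsg.Agent.H6.DN4

/-! The spin representation of type `D` and the Schur multipliers of `PΩ⁺`. -/

set_option autoImplicit false
set_option linter.unusedSectionVars false

namespace H6.DN
open Subgroup Cfsg H5 H6.CA H6.CTR StSys Mult Chev

/-- Clifford relations -/
structure Cl {n : ℕ} {A : Type*} [Ring A] (v : Fin n → A) : Prop where
  sq : ∀ a, a ≠ a.rev → v a * v a = 0
  ac : ∀ a b, v a * v b = (if a = b.rev then 1 else 0) - v b * v a

lemma exists_Cl (F : Type*) [Field F] (n : ℕ) (hn : ∀ a : Fin n, a ≠ a.rev) :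
    ∃ (Q : QuadraticForm F (Fin n → F)) (v : Fin n → CliffordAlgebra Q), Nontrivial (CliffordAlgebra Q) ∧ Cl v := by
  let B := Matrix.toBilin' (Matrix.of fun a b : Fin n => if a < b ∧ a = b.rev then (1 : F) else 0)
  refine ⟨B.toQuadraticMap, fun a => CliffordAlgebra.ι _ (Pi.single a 1), (CliffordAlgebra.changeFormEquiv (Q := 0) (B := B)
    (by simp)).injective.nontrivial, fun a _ => ?_, fun a b => ?_⟩
  · simp [B, Matrix.toBilin'_single]
  · rw [eq_sub_iff_add_eq, CliffordAlgebra.ι_mul_ι_add_swap, LinearMap.BilinMap.polar_toQuadraticMap]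
    simp only [B, Matrix.toBilin'_single, Matrix.of_apply]
    by_cases e : a = b.rev
    · subst e
      rcases lt_or_gt_of_ne (hn b) with h | h <;> simp [h, h.not_gt]
    · simp [e, show b ≠ a.rev from fun h => e (by simp [h])]

section spin
variable {F A : Type*} [Field F] [Ring A] [Algebra F A]

/-- unipotent units -/
def un {x : A} (h : x * x = 0) (t : F) : Aˣ := ⟨1 + t • x, 1 - t • x, by simp [mul_sub, add_mul, h],
  by simp [mul_add, sub_mul, h]⟩

lemma un_comm {x y z : A} (hx : x * x = 0) (hy : y * y = 0) (hz : z * z = 0) (ε : F) (h : y * x = x * y + ε • z)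
    (h1 : x * z = 0) (h2 : y * z = 0) (t u : F) : un hy u * un hx t = un hx t * un hy u * un hz (ε * t * u) :=
  Units.ext (by simp [un, mul_add, add_mul, h, h1, h2, mul_assoc]; module)

variable {n : ℕ} {v : Fin n → A} (hv : Cl v)
include hv

lemma Cl.anti {a b : Fin n} (h : a ≠ b.rev) : v a * v b = -(v b * v a) := by rw [hv.ac, if_neg h, zero_sub]
lemma Cl.anti' {a b : Fin n} (h : a ≠ b.rev) (x : A) : v a * (v b * x) = -(v b * (v a * x)) := by
  rw [← mul_assoc, hv.anti h, neg_mul, mul_assoc]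
lemma Cl.sq' {a : Fin n} (h : a ≠ a.rev) (x : A) : v a * (v a * x) = 0 := by rw [← mul_assoc, hv.sq a h, zero_mul]
lemma Cl.aba {a b : Fin n} (h : a ≠ a.rev) (h' : a ≠ b.rev) (x : A) : v a * (v b * (v a * x)) = 0 := by
  rw [hv.anti' h', hv.sq' h]; simp

lemma Cl.br (a b c d : Fin n) : v a * v b * (v c * v d) = v c * v d * (v a * v b) +
    ((if b = c.rev then v a * v d else 0) - (if a = c.rev then v b * v d else 0) +
    (if b = d.rev then v c * v a else 0) - if a = d.rev then v c * v b else 0) := by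
  have k : ∀ c, v a * v b * v c = v c * (v a * v b) + ((if b = c.rev then v a else 0) - if a = c.rev then v b else 0) :=
    fun c => by
      rw [mul_assoc, hv.ac b, mul_sub, ← mul_assoc, hv.ac a c, sub_mul, mul_assoc]; split_ifs <;> simp <;> abel
  rw [← mul_assoc, k, add_mul, mul_assoc (v c), k, mul_add, mul_assoc]
  simp only [sub_mul, mul_sub, ite_mul, mul_ite, zero_mul, mul_zero]; abel

lemma Cl.vacuum [Nontrivial A] (T : Finset (Fin n)) (h : ∀ a ∈ T, ∀ b ∈ T, a ≠ b.rev) : ∃ p ≠ 0, ∀ a ∈ T, v a * p = 0 := by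
  induction T using Finset.induction_on with
  | empty => exact ⟨1, one_ne_zero, by simp⟩
  | insert a T _ ih =>
    obtain ⟨p, hp, k⟩ := ih fun a ha b hb => h a (by simp [ha]) b (by simp [hb])
    by_cases e : v a * p = 0
    · exact ⟨p, hp, by simpa [e] using k⟩
    refine ⟨_, e, fun b hb => ?_⟩
    rcases Finset.mem_insert.1 hb with rfl | c
    · exact hv.sq' (h b hb b hb) p
    · rw [hv.anti' (h b hb a (by simp)), k b c]; simp
end spin

section spinD
variable {F A : Type*} [Field F] [Ring A] [Algebra F A] {l : ℕ} {v : Ix l → A} (hv : Cl v) {a b c d : Ix l}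
include hv

lemma NN (h : Ok a b) : v a * v b.rev * (v a * v b.rev) = 0 := by
  rw [mul_assoc, hv.aba (rev_ne a).symm (by simpa using h.1)]

/-- root elements in the spin representation -/
def XS (h : Ok a b) (t : F) : Aˣ := un (NN hv h) t

lemma XS_flip (h : Ok a b) (t : F) : XS hv h.flip t = XS hv h (-t) := Units.ext (by
  simp [XS, un, hv.anti (a := a) (b := b.rev) (by simpa using h.1)])

lemma XS_nm (h : Ok a b) (t : F) : XS hv (ok (nm a b)) (ns a b * t) = XS hv h t := by
  rcases h.nm with ⟨-, e, e'⟩ | ⟨-, e, e'⟩ <;> simp only [e, e']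
  · simp
  · exact (XS_flip hv h _).trans (by simp)

lemma s1 (h : Ok a b) (h' : Ok b d) (k : Ok a d) (t u : F) :
    XS hv h' u * XS hv h t = XS hv h t * XS hv h' u * XS hv k (-t * u) := by
  simpa [XS] using un_comm (NN hv h) (NN hv h') (NN hv k) (-1 : F) (by rw [hv.br a]; simp [h.ne, h'.ne, k.ne])
    (by rw [mul_assoc, hv.aba (rev_ne a).symm (by simpa using h.1)])
    (by simpa [mul_assoc] using congrArg (v b * ·) (hv.aba (a := d.rev) (b := a) (by simp [rev_ne]) (by simp [k.ne]) 1)) t u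

lemma s2 (h : Ok a b) (h' : Ok c a) (k : Ok c b) (t u : F) :
    XS hv h' u * XS hv h t = XS hv h t * XS hv h' u * XS hv k (t * u) := by
  simpa [XS] using un_comm (NN hv h) (NN hv h') (NN hv k) (1 : F) (by rw [hv.br c]; simp [h.ne, h'.ne, k.ne])
    (by simpa [mul_assoc] using congrArg (v a * ·) (hv.aba (a := b.rev) (b := c) (by simp [rev_ne]) (by simp [k.ne]) 1))
    (by rw [mul_assoc, hv.aba (rev_ne c).symm (by simpa using h'.1)]) t u

lemma s0 (h : Ok a b) (h' : Ok c d) (h1 : b = c → d = a.rev) (h2 : d = a → c = b.rev) (h3 : d = b.rev → c = a)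
    (h4 : c = a.rev → d = b) (t u : F) : XS hv h' u * XS hv h t = XS hv h t * XS hv h' u := by
  have q : ∀ {x y : Ix l}, x = y → v x * v y = 0 := fun e => e ▸ hv.sq _ (rev_ne _).symm
  have : v a * v b.rev * (v c * v d.rev) = v c * v d.rev * (v a * v b.rev) := by
    rw [hv.br a, ite_eq_right_iff.2 fun e => q (by simp [h1 (Fin.rev_injective e)]),
      ite_eq_right_iff.2 fun e => q (by rw [h4 (by simp [e])]), ite_eq_right_iff.2 fun e => q (h3 (by simp [e])),
      ite_eq_right_iff.2 fun e => q (h2 (by simp [e]))]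
    simp
  exact Units.ext (by simp [XS, un, mul_add, add_mul, this]; module)

variable (F) in
/-- the spin representation -/
def stS : StSys (rsD l) F Aˣ where
  x r := XS hv (ok r)
  add r t u := Units.ext (by simp [XS, un, mul_add, add_mul, NN hv (ok r)]; module)
  comm := fun ⟨⟨a, b⟩, h⟩ ⟨⟨c, d⟩, h'⟩ h1 h2 t u => by
    have k : Ok a b := ⟨h.1, h.2.ne⟩
    have k' : Ok c d := ⟨h'.1, h'.2.ne⟩
    simp only [rsD, ne_eq, Subtype.mk.injEq, Prod.mk.injEq] at h1 h2 ⊢
    split_ifs with e1 e2 e3 e4 <;> simp only [List.map_cons, List.map_nil, List.prod_cons, List.prod_nil, mul_one, pow_one]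
    · obtain ⟨rfl, e⟩ := e1
      rw [mul_assoc (_ : F), XS_nm hv e]; exact s1 hv k k' e t u
    · obtain ⟨rfl, e⟩ := e2
      rw [Int.cast_neg, neg_mul_neg, mul_assoc (_ : F), XS_nm hv e]; exact s2 hv k k' e t u
    · obtain ⟨rfl, e⟩ := e3
      rw [Int.cast_neg, neg_mul_neg, mul_assoc (_ : F), XS_nm hv e]
      simpa [XS_flip hv k'] using s1 hv k k'.flip e t (-u)
    · obtain ⟨rfl, e⟩ := e4
      rw [mul_assoc (_ : F), XS_nm hv e]
      simpa [XS_flip hv k'] using s2 hv k k'.flip e t (-u)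
    · refine s0 hv k k' ?_ ?_ ?_ ?_ t u <;>
        simp only [ok_iff, Fin.ext_iff, rev_val] at h h' h1 h2 e1 e2 e3 e4 k k' ⊢ <;> omega

lemma stS_h (r : RD l) {p : A} (h : v r.1.1 * p = 0) {c : F} (hc : c ≠ 0) :
    (v r.1.2 * p = 0 → ((stS F hv).h r c).1 * p = p) ∧ (v r.1.2.rev * p = 0 → ((stS F hv).h r c).1 * p = c • p) := by
  have o := (ok r).ne
  have k : v r.1.1 * (v r.1.2.rev * p) = 0 := by rw [hv.anti' (by simp [o]), h]; simp
  refine ⟨fun e => ?_, fun e => ?_⟩
  · have k' : v r.1.2 * (v r.1.1.rev * p) = 0 := by rw [hv.anti' (by simp [o]), e]; simp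
    simp [StSys.h, StSys.n, stS, XS, un, rsD, add_mul, mul_assoc, k, k']
  · have k1 : v r.1.1 * (v r.1.2.rev * (v r.1.2 * (v r.1.1.rev * p))) = p := by
      rw [← mul_assoc (v r.1.2.rev), hv.ac r.1.2.rev, if_pos rfl, sub_mul, one_mul, mul_assoc,
        hv.anti' (a := r.1.2.rev) (by simp [o]), e, mul_sub, ← mul_assoc, hv.ac, if_pos (by simp), sub_mul, mul_assoc, h]
      simp
    have k2 : v r.1.2 * (v r.1.1.rev * (v r.1.2 * (v r.1.1.rev * p))) = 0 := hv.aba (rev_ne _).symm (by simp [o]) _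
    simp [StSys.h, StSys.n, stS, XS, un, rsD, add_mul, mul_add, mul_assoc, k, k1, k2, smul_smul, hc]
end spinD

section ker
variable {M : Type*} [CommGroup M] {l : ℕ}

/-- shifted coordinates -/
def DD (c : Fin (l + 4) → M) (m : ℕ) : M := if h : 0 < m ∧ m ≤ l + 4 then c ⟨m - 1, by omega⟩ else 1

lemma DD_succ (c : Fin (l + 4) → M) (j : Fin (l + 4)) : DD c (j + 1) = c j := dif_pos ⟨by omega, by omega⟩

lemma prod_DD (c : Fin (l + 4) → M) (m : ℕ) : ∏ i : Fin (l + 4), c i ^ (if i.1 + 1 = m then (1 : ℤ) else 0) = DD c m := by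
  unfold DD
  split_ifs with h
  · rw [Finset.prod_eq_single ⟨m - 1, by omega⟩ (fun k _ hk => by
      rw [if_neg fun e => hk (Fin.ext (by simp only; omega)), zpow_zero]) (by simp), if_pos (by simp only; omega), zpow_one]
  · exact Finset.prod_eq_one fun k _ => by rw [if_neg (by omega), zpow_zero]

lemma cm_eq (c : Fin (l + 4) → M) : c ∈ ((rsD l).cm M).ker ↔ ∀ j < l + 4, DD c (j + 1) * DD c (j + 1) =
    DD c (if j ≤ l + 2 then j else l + 2) * DD c (if j ≤ l + 1 then j + 2 else 0) * DD c (if j = l + 1 then l + 4 else 0) := by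
  have : ∀ i j : Fin (l + 4), (rsD l).A i ((rsD l).simple j) = (if i.1 + 1 = j + 1 then 1 else 0) + (if i.1 + 1 = j + 1 then 1 else 0) -
      ((if i.1 + 1 = if j.1 ≤ l + 2 then j.1 else l + 2 then 1 else 0) + (if i.1 + 1 = if j.1 ≤ l + 1 then j.1 + 2 else 0 then 1 else 0) +
        if i.1 + 1 = if j.1 = l + 1 then l + 4 else 0 then 1 else 0) := fun i j => by
    simp only [rsD, wD, ip, sD, pp]; grind (splits := 30)
  simp only [MonoidHom.mem_ker, RS.cm, MonoidHom.mk'_apply, funext_iff, this, zpow_sub, zpow_add, Finset.prod_mul_distrib,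
    Finset.prod_inv_distrib, prod_DD, Pi.one_apply, mul_inv_eq_one, Fin.forall_iff]

/-- parametrization of the kernel -/
def par (l : ℕ) : M × M →* (Fin (l + 4) → M) := MonoidHom.mk' (fun y k => if k.1 ≤ l + 1 then (y.2 / y.1) ^ (k.1 + 1) else
  if k.1 = l + 2 then y.1 else y.2) fun y z => funext fun k => by
    simp only [Prod.fst_mul, Prod.snd_mul, Pi.mul_apply]; split_ifs <;> simp [mul_div_mul_comm, mul_pow]

lemma par_inj : Function.Injective (par (M := M) l) := fun y z e => Prod.ext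
  (by simpa [par] using congrFun e ⟨l + 2, by omega⟩) (by simpa [par] using congrFun e ⟨l + 3, by omega⟩)

lemma mem_ker (c : Fin (l + 4) → M) : c ∈ ((rsD l).cm M).ker ↔
    ∃ y z, z * z = y * y ∧ y * y = (z / y) ^ (l + 2) ∧ c = par l (y, z) := by
  rw [cm_eq]
  have z : ∀ c : Fin (l + 4) → M, DD c 0 = 1 := fun c => by simp [DD]
  constructor
  · intro h
    have k : ∀ m ≤ l + 2, DD c m = DD c 1 ^ m := fun m => by
      induction m using Nat.twoStepInduction with
      | zero => simp [z]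
      | one => simp
      | more m i1 i2 =>
        intro hm
        have := h m (by omega)
        rw [if_pos (by omega), if_pos (by omega), if_neg (by omega), i1 (by omega), i2 (by omega), z, mul_one, ← pow_add,
          show m + 1 + (m + 1) = m + (m + 2) by ring, pow_add] at this
        exact (mul_left_cancel this).symm
    have h1 := h (l + 1) (by omega)
    have h2 := h (l + 2) (by omega)
    have h3 := h (l + 3) (by omega)
    rw [if_pos (by omega), if_pos (by omega), if_pos rfl, k _ le_rfl, k (l + 1) (by omega)] at h1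
    rw [if_pos (by omega), if_neg (by omega), if_neg (by omega), k _ le_rfl, z, mul_one, mul_one] at h2
    rw [if_neg (by omega), if_neg (by omega), if_neg (by omega), k _ le_rfl, z, mul_one, mul_one] at h3
    have e : DD c (l + 4) / DD c (l + 3) = DD c 1 := by
      nth_rw 2 [← h2] at h1
      rw [pow_succ, mul_assoc, mul_assoc, mul_right_inj, mul_left_comm, mul_right_inj] at h1
      exact div_eq_iff_eq_mul.2 h1.symm
    refine ⟨DD c (l + 3), DD c (l + 4), h3.trans h2.symm, e ▸ h2, funext fun j => ?_⟩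
    simp only [par, MonoidHom.mk'_apply, e, ← DD_succ c j]
    split_ifs with a b
    · exact k _ (by omega)
    · rw [b]
    · rw [show j.1 + 1 = l + 4 by omega]
  · rintro ⟨y, w, h1, h2, rfl⟩ j hj
    have k : ∀ m ≤ l + 2, DD (par l (y, w)) m = (w / y) ^ m := fun m hm => by
      simp only [DD, par, MonoidHom.mk'_apply]
      split_ifs <;> first | omega | (congr 1; omega) | simp [show m = 0 by omega]
    have k1 : DD (par l (y, w)) (l + 3) = y := by simp [DD, par]
    have k2 : DD (par l (y, w)) (l + 4) = w := by simp [DD, par]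
    obtain h | rfl | rfl | rfl : j ≤ l ∨ j = l + 1 ∨ j = l + 2 ∨ j = l + 3 := by omega
    · rw [if_pos (by omega), if_pos (by omega), if_neg (by omega), z, k _ (by omega), k _ (by omega), k _ (by omega)]
      group
    · rw [if_pos (by omega), if_pos le_rfl, if_pos rfl, k _ le_rfl, k _ (by omega), k1, k2]
      nth_rw 2 [← h2]
      rw [pow_succ, mul_assoc, mul_assoc, mul_right_inj, ← mul_assoc, div_mul_cancel, mul_comm]
    · simp [k, k1, z, h2]
    · simp [k, k2, z, h1, h2]

lemma ker_odd (hl : Odd l) : ((rsD l).cm M).ker = (powMonoidHom 4).ker.map ((par l).comp ((MonoidHom.id M).prod (powMonoidHom 3))) := by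
  obtain ⟨m, rfl⟩ := hl
  have k : ∀ x : M, x ^ 2 = 1 → x ^ (2 * m + 1 + 2) = x := fun x h => by
    rw [show 2 * m + 1 + 2 = 2 * (m + 1) + 1 by ring, pow_succ, pow_mul, h]; simp
  ext c
  rw [mem_ker]
  constructor
  · rintro ⟨y, z, h1, h2, rfl⟩
    have e : (z / y) ^ 2 = 1 := by rw [div_pow, sq, sq, h1, div_self']
    rw [k _ e] at h2
    exact ⟨y, show y ^ 4 = 1 by rw [← e, ← h2]; simp [pow_succ, mul_assoc], by simp [pow_succ, h2]⟩
  · rintro ⟨y, h, rfl⟩
    have h : y ^ 4 = 1 := h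
    have e : y ^ 3 / y = y * y := by simp [pow_succ]
    exact ⟨y, y ^ 3, by rw [← pow_add, show 3 + 3 = 4 + 2 from rfl, pow_add, h, one_mul, sq],
      by rw [e, k _ (by rw [← h, ← sq, ← pow_mul])], rfl⟩

lemma ker_even (hl : Even l) : ((rsD l).cm M).ker = ((powMonoidHom 2).ker.prod (powMonoidHom 2).ker).map (par l) := by
  obtain ⟨m, rfl⟩ := hl
  have k : ∀ y z : M, z * z = y * y → (z / y) ^ (m + m + 2) = 1 := fun y z h => by
    rw [show m + m + 2 = 2 * (m + 1) by ring, pow_mul, div_pow, sq, sq, h, div_self', one_pow]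
  ext c
  rw [mem_ker]
  constructor
  · rintro ⟨y, z, h1, h2, rfl⟩
    rw [k _ _ h1] at h2
    exact ⟨(y, z), by simp [mem_prod, sq, h1, h2], rfl⟩
  · rintro ⟨⟨y, z⟩, h, rfl⟩
    simp only [mem_prod, SetLike.mem_coe, MonoidHom.mem_ker, powMonoidHom_apply, sq] at h
    exact ⟨y, z, h.2.trans h.1.symm, by rw [k _ _ (h.2.trans h.1.symm), h.1], rfl⟩
end ker

lemma mu_equiv (F : Type*) [Field F] [Fintype F] (k : ℕ) :
    Nonempty ((powMonoidHom k : Fˣ →* Fˣ).ker ≃* Multiplicative (ZMod (Nat.gcd k (Fintype.card F - 1)))) := by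
  have := IsCyclic.card_powMonoidHom_ker (G := Fˣ) k
  rw [Nat.card_units, Nat.card_eq_fintype_card (α := F), Nat.gcd_comm] at this
  exact ⟨(this ▸ zmodCyclicMulEquiv inferInstance).symm⟩

universe u in
lemma injD {F : Type u} {G : Type*} [Field F] [Group G] {l : ℕ} {S : StSys (rsD l) F G}
    (hS : ∀ {A : Type u} [Ring A] [Algebra F A] (Y : StSys (rsD l) F Aˣ), ∃ φ : G →* Aˣ, ∀ r t, φ (S.x r t) = Y.x r t)
    (hN : S.NConj) (h3 : S.R3) (c) (hc : c ∈ ((rsD l).cm Fˣ).ker) (h : hN.Theta h3 c = 1) : c = 1 := by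
  obtain ⟨Q, v, _, hv⟩ := exists_Cl F (2 * l + 7 + 1) fun a => (rev_ne a).symm
  obtain ⟨φ, hφ⟩ := hS (stS F hv)
  obtain ⟨y, z, -, -, rfl⟩ := (mem_ker c).1 hc
  have k : ∀ m : ℕ, m = l + 3 ∨ m = l + 4 → ∀ j : Fin (l + 4), j.1 + m = 2 * l + 6 → par l (y, z) j = 1 := fun m hm j hj => by
    obtain ⟨p, hp, k⟩ := hv.vacuum (Finset.univ.filter fun a => a.1 ≤ l + 2 ∨ a.1 = m) (by
      simp only [Finset.mem_filter, ne_eq, Fin.ext_iff, rev_val]; omega)
    simp only [Finset.mem_filter, Finset.mem_univ, true_and] at k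
    refine vac hN h3 hφ hp (fun i c hc => ?_) h
    have := stS_h hv ((rsD l).simple i) (k _ (.inl (by simp only [rsD, sD, pp]; split_ifs <;> omega))) hc
    split_ifs with e
    · exact this.2 (k _ (by simp only [rsD, sD, rev_val]; omega))
    · exact (this.1 (k _ (by simp only [rsD, sD, Fin.ext_iff] at e ⊢; omega))).trans (one_smul _ _).symm
  have h1 := k (l + 4) (by simp) ⟨l + 2, by omega⟩ (by simp only; omega)
  have h2 := k (l + 3) (by simp) ⟨l + 3, by omega⟩ (by simp only; omega)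
  simp [par] at h1 h2
  rw [h1, h2]; exact map_one _

theorem schurD {F : Type*} [Field F] [Fintype F] {l : ℕ} (hF : l = 0 → Fintype.card F ≠ 2) {A : Type*} [CommGroup A]
    (e : ((rsD l).cm Fˣ).ker ≃* A) : HasSchurMultiplier (POmega F (quadFormPlus (l + 4) F)) A := by
  obtain ⟨i⟩ := isoD (F := F) (l := l)
  have := Cfsg.Agent.S0296.result (F := F) (l + 4) (by omega)
  have hS := tr_grp (S := (sysD F l).restrict) StSys.restrict_grp i
  have : Finite (POmega F (quadFormPlus (l + 4) F)) := Finite.of_equiv _ i.toEquiv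
  refine schur_sys _ rk2D hS ?_ (perfect slD (cover_grp _ _)) (injD fun Y => ⟨Y.lift, Y.lift_x⟩) e
    fun _ _ _ h => lfD (fun e => exists_ne_of_card (hF e)) h
  refine (IsSimpleGroup.eq_bot_or_eq_top_of_normal _ inferInstance).resolve_right fun h => ?_
  have := perfect slD hS
  rw [(commutator_eq_bot_iff_center_eq_top _).2 h] at this
  exact bot_ne_top this

lemma gcd_two {q l : ℕ} (hq : 0 < q) (hl : l ≠ 0) : Nat.gcd 2 (q ^ l - 1) = Nat.gcd 2 (q - 1) := by
  have := Nat.even_pow' (m := q) hl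
  have := pow_pos hq l
  rw [Nat.gcd_rec, Nat.gcd_rec 2 (q - 1)]; congr 1
  simp only [Nat.even_iff] at *; omega

lemma gcd_four {q l : ℕ} (hq : 0 < q) (hl : Odd l) : Nat.gcd 4 (q ^ l - 1) = Nat.gcd 4 (q - 1) := by
  have h := Nat.even_pow' (m := q) hl.pos.ne'
  have := pow_pos hq l
  rw [Nat.gcd_rec, Nat.gcd_rec 4 (q - 1)]
  simp only [Nat.even_iff] at h
  by_cases e : q % 2 = 0
  · have : ∀ n, n % 2 = 1 → Nat.gcd (n % 4) 4 = 1 := fun n h => by
      obtain h | h : n % 4 = 1 ∨ n % 4 = 3 := by omega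
      all_goals rw [h]; rfl
    rw [this _ (by omega), this _ (by omega)]
  obtain ⟨m, rfl⟩ := hl
  have : (q ^ 2) % 4 = 1 := by
    obtain h | h : q % 4 = 1 ∨ q % 4 = 3 := by omega
    all_goals simp [Nat.pow_mod, h]
  have : q ^ (2 * m + 1) % 4 = q % 4 := by simp [pow_succ _ (2 * m), pow_mul, Nat.mul_mod, Nat.pow_mod _ m, this]
  congr 1; omega

end H6.DN
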