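import Cfsg.Agent.H6.CA13
import Cfsg.Agent.S0277

/-! # Counting matrices fixed modulo scalars by a field automorphism -/

namespace H6.FixCos
open Matrix H5 H6.CA

variable {F F₀ : Type*} [Field F] [Field F₀] {n : ℕ}

theorem count (hn : 1 ≤ n) (φ : F₀ →+* F) (A : Subgroup Fˣ) (B : Subgroup (GL (Fin n) F₀))
    (P : GL (Fin n) F → Prop)
    (hP : ∀ g, P g ↔ ∃ k ∈ A, ∃ g₀ ∈ B, g.1 = (k : F) • g₀.1.map φ)
    (hB : ∀ k : F₀ˣ, Units.map (φ : F₀ →* F) k ∈ A → GeneralLinearGroup.scalar (Fin n) k ∈ B) :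
    Nat.card {g // P g} * Nat.card (A.comap (Units.map (φ : F₀ →* F))) = Nat.card A * Nat.card B := by
  haveI : Nonempty (Fin n) := ⟨⟨0, hn⟩⟩
  let f : A × B →* GL (Fin n) F := MonoidHom.noncommCoprod
    ((GeneralLinearGroup.scalar (Fin n)).comp A.subtype) ((GeneralLinearGroup.map φ).comp B.subtype)
    (fun a b => by
      ext i j
      simp [Matrix.mul_apply, Matrix.diagonal_apply, mul_comm])
  have hf : ∀ x : A × B, (f x).1 = ((x.1 : Fˣ) : F) • x.2.1.1.map φ := by
    intro x; ext i j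
    show (GeneralLinearGroup.scalar (Fin n) x.1.1 * GeneralLinearGroup.map φ x.2.1).1 i j = _
    simp [Matrix.mul_apply, Matrix.diagonal_apply]
  have h1 : Nat.card {g // P g} = Nat.card f.range := by
    refine Nat.card_congr (Equiv.subtypeEquivRight fun g => ?_)
    rw [hP]
    constructor
    · rintro ⟨k, hk, g₀, hg, e⟩
      exact ⟨(⟨k, hk⟩, ⟨g₀, hg⟩), Units.ext (by rw [hf, e])⟩
    · rintro ⟨x, rfl⟩
      exact ⟨x.1, x.1.2, x.2, x.2.2, hf x⟩
  have h2 : Nat.card (A.comap (Units.map (φ : F₀ →* F))) = Nat.card f.ker := by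
    let u : A.comap (Units.map (φ : F₀ →* F)) → f.ker := fun k =>
      ⟨(⟨Units.map (φ : F₀ →* F) k.1, k.2⟩⁻¹, ⟨_, hB k.1 k.2⟩), by
        rw [MonoidHom.mem_ker]; apply Units.ext; rw [hf]; ext i j
        by_cases h : i = j <;> simp [h, Matrix.diagonal_apply, Matrix.one_apply]⟩
    refine Nat.card_congr (Equiv.ofBijective u ⟨fun a b h => ?_, fun x => ?_⟩)
    · have := congrArg (fun y : f.ker => ((y.1.1⁻¹ : A) : Fˣ)) h
      simp only [u, inv_inv] at this
      exact Subtype.ext (Units.ext (φ.injective (congrArg Units.val this)))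
    · obtain ⟨⟨k, g⟩, hx⟩ := x
      have e := hf (k, g)
      rw [MonoidHom.mem_ker.1 hx] at e
      have e' : ∀ i j, (1 : Matrix (Fin n) (Fin n) F) i j = (k.1 : F) * φ (g.1.1 i j) := fun i j => by
        simpa using congrFun (congrFun e i) j
      let i₀ : Fin n := ⟨0, hn⟩
      have e0 := e' i₀ i₀
      rw [Matrix.one_apply_eq] at e0
      have hz : g.1.1 i₀ i₀ ≠ 0 := by intro h; rw [h] at e0; simp at e0
      have hk : Units.map (φ : F₀ →* F) (Units.mk0 _ hz) = k.1⁻¹ := by
        apply Units.ext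
        simp only [Units.coe_map, Units.val_mk0, MonoidHom.coe_coe, Units.val_inv_eq_inv_val]
        exact eq_inv_of_mul_eq_one_right e0.symm
      refine ⟨⟨Units.mk0 _ hz, by rw [Subgroup.mem_comap, hk]; exact A.inv_mem k.2⟩, ?_⟩
      apply Subtype.ext
      refine Prod.ext (Subtype.ext ?_) (Subtype.ext ?_)
      · simp [u, hk]
      · ext i j
        apply φ.injective
        apply mul_left_cancel₀ k.1.ne_zero
        simp only [u]
        rw [← e']
        by_cases h : i = j
        · subst h; simp [← e0]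
        · simp [h]
  rw [h1, h2, ← Nat.card_prod A B, Subgroup.card_eq_card_quotient_mul_card_subgroup f.ker,
    Nat.card_congr (QuotientGroup.quotientKerEquivRange f).toEquiv]

theorem exists_fixed [Fintype F] (σ : F ≃+* F) : ∃ (F₀ : Subfield F),
    Fintype.card F = Nat.card F₀ ^ orderOf σ ∧ Fx F₀.subtype σ := by
  classical
  have := Fintype.ofFinite (Subgroup.zpowers σ)
  have := Fintype.ofFinite (FixedPoints.subfield (Subgroup.zpowers σ) F)
  have h2 := Module.card_eq_pow_finrank (K := FixedPoints.subfield (Subgroup.zpowers σ) F) (V := F)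
  rw [FixedPoints.finrank_eq_card, ← Nat.card_eq_fintype_card (α := Subgroup.zpowers σ),
    Nat.card_zpowers, ← Nat.card_eq_fintype_card (α := FixedPoints.subfield _ _)] at h2
  refine ⟨_, h2, fun x => ⟨fun hx => ⟨⟨x, ?_⟩, rfl⟩, ?_⟩⟩
  · rintro ⟨_, n, rfl⟩; exact MulAction.fixedBy_subset_fixedBy_zpow F σ n hx
  · rintro ⟨a, rfl⟩; exact a.2 ⟨σ, Subgroup.mem_zpowers σ⟩

theorem fix_iff (hn : 1 ≤ n) {φ : F₀ →+* F} {σ : F ≃+* F} (hφ : Fx φ σ) (g : GL (Fin n) F) :
    (∃ c : F, c ≠ 0 ∧ g.1.map σ = c • g.1) ↔ ∃ (k : Fˣ) (g₀ : GL (Fin n) F₀), g.1 = (k : F) • g₀.1.map φ := by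
  haveI : Nonempty (Fin n) := ⟨⟨0, hn⟩⟩
  constructor
  · rintro ⟨c, hc, e⟩
    refine exists_map hφ (c := c⁻¹) fun i j => ?_
    have := congrFun (congrFun e i) j
    simp only [Matrix.map_apply, Matrix.smul_apply, smul_eq_mul] at this
    rw [this]; field_simp
  · rintro ⟨k, g₀, e⟩
    refine ⟨σ k / k, by simp, ?_⟩
    rw [e]; ext i j
    simp only [Matrix.map_apply, Matrix.smul_apply, smul_eq_mul, map_mul, hφ.map]
    field_simp

theorem gl_count [Fintype F] {q₀ r : ℕ} (hr : r.Prime) (hn : 1 ≤ n) (hF : Fintype.card F = q₀ ^ r)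
    (σ : F ≃+* F) (hσ : orderOf σ = r) :
    Nat.card {g : GL (Fin n) F // ∃ c : F, c ≠ 0 ∧ g.1.map σ = c • g.1} =
      (q₀ ^ r - 1) / (q₀ - 1) * ∏ i : Fin n, (q₀ ^ n - q₀ ^ (i : ℕ)) := by
  classical
  obtain ⟨F₀, h1, h2⟩ := exists_fixed σ
  have := Fintype.ofFinite F₀
  have h3 : Nat.card F₀ = q₀ := by
    rw [hF, hσ] at h1; exact (Nat.pow_left_injective hr.ne_zero h1).symm
  have h4 := count hn F₀.subtype ⊤ ⊤ _ (fun g => (fix_iff hn h2 g).trans (by simp)) (by simp)
  rw [Subgroup.comap_top, Subgroup.card_top, Subgroup.card_top, Subgroup.card_top, Nat.card_units,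
    Nat.card_units, card_GL_field, ← Nat.card_eq_fintype_card, h3, Nat.card_eq_fintype_card (α := F),
    hF] at h4
  have h5 : 1 < q₀ := h3 ▸ Finite.one_lt_card
  have h6 : q₀ - 1 ∣ q₀ ^ r - 1 := by simpa using Nat.sub_dvd_pow_sub_pow q₀ 1 r
  apply Nat.eq_of_mul_eq_mul_right (show 0 < q₀ - 1 by omega)
  rw [h4, mul_right_comm, Nat.div_mul_cancel h6]

theorem mem_GU [Fintype F] {q : ℕ} (hF : Fintype.card F = q ^ 2) (g : GL (Fin n) F) :
    g ∈ Cfsg.GU n F q ↔ ∀ j k, ∑ i, g.1 i j * conj hF (g.1 i k) = if j = k then 1 else 0 := by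
  have e : ∀ u v : Fin n → F, Cfsg.hermForm n F q u v = ∑ i, u i * conj hF (v i) := fun _ _ => rfl
  constructor
  · intro h j k
    have := h (Pi.single j 1) (Pi.single k 1)
    simp only [e, Units.coeHom_apply, Matrix.mulVec_single_one, Matrix.col_apply] at this
    rw [this]
    by_cases h : j = k
    · subst h; simp [Pi.single_apply, apply_ite]
    · simp [Pi.single_apply, apply_ite, h, Ne.symm h]
  · intro h u v
    simp only [e, Units.coeHom_apply, Matrix.mulVec, dotProduct, map_sum, map_mul, Finset.sum_mul,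
      Finset.mul_sum]
    calc _ = ∑ k, ∑ j, (∑ i, g.1 i j * conj hF (g.1 i k)) * (u j * conj hF (v k)) := by
          rw [Finset.sum_comm]
          refine Finset.sum_congr rfl fun k _ => ?_
          rw [Finset.sum_comm]
          refine Finset.sum_congr rfl fun j _ => ?_
          rw [Finset.sum_mul]
          exact Finset.sum_congr rfl fun i _ => by ring
      _ = _ := by simp [h]

theorem gu_count [Fintype F] {q₀ q r : ℕ} (hr : r.Prime) (hr2 : r ≠ 2) (hn : 1 ≤ n) (hq : q = q₀ ^ r)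
    (hF : Fintype.card F = q ^ 2) (σ : F ≃+* F) (hσ : orderOf σ = r) :
    Nat.card {g : Cfsg.GU n F q // ∃ c : F, c ≠ 0 ∧ g.1.1.map σ = c • g.1.1} =
      (q + 1) / (q₀ + 1) * (q₀ ^ (n * (n - 1) / 2) *
        ∏ i ∈ Finset.range n, (if Even i then q₀ ^ (i + 1) + 1 else q₀ ^ (i + 1) - 1)) := by
  classical
  obtain ⟨F₀, h1, h2⟩ := exists_fixed σ
  have := Fintype.ofFinite F₀
  have h3 : Fintype.card F₀ = q₀ ^ 2 := by
    rw [hF, hσ, hq, ← pow_mul, mul_comm, pow_mul, Nat.card_eq_fintype_card] at h1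
    exact (Nat.pow_left_injective hr.ne_zero h1).symm
  have hc : ∀ a : F₀, conj hF (F₀.subtype a) = F₀.subtype (conj h3 a) := by
    intro a
    rw [conj_apply, conj_apply, ← map_pow]; congr 1
    obtain ⟨m, rfl⟩ := hr.odd_of_ne_two hr2
    rw [hq, pow_succ, pow_mul, pow_mul, ← h3, FiniteField.pow_card_pow]
  have hA : ∀ k : F₀ˣ, Units.map (F₀.subtype : F₀ →* F) k ∈ (powMonoidHom (q + 1) : Fˣ →* Fˣ).ker ↔
      k.1 * conj h3 k.1 = 1 := by
    intro k
    rw [MonoidHom.mem_ker, Units.ext_iff, ← F₀.subtype.injective.eq_iff, map_mul, ← hc, conj_apply]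
    simp [pow_succ']
  have h4 := count hn F₀.subtype (powMonoidHom (q + 1) : Fˣ →* Fˣ).ker (Cfsg.GU n F₀ q₀)
    (fun g => g ∈ Cfsg.GU n F q ∧ ∃ c : F, c ≠ 0 ∧ g.1.map σ = c • g.1) (fun g => by
      rw [fix_iff hn h2 g, mem_GU hF]
      constructor
      · rintro ⟨hg, k, g₀, e⟩
        have e1 : ∀ j l, (k * conj hF k) * F₀.subtype (∑ i, g₀.1 i j * conj h3 (g₀.1 i l)) =
            if j = l then 1 else 0 := fun j l => by
          rw [← hg, e, map_sum, Finset.mul_sum]
          refine Finset.sum_congr rfl fun i _ => ?_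
          simp only [Matrix.map_apply, Matrix.smul_apply, smul_eq_mul, map_mul, hc]; ring
        let i₀ : Fin n := ⟨0, hn⟩
        set l := ∑ i, g₀.1 i i₀ * conj h3 (g₀.1 i i₀) with hl
        have e2 := e1 i₀ i₀
        rw [if_pos rfl, ← hl] at e2
        obtain ⟨m, hm⟩ := exists_norm_eq h3 (μ := l) (by
          simp only [hl, map_sum, map_mul, conj_conj, mul_comm])
        have m0 : m ≠ 0 := by rintro rfl; rw [← hm] at e2; simp at e2
        have m1 : F₀.subtype m ≠ 0 := by simpa using m0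
        have l0 : l ≠ 0 := by intro h; rw [h] at e2; simp at e2
        refine ⟨k * Units.mk0 _ m1, ?_, GeneralLinearGroup.scalar (Fin n) (Units.mk0 m⁻¹ (inv_ne_zero m0)) * g₀, ?_, ?_⟩
        · rw [MonoidHom.mem_ker, Units.ext_iff, powMonoidHom_apply, Units.val_pow_eq_pow_val, pow_succ',
            ← conj_apply hF]
          simp only [Units.val_mul, Units.val_mk0, map_mul, hc, Units.val_one]
          rw [← e2, ← hm, map_mul]; ring
        · rw [mem_GU h3]
          intro j j'
          have e3 : ∀ i j, (GeneralLinearGroup.scalar (Fin n) (Units.mk0 m⁻¹ (inv_ne_zero m0)) * g₀).1 i j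
              = m⁻¹ * g₀.1 i j := fun i j => by simp [Matrix.mul_apply, Matrix.diagonal_apply]
          simp only [e3, map_mul, map_inv₀]
          have e4 : ∑ i, g₀.1 i j * conj h3 (g₀.1 i j') = l * if j = j' then 1 else 0 := by
            apply F₀.subtype.injective
            apply mul_left_cancel₀ (left_ne_zero_of_mul_eq_one e2)
            rw [e1, map_mul, ← mul_assoc, e2]; split_ifs <;> simp
          calc _ = (m * conj h3 m)⁻¹ * ∑ i, g₀.1 i j * conj h3 (g₀.1 i j') := by
                rw [Finset.mul_sum]; exact Finset.sum_congr rfl fun i _ => by ring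
            _ = _ := by rw [e4, hm, ← mul_assoc, inv_mul_cancel₀ l0, one_mul]
        · rw [e]; ext i j
          simp [Matrix.mul_apply, Matrix.diagonal_apply]
          have : (m : F) ≠ 0 := m1
          field_simp
      · rintro ⟨k, hk, g₀, hg, e⟩
        refine ⟨fun j l => ?_, k, g₀, e⟩
        have e1 := congrArg F₀.subtype ((mem_GU h3 g₀).1 hg j l)
        have e2 := congrArg Units.val (MonoidHom.mem_ker.1 hk)
        rw [powMonoidHom_apply, Units.val_pow_eq_pow_val, pow_succ', ← conj_apply hF, Units.val_one] at e2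
        rw [apply_ite F₀.subtype, map_one, map_zero] at e1
        rw [← e1, ← one_mul (F₀.subtype _), ← e2, e, map_sum, Finset.mul_sum]
        refine Finset.sum_congr rfl fun i _ => ?_
        simp only [Matrix.map_apply, Matrix.smul_apply, smul_eq_mul, map_mul, hc]; ring)
    (fun k hk => by
      rw [mem_GU h3]
      intro j l
      rw [hA] at hk
      by_cases h : j = l
      · subst h; simp [Matrix.diagonal_apply, apply_ite, hk]
      · simp [Matrix.diagonal_apply, apply_ite, h, Ne.symm h])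
  have h5 : Nat.card ((powMonoidHom (q + 1) : Fˣ →* Fˣ).ker.comap (Units.map (F₀.subtype : F₀ →* F)))
      = q₀ + 1 := by
    rw [← card_units_pow_succ h3]; congr 2; ext k
    rw [Subgroup.mem_comap, hA, MonoidHom.mem_ker, Units.ext_iff, conj_apply]
    simp [pow_succ']
  rw [h5, card_units_pow_succ hF, Cfsg.Agent.S0277.result h3] at h4
  have h6 : q₀ + 1 ∣ q + 1 := by
    simpa [hq] using Odd.nat_add_dvd_pow_add_pow q₀ 1 (hr.odd_of_ne_two hr2)
  rw [Nat.card_congr (Equiv.subtypeSubtypeEquivSubtypeInter (· ∈ Cfsg.GU n F q)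
    (fun g : GL (Fin n) F => ∃ c : F, c ≠ 0 ∧ g.1.map σ = c • g.1))]
  apply Nat.eq_of_mul_eq_mul_right (show 0 < q₀ + 1 by omega)
  rw [h4, mul_right_comm, Nat.div_mul_cancel h6]

end H6.FixCos
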