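import Cfsg.Agent.H6.CA15
import Cfsg.Agent.S0304

/-! Involutory graph automorphisms, part 1: reflexive bilinear forms over finite fields, their similarity classes and
projective similarity groups. -/

set_option autoImplicit false
set_option linter.unusedSectionVars false

namespace H6.GA
open H5 H5.Form H6.CA Module Matrix

/-- bilinear forms -/
abbrev BF (F V : Type*) [Field F] [AddCommGroup V] [Module F V] := V →ₗ[F] V →ₗ[F] F

variable {F : Type*} [Field F] {V W U : Type*} [AddCommGroup V] [Module F V] [AddCommGroup W] [Module F W]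
  [AddCommGroup U] [Module F U] {B : BF F V} {B' : BF F W} {B'' : BF F U} {e : V ≃ₗ[F] W} {c : F}

/-- non-degenerate -/
def Nd (B : BF F V) : Prop := ∀ y, (∀ x, B x y = 0) → y = 0
/-- symmetric -/
def Sy (B : BF F V) : Prop := ∀ x y, B y x = B x y
/-- alternating -/
def Al (B : BF F V) : Prop := ∀ x, B x x = 0
/-- non-degenerate and reflexive -/
def Good (B : BF F V) : Prop := Nd B ∧ (Sy B ∨ Al B)
/-- similarity with multiplier `c` -/
def SE (B : BF F V) (B' : BF F W) (e : V ≃ₗ[F] W) (c : F) : Prop := c ≠ 0 ∧ ∀ u v, B' (e u) (e v) = c * B u v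
/-- similar forms -/
def Si (B : BF F V) (B' : BF F W) : Prop := ∃ e c, SE B B' e c
/-- a totally isotropic subspace of dimension `m` exists -/
def Pl (B : BF F V) (m : ℕ) : Prop := ∃ T : Submodule F V, finrank F T = m ∧ ∀ x ∈ T, B x x = 0

lemma SE.symm (h : SE B B' e c) : SE B' B e.symm c⁻¹ := ⟨inv_ne_zero h.1, fun u v => by
  rw [eq_inv_mul_iff_mul_eq₀ h.1, ← h.2]; simp⟩

lemma SE.trans {e' : W ≃ₗ[F] U} {c' : F} (h : SE B B' e c) (h' : SE B' B'' e' c') : SE B B'' (e.trans e') (c' * c) :=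
  ⟨mul_ne_zero h'.1 h.1, fun u v => by rw [LinearEquiv.trans_apply, LinearEquiv.trans_apply, h'.2, h.2, mul_assoc]⟩

lemma SE.mul {g t : V ≃ₗ[F] V} {c' : F} (h : SE B B g c) (h' : SE B B t c') : SE B B (g * t) (c * c') := h'.trans h

lemma se_one : SE B B 1 1 := ⟨one_ne_zero, by simp⟩

lemma se_scal (k : Fˣ) : SE B B (scal V k) (k * k) := ⟨by simp, fun u v => by simp [mul_assoc]⟩

lemma Si.symm (h : Si B B') : Si B' B := have ⟨_, _, h⟩ := h; ⟨_, _, h.symm⟩
lemma Si.trans (h : Si B B') (h' : Si B' B'') : Si B B'' := have ⟨_, _, h⟩ := h; have ⟨_, _, h'⟩ := h'; ⟨_, _, h.trans h'⟩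

lemma Si.nd (h : Si B B') (n : Nd B') : Nd B := have ⟨e, _, h⟩ := h; fun y hy => e.map_eq_zero_iff.1 (n _ fun x => by
  obtain ⟨x, rfl⟩ := e.surjective x
  rw [h.2, hy, mul_zero])

lemma Si.sy (h : Si B B') (n : Sy B') : Sy B := have ⟨e, _, h⟩ := h; fun x y =>
  mul_left_cancel₀ h.1 (by rw [← h.2, ← h.2, n])

lemma Si.al (h : Si B B') (n : Al B') : Al B := have ⟨e, _, h⟩ := h; fun x =>
  mul_left_cancel₀ h.1 (by rw [← h.2, n, mul_zero])

lemma Si.good (h : Si B B') (n : Good B') : Good B := ⟨h.nd n.1, n.2.imp h.sy h.al⟩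

lemma Si.pl (h : Si B B') {m : ℕ} (n : Pl B m) : Pl B' m := by
  obtain ⟨e, c, h⟩ := h
  obtain ⟨T, a, b⟩ := n
  refine ⟨T.map e.toLinearMap, by rw [LinearEquiv.finrank_map_eq, a], ?_⟩
  rintro _ ⟨x, hx, rfl⟩
  exact (h.2 x x).trans (by rw [b x hx, mul_zero])

lemma Al.neg (h : Al B) (x y : V) : B y x = -B x y := by
  have := h (x + y)
  simp only [map_add, LinearMap.add_apply, h x, h y] at this
  linear_combination this

lemma Al.sy (h : Al B) (h2 : (2 : F) = 0) : Sy B := fun x y => by linear_combination h.neg x y - B x y * h2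

lemma Good.sy (h : Good B) (h2 : (2 : F) = 0) : Sy B := h.2.elim id (·.sy h2)

lemma Nd.ex_ne [Nontrivial V] (h : Nd B) : ∃ x y, B x y ≠ 0 := by
  obtain ⟨y, hy⟩ := exists_ne (0 : V)
  by_contra! e
  exact hy (h y fun x => e x y)

lemma not_al [Nontrivial V] (h2 : (2 : F) ≠ 0) (n : Nd B) (s : Sy B) : ¬ Al B := fun a => by
  obtain ⟨x, y, h⟩ := n.ex_ne
  exact h (mul_left_cancel₀ h2 (by linear_combination a.neg x y - s x y))

lemma good_of_refl (n : Nd B) (h : ∀ u v, B u v = c * B v u) : Good B := by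
  refine ⟨n, ?_⟩
  by_cases e : c = 1
  · exact .inl fun x y => by rw [h, e, one_mul]
  · exact .inr fun x => (mul_eq_zero.1 (show (c - 1) * B x x = 0 by linear_combination -h x x)).resolve_left (sub_ne_zero.2 e)

lemma SE.uniq [Nontrivial V] (n : Nd B) {c' : F} (h : SE B B' e c) (h' : SE B B' e c') : c = c' := by
  obtain ⟨x, y, k⟩ := n.ex_ne
  exact mul_right_cancel₀ k ((h.2 x y).symm.trans (h'.2 x y))

/-- pulling back a form -/
lemma se_comap (B' : BF F W) (e : V ≃ₗ[F] W) : SE (B'.compl₁₂ e.toLinearMap e.toLinearMap) B' e 1 :=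
  ⟨one_ne_zero, by simp⟩

lemma exists_si [FiniteDimensional F V] [FiniteDimensional F W] (B' : BF F W) (h : finrank F V = finrank F W) :
    ∃ B : BF F V, Si B B' := ⟨_, _, _, se_comap B' (LinearEquiv.ofFinrankEq V W h)⟩

variable (B) in
/-- the similarity group -/
def SG : Subgroup (V ≃ₗ[F] V) where
  carrier := {g | ∃ c, SE B B g c}
  one_mem' := ⟨1, se_one⟩
  mul_mem' := fun ⟨_, h⟩ ⟨_, h'⟩ => ⟨_, h.mul h'⟩
  inv_mem' := fun ⟨_, h⟩ => ⟨_, h.symm⟩

lemma SE.conj (h : SE B B' e c) {g : V ≃ₗ[F] V} {d : F} : SE B' B' (autCongr e g) d ↔ SE B B g d := by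
  have k : ∀ {V W : Type _} [AddCommGroup V] [Module F V] [AddCommGroup W] [Module F W] {B : BF F V} {B' : BF F W}
      {e : V ≃ₗ[F] W} {c : F} (_ : SE B B' e c) {g : V ≃ₗ[F] V}, SE B B g d → SE B' B' (autCongr e g) d :=
    fun h g k => by
      have := (h.symm.trans k).trans h
      rwa [mul_left_comm, mul_inv_cancel₀ h.1, mul_one] at this
  refine ⟨fun a => ?_, k h⟩
  have := (h.trans a).trans h.symm
  rw [mul_left_comm, inv_mul_cancel₀ h.1, mul_one] at this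
  convert this
  ext x; simp

lemma SE.det_sq [FiniteDimensional F V] (n : Nd B) {g : V ≃ₗ[F] V} (h : SE B B g c) :
    (LinearEquiv.det g : F) ^ 2 = c ^ finrank F V := by
  classical
  let b := Module.finBasis F V
  have h1 := LinearMap.toMatrix₂_compl₁₂ b b b b B g.toLinearMap g.toLinearMap
  rw [show B.compl₁₂ g.toLinearMap g.toLinearMap = c • B from LinearMap.ext₂ fun u v => by simpa using h.2 u v,
    map_smul] at h1
  have h3 := congrArg Matrix.det h1
  rw [det_smul, det_mul, det_mul, det_transpose, LinearMap.det_toMatrix, Fintype.card_fin] at h3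
  rw [LinearEquiv.coe_det]
  apply mul_left_cancel₀ ((LinearMap.separatingRight_iff_det_ne_zero b).1 n)
  linear_combination -h3

section pq
instance : (Sc F V).Normal := ⟨fun _ h g => have ⟨c, h⟩ := mem_Sc.1 h; mem_Sc.2 ⟨c, fun x => by simp [h]⟩⟩

/-- a linear group modulo scalars -/
abbrev PQ (D : Subgroup (V ≃ₗ[F] V)) := D ⧸ (Sc F V).subgroupOf D

lemma pq_gen {X Y : Type*} [Group X] [Group Y] {D : Subgroup (V ≃ₗ[F] V)} (j : X →* (V ≃ₗ[F] V)) (hj : ∀ x, j x ∈ D)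
    (sur : ∀ g ∈ D, ∃ k x, g = scal V k * j x) (π : X →* Y) (hπ : Function.Surjective π)
    (hk : ∀ x, π x = 1 ↔ j x ∈ Sc F V) : Nonempty (PQ D ≃* Y) := by
  refine equiv_of_sur ((QuotientGroup.mk' _).comp (j.codRestrict D hj)) (fun g => ?_) π hπ fun x =>
    (hk x).trans (QuotientGroup.eq_one_iff (N := (Sc F V).subgroupOf D) (j.codRestrict D hj x)).symm
  obtain ⟨⟨g, hg⟩, rfl⟩ := QuotientGroup.mk_surjective g
  obtain ⟨k, x, rfl⟩ := sur g hg
  exact ⟨x, QuotientGroup.eq.2 (mem_Sc.2 ⟨k, fun v => by simp⟩)⟩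

variable {ι : Type} [Fintype ι] [DecidableEq ι] [Nonempty ι]

lemma pq_gl [Fintype F] {H : Subgroup (GL ι F)} {D : Subgroup (V ≃ₗ[F] V)} (e : (ι → F) ≃ₗ[F] V)
    (h : ∀ g, g ∈ H ↔ autCongr e (glEquiv g) ∈ D) : Nonempty (PQ D ≃* Cfsg.projQuot H) := by
  refine pq_gen ((glEquiv.trans (autCongr e)).toMonoidHom.comp H.subtype) (fun x => (h _).1 x.2) (fun g hg => ?_)
    (QuotientGroup.mk' _) (QuotientGroup.mk'_surjective _) fun x => ?_
  · obtain ⟨g, rfl⟩ := (glEquiv.trans (autCongr e)).surjective g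
    exact ⟨1, ⟨g, (h g).2 hg⟩, by simp⟩
  · refine (QuotientGroup.eq_one_iff _).trans (mem_scalars'.trans (Iff.trans ?_ mem_Sc.symm))
    refine exists_congr fun c => ⟨fun k v => ?_, fun k v => e.injective ?_⟩
    · show e (glEquiv x.1 (e.symm v)) = _
      rw [show glEquiv x.1 _ = _ from k _]; simp
    · simpa using k (e v)

lemma pq_sim [Fintype F] {H : Subgroup (GL ι F)} {B₀ : BF F (ι → F)} (hH : ∀ g, g ∈ H ↔ glEquiv g ∈ SG B₀)
    (h : Si B₀ B) : Nonempty (PQ (SG B) ≃* Cfsg.projQuot H) :=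
  have ⟨e, _, h⟩ := h
  pq_gl e fun g => (hH g).trans (exists_congr fun _ => h.conj.symm)

lemma mem_simG {B₀ : BF F (ι → F)} {f : (ι → F) → (ι → F) → F} (hf : ∀ u v, B₀ u v = f u v) (g : GL ι F) :
    g ∈ Cfsg.Geo.similarityGroup f ↔ glEquiv g ∈ SG B₀ :=
  ⟨fun ⟨c, h⟩ => ⟨c, c.ne_zero, by simpa [hf] using h⟩, fun ⟨c, h⟩ => ⟨Units.mk0 c h.1, by simpa [hf] using h.2⟩⟩

lemma card_pq [Fintype F] [Finite V] [Nontrivial V] (n : Nd B) (h : ∀ c ≠ 0, ∃ g, SE B B g c) :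
    Nat.card (PQ (SG B)) = Nat.card {g // SE B B g 1} := by
  let μ : SG B →* Fˣ := ⟨⟨fun g => Units.mk0 _ g.2.choose_spec.1, Units.ext ((1 : SG B).2.choose_spec.uniq n se_one)⟩,
    fun a b => Units.ext ((a * b).2.choose_spec.uniq n (a.2.choose_spec.mul b.2.choose_spec))⟩
  have hμ : ∀ (g : SG B) c, SE B B g c → (μ g : F) = c := fun g c k => g.2.choose_spec.uniq n k
  have sur : μ.range = ⊤ := MonoidHom.range_eq_top.2 fun c => have ⟨g, k⟩ := h c c.ne_zero
    ⟨⟨g, _, k⟩, Units.ext (hμ _ _ k)⟩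
  have h1 := μ.ker.card_mul_index
  rw [Subgroup.index_ker, sur, Subgroup.card_top] at h1
  have h2 := Subgroup.card_eq_card_quotient_mul_card_subgroup ((Sc F V).subgroupOf (SG B))
  have h3 : Nat.card ((Sc F V).subgroupOf (SG B)) = Nat.card Fˣ := by
    rw [Nat.card_congr (Subgroup.subgroupOfEquivOfLe (by rintro _ ⟨k, rfl⟩; exact ⟨_, se_scal k⟩)).toEquiv]
    refine (Nat.card_congr (MonoidHom.ofInjective fun a b k => ?_).toEquiv).symm
    obtain ⟨v, hv⟩ := exists_ne (0 : V)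
    exact Units.ext (smul_left_injective F hv (DFunLike.congr_fun k v))
  have h4 : Nat.card μ.ker = Nat.card {g // SE B B g 1} := Nat.card_congr
    ⟨fun g => ⟨g.1.1, by have := g.1.2.choose_spec; rwa [show g.1.2.choose = 1 from congrArg Units.val g.2] at this⟩,
      fun g => ⟨⟨g.1, _, g.2⟩, Units.ext (hμ _ _ g.2)⟩, fun _ => rfl, fun _ => rfl⟩
  rw [← h1, h3, h4] at h2
  exact (Nat.eq_of_mul_eq_mul_right Nat.card_pos h2).symm
end pq

section forms
variable (B) in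
/-- the quadratic form `B v v` -/
def qf : Form (Kind.orth F) V :=
  ofQuadFun (fun v => B v v) (B + B.flip) (fun c x => by simp [mul_assoc]) fun x y => by simp; ring

/-- the polar form -/
def bo (Ψ : Form (Kind.orth F) V) : BF F V := Ψ.B
/-- the alternating form -/
def bs (Ψ : Form (Kind.symp F) V) : BF F V := Ψ.B

lemma bo_apply (Ψ : Form (Kind.orth F) V) (x y : V) : bo Ψ x y = Ψ.B x y := rfl
lemma bs_apply (Ψ : Form (Kind.symp F) V) (x y : V) : bs Ψ x y = Ψ.B x y := rfl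
lemma qf_Q (x : V) : (qf B).Q x = B x x := rfl
lemma qf_B (s : Sy B) (x y : V) : (qf B).B x y = 2 * B x y := by
  show B x y + B y x = _
  rw [s x y, two_mul]

lemma qf_nd (h2 : (2 : F) ≠ 0) (n : Nd B) (s : Sy B) : (qf B).Nondeg := fun y h => n y fun x =>
  (mul_eq_zero.1 ((qf_B s x y).symm.trans (h x))).resolve_left h2

lemma qf_ts {m : ℕ} : (qf B).HasTS m ↔ Pl B m := exists_congr fun _ => and_congr_right fun _ => orth_ts

lemma bo_sy (Ψ : Form (Kind.orth F) V) : Sy (bo Ψ) := Ψ.orth_symm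
lemma bs_al (Ψ : Form (Kind.symp F) V) : Al (bs Ψ) := Ψ.symp_self

lemma bo_ts (h2 : (2 : F) ≠ 0) {Ψ : Form (Kind.orth F) V} {m : ℕ} : Pl (bo Ψ) m ↔ Ψ.HasTS m :=
  exists_congr fun _ => and_congr_right fun _ => Iff.symm (orth_ts.trans (by simp [bo_apply, orth_self, h2]))

lemma se_of_q (h2 : (2 : F) ≠ 0) (s : Sy B) (s' : Sy B') (c0 : c ≠ 0) (h : ∀ x, B' (e x) (e x) = c * B x x) :
    SE B B' e c := ⟨c0, fun u v => mul_left_cancel₀ h2 (by
  have := h (u + v)
  simp only [map_add, LinearMap.add_apply, h u, h v, s u v, s' (e u) (e v)] at this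
  linear_combination this)⟩

lemma mem_qsimG (h2 : (2 : F) ≠ 0) {ι : Type} [Fintype ι] [DecidableEq ι] (Ψ : Form (Kind.orth F) (ι → F)) (g : GL ι F) :
    g ∈ Cfsg.Geo.quadSimilarityGroup Ψ.Q ↔ glEquiv g ∈ SG (bo Ψ) :=
  ⟨fun ⟨c, h⟩ => ⟨c, se_of_q h2 (bo_sy Ψ) (bo_sy Ψ) c.ne_zero fun x => by simp [bo_apply, orth_self, h, mul_left_comm]⟩,
    fun ⟨c, h⟩ => ⟨Units.mk0 c h.1, fun v => mul_left_cancel₀ h2 (by
      simpa [bo_apply, orth_self, mul_left_comm] using h.2 v v)⟩⟩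

variable [FiniteDimensional F V] [FiniteDimensional F W]

lemma al_iso (n : Nd B) (n' : Nd B') (a : Al B) (a' : Al B') (h : finrank F V = finrank F W) : ∃ e, SE B B' e 1 :=
  (symp_iso (Φ := ofAlt B a) (Ψ := ofAlt B' a') n n' h).imp fun _ k => ⟨one_ne_zero, fun u v => (k.1 u v).trans (one_mul _).symm⟩

lemma al_even (n : Nd B) (a : Al B) : ∃ m, finrank F V = 2 * m :=
  (Nondeg.symp_hasTS (Φ := ofAlt B a) n).imp fun _ h => h.1

lemma Good.sy_odd (g : Good B) {m : ℕ} (h : finrank F V = 2 * m + 1) : Sy B := g.2.resolve_right fun a => by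
  obtain ⟨k, hk⟩ := al_even g.1 a
  omega

variable [Finite F] (h2 : (2 : F) ≠ 0)
include h2

lemma sy_iso (n : Nd B) (n' : Nd B') (s : Sy B) (s' : Sy B') {m : ℕ} (hV : finrank F V = 2 * m + 2)
    (hW : finrank F W = 2 * m + 2) (h : Pl B (m + 1) ↔ Pl B' (m + 1)) : ∃ e, SE B B' e 1 := by
  have : ∃ e, (qf B).IsIso (qf B') e := by
    by_cases p : Pl B (m + 1)
    · exact split_iso (qf_nd h2 n s) (qf_nd h2 n' s') hV hW (qf_ts.2 p) (qf_ts.2 (h.1 p))
    · exact minus_iso (qf_nd h2 n s) (qf_nd h2 n' s') hV hW (mt qf_ts.1 p) (mt qf_ts.1 (mt h.2 p))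
  exact this.imp fun e k => se_of_q h2 s s' one_ne_zero fun x => by rw [one_mul]; exact k.2 x

lemma sy_odd (n : Nd B) (n' : Nd B') (s : Sy B) (s' : Sy B') {m : ℕ} (hV : finrank F V = 2 * m + 1)
    (hW : finrank F W = 2 * m + 1) : Si B B' :=
  have ⟨e, c, c0, h⟩ := odd_sim (qf_nd h2 n s) (qf_nd h2 n' s') hV hW
  ⟨e, c, se_of_q h2 s s' c0 h⟩

lemma exists_mult (g : Good B) {m : ℕ} (hV : finrank F V = 2 * m + 2) (c : F) (c0 : c ≠ 0) : ∃ t, SE B B t c := by
  have k : Si (c • B) B := ⟨LinearEquiv.refl F V, c⁻¹, inv_ne_zero c0, fun u v => by simp [c0]⟩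
  have : ∃ e, SE (c • B) B e 1 := g.2.elim (fun s => sy_iso h2 (k.nd g.1) g.1 (k.sy s) s hV hV ⟨k.pl, k.symm.pl⟩)
    fun a => al_iso (k.nd g.1) g.1 (k.al a) a rfl
  exact this.imp fun e h => ⟨c0, by simpa using h.2⟩

lemma exists_det (n : Nd B) (s : Sy B) {m : ℕ} (hV : finrank F V = 2 * m + 2) {c d : F} (c0 : c ≠ 0)
    (h : d ^ 2 = c ^ (2 * m + 2)) : ∃ t, SE B B t c ∧ (LinearEquiv.det t : F) = d := by
  have : Nontrivial V := Module.nontrivial_of_finrank_pos (R := F) (by omega)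
  obtain ⟨t, ht⟩ := exists_mult h2 ⟨n, .inl s⟩ hV c c0
  have := ht.det_sq n
  rw [hV, ← h, sq_eq_sq_iff_eq_or_eq_neg] at this
  rcases this with e | e
  · exact ⟨t, ht, e⟩
  · obtain ⟨v, hv⟩ := not_forall.1 (not_al h2 n s)
    have r : SE B B ((qf B).r v) 1 := se_of_q h2 s s one_ne_zero fun x => by
      rw [one_mul]; exact isom_Q ((qf B).r_mem v) x
    exact ⟨_, mul_one c ▸ ht.mul r, by rw [map_mul, det_r (Φ := qf B) hv]; simp [e]⟩

omit h2 in
lemma al_det (n : Nd B) (a : Al B) {m : ℕ} (hV : finrank F V = 2 * m) {t : V ≃ₗ[F] V} (h : SE B B t c) :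
    (LinearEquiv.det t : F) = c ^ m := by
  obtain ⟨e, he⟩ := al_iso n (sympF_nondeg (F := F) m) a (bs_al _) (by simp [hV, two_mul])
  rw [← det_autCongr e]
  replace h := he.conj.2 h
  generalize autCongr e t = t at h
  let D : Matrix (Fin m ⊕ Fin m) (Fin m ⊕ Fin m) F := diagonal (Sum.elim (fun _ => c⁻¹) fun _ => 1)
  obtain ⟨t, rfl⟩ := glEquiv.surjective t
  have : D * t.1 ∈ symplecticGroup (Fin m) F := (mem_symplectic_iff m _).2 fun u v => by
    have : Cfsg.sympForm m F (t.1 *ᵥ u) (t.1 *ᵥ v) = c * Cfsg.sympForm m F u v := by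
      rw [← sympF_B, ← sympF_B]; exact h.2 u v
    rw [← mulVec_mulVec, ← mulVec_mulVec, ← inv_mul_eq_iff_eq_mul₀ h.1 |>.2 this, sympForm_eq, sympForm_eq, Finset.mul_sum]
    exact Finset.sum_congr rfl fun i _ => by simp [D, mulVec_diagonal]; ring
  have := SymplecticGroup.det_eq_one this
  rw [det_mul, det_diagonal, Fintype.prod_sum_type] at this
  simp only [Sum.elim_inl, Sum.elim_inr, Finset.prod_const, Finset.card_univ, Fintype.card_fin, one_pow, mul_one,
    inv_pow] at this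
  rw [det_glEquiv', GeneralLinearGroup.val_det_apply, ← inv_mul_eq_one₀ (pow_ne_zero m h.1) |>.1 this]
end forms

end H6.GA
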