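import Cfsg.Agent.H6.GA1

/-! Involutory graph automorphisms, part 2: symmetric bilinear forms in characteristic two; the classification of the
involutions of an abstract dictionary `Dict` between automorphisms and reflexive forms. -/

set_option autoImplicit false
set_option linter.unusedSectionVars false

namespace H6.GA
open H5 H5.Form H6.CA Module Matrix

variable {F : Type*} [Field F] {V W : Type*} [AddCommGroup V] [Module F V] [AddCommGroup W] [Module F W]
  {B : BF F V} {B' : BF F W} {w : V}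

lemma pq_congr (h : Si B B') : Nonempty (PQ (SG B) ≃* PQ (SG B')) := by
  obtain ⟨e, c, h⟩ := h
  refine pq_gen ((autCongr e).symm.toMonoidHom.comp (SG B').subtype)
    (fun x => x.2.imp fun d k => h.conj.1 (by simpa using k)) (fun g hg => ⟨1, ⟨autCongr e g, hg.imp fun _ => h.conj.2⟩, by simp⟩)
    (QuotientGroup.mk' _) (QuotientGroup.mk'_surjective _) fun x => ?_
  refine (QuotientGroup.eq_one_iff _).trans (mem_Sc.trans (Iff.trans ?_ mem_Sc.symm))
  refine exists_congr fun c => ⟨fun k v => ?_, fun k v => ?_⟩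
  · show e.symm (x.1 (e v)) = _
    rw [show x.1 _ = _ from k _]; simp
  · obtain ⟨v, rfl⟩ := e.surjective v
    have : e.symm (x.1 (e v)) = _ := k v
    rw [← map_smul, ← this]; simp

variable (B w) in
/-- `B` plus the square of the linear form `B · w` -/
def tw : BF F V := B + (B.flip w).smulRight (B.flip w)

lemma tw_apply (u v : V) : tw B w u v = B u v + B u w * B v w := rfl

/-- the orthogonal decomposition defined by a vector of norm one -/
def dec (h : B w w = 1) : V ≃ₗ[F] F × LinearMap.ker (B.flip w) where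
  toFun x := (B x w, ⟨x - B x w • w, by simp [h]⟩)
  invFun p := p.1 • w + p.2
  map_add' x y := Prod.ext (by simp) (Subtype.ext (by simp [add_smul]; abel))
  map_smul' c x := Prod.ext (by simp) (Subtype.ext (by simp [smul_sub, smul_smul]))
  left_inv x := by simp
  right_inv p := by
    have : B p.2 w = 0 := p.2.2
    exact Prod.ext (by simp [h, this]) (Subtype.ext (by simp [h, this]))

variable (F) in
/-- the standard odd-dimensional symmetric form in characteristic two -/
def B1 (m : ℕ) : BF F (F × (Fin m ⊕ Fin m → F)) :=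
  (LinearMap.fst F _ _).smulRight (LinearMap.fst F _ _) + (bs (sympF F m)).compl₁₂ (LinearMap.snd F _ _) (LinearMap.snd F _ _)

lemma B1_apply {m : ℕ} (u v : F × (Fin m ⊕ Fin m → F)) : B1 F m u v = u.1 * v.1 + (sympF F m).B u.2 v.2 := rfl

lemma B1_nd {m : ℕ} : Nd (B1 F m) := fun y h => Prod.ext (by simpa [B1_apply] using h (1, 0))
  (sympF_nondeg m _ fun x => by simpa [B1_apply, -sympF_B] using h (0, x))

lemma exists_transv {m : ℕ} {w : Fin m ⊕ Fin m → F} (hw : w ≠ 0) : ∃ t : symplecticGroup (Fin m) F,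
    Cfsg.IsTransvection t.1 ∧ ∀ x, t.1 *ᵥ x = x + (sympF F m).B x w • w := by
  let A := vecMulVec w (Matrix.J (Fin m) F *ᵥ w)
  have hA : ∀ x, A *ᵥ x = (sympF F m).B x w • w := fun x => by
    rw [sympF_B, Cfsg.sympForm, dotProduct_comm, vecMulVec_mulVec, op_smul_eq_smul]
  have h1 : ∀ x, (1 + A) *ᵥ x = x + (sympF F m).B x w • w := fun x => by rw [add_mulVec, one_mulVec, hA]
  refine ⟨⟨1 + A, (mem_symplectic_iff m _).2 fun u v => ?_⟩, ⟨?_, ?_⟩, h1⟩
  · rw [h1, h1, ← sympF_B, ← sympF_B]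
    simp only [map_add, LinearMap.add_apply, B_smul_left, B_smul_right, Kind.symp_σ, symp_self, symp_symm _ v w]
    ring
  · show (1 + A - 1).rank = 1
    rw [add_sub_cancel_left, Matrix.rank, ← finrank_span_singleton (K := F) hw,
      show LinearMap.range A.mulVecLin = F ∙ w from le_antisymm ?_ ((Submodule.span_singleton_le_iff_mem _ _).2 ?_)]
    · rintro _ ⟨x, rfl⟩
      exact Submodule.mem_span_singleton.2 ⟨_, (hA x).symm⟩
    · obtain ⟨x, hx⟩ := (sympF_nondeg m).exists_ne hw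
      exact ⟨((sympF F m).B x w)⁻¹ • x, by rw [map_smul, mulVecLin_apply, hA, smul_smul, inv_mul_cancel₀ hx, one_smul]⟩
  · show (1 + A - 1) * (1 + A - 1) = 0
    rw [add_sub_cancel_left]
    exact matrix_ext_mulVec fun x => by rw [← mulVec_mulVec, hA, hA, B_smul_left, symp_self]; simp

section two
variable [Fintype F] (h2 : (2 : F) = 0)
include h2

lemma exists_sqrt (c : F) : ∃ k, c = k * k := FiniteField.isSquare_of_char_two (ringChar_eq_two h2) c

lemma sq_inj {a b : F} (h : a * a = b * b) : a = b :=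
  sub_eq_zero.1 (mul_self_eq_zero.1 (by linear_combination h + (b * b - a * b) * h2))

lemma pq_two [Nontrivial V] (n : Nd B) {X : Type*} [Group X] (j : X →* (V ≃ₗ[F] V)) (inj : Function.Injective j)
    (hj : ∀ g, SE B B g 1 ↔ g ∈ j.range) : Nonempty (PQ (SG B) ≃* X) := by
  refine pq_gen j (fun x => ⟨1, (hj _).2 ⟨x, rfl⟩⟩) (fun g ⟨c, hc⟩ => ?_) (MonoidHom.id X) Function.surjective_id fun x =>
    ⟨fun e => by rw [show x = 1 from e, map_one]; exact one_mem _, fun ⟨k, e⟩ => inj ?_⟩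
  · obtain ⟨k, rfl⟩ := exists_sqrt h2 c
    let u := Units.mk0 k (left_ne_zero_of_mul hc.1)
    obtain ⟨x, hx⟩ := (hj (scal V u⁻¹ * g)).1 (by
      have := (se_scal u⁻¹).mul hc
      rwa [show _ * (k * k) = 1 by simp [u, mul_mul_mul_comm _ _ k, left_ne_zero_of_mul hc.1]] at this)
    exact ⟨u, x, by simp [hx]⟩
  · have := ((hj _).2 ⟨x, e.symm⟩).uniq n (se_scal k)
    rw [MonoidHom.id_apply, ← e, show k = 1 from Units.ext (sq_inj h2 (by simpa using this.symm)), map_one, map_one]

lemma pq_B1 {m : ℕ} : Nonempty (PQ (SG (B1 F m)) ≃* (sympF F m).isom) := by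
  refine pq_two h2 B1_nd ⟨⟨fun t => (LinearEquiv.refl F F).prodCongr t.1, rfl⟩, fun _ _ => rfl⟩
    (fun a b e => Subtype.ext (LinearEquiv.ext fun x => congrArg (fun g => (g (0, x)).2) e)) fun g => ⟨fun h => ?_, ?_⟩
  · have h1 : ∀ x, (g x).1 = x.1 := fun x => sq_inj h2 (by simpa [B1_apply, symp_self, -sympF_B] using h.2 x x)
    have h3 : ∀ x y, (sympF F m).B (g x).2 (g y).2 = (sympF F m).B x.2 y.2 := fun x y => by
      simpa [B1_apply, h1, -sympF_B] using h.2 x y
    have h4 : (g (1, 0)).2 = 0 := sympF_nondeg m _ fun x => by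
      obtain ⟨y, hy⟩ := g.surjective (0, x)
      simpa [hy, -sympF_B] using h3 y (1, 0)
    let t := (LinearMap.snd F _ _).comp (g.toLinearMap.comp (LinearMap.inr F _ _))
    have ht : Function.Injective t := (injective_iff_map_eq_zero _).2 fun x e => sympF_nondeg m _ fun y => by
      rw [← h3 (0, y) (0, x), show (g (0, x)).2 = 0 from e, map_zero]
    refine ⟨⟨LinearEquiv.ofInjectiveEndo t ht, (mem_isom_symp _).2 fun x y => h3 (0, x) (0, y)⟩,
      LinearEquiv.ext fun x => Prod.ext (h1 x).symm ?_⟩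
    show (g (0, x.2)).2 = (g x).2
    conv_rhs => rw [show x = x.1 • (1, 0) + (0, x.2) by simp, map_add, map_smul]
    simp [h4]
  · rintro ⟨t, rfl⟩
    exact ⟨one_ne_zero, fun u v => (congrArg (u.1 * v.1 + ·) (isom_B t.2 u.2 v.2)).trans (one_mul _).symm⟩

lemma pgo_two (m : ℕ) : Nonempty (Cfsg.PGO F (Cfsg.quadFormOdd m F) ≃* (sympF F m).isom) := by
  have : CharP F 2 := CharTwo.of_one_ne_zero_of_two_eq_zero one_ne_zero h2
  obtain ⟨a⟩ := Cfsg.Agent.S0304.result (F := F) m
  obtain ⟨b⟩ := pq_gl (D := Dl (oddF F m)) (LinearEquiv.refl F _) fun g => mem_qsim (Φ := oddF F m)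
  obtain ⟨c⟩ := pq_gen (D := Dl (oddF F m)) (oddF F m).isom.subtype (fun x => isom_le_Dl x.2) (fun g hg => by
      obtain ⟨c, h⟩ := dl_sim ⟨g, hg⟩
      obtain ⟨k, rfl⟩ := exists_sqrt h2 c
      obtain ⟨t, a, b⟩ := Sim.decomp (k := Units.mk0 k (left_ne_zero_of_mul h.ne)) h
      exact ⟨_, ⟨t, a⟩, b⟩) (MonoidHom.id _) Function.surjective_id fun x =>
    ⟨fun e => by rw [show x = 1 from e, map_one]; exact one_mem _, fun ⟨k, e⟩ => by
      have := isom_Q x.2 (Pi.single (.inl ()) 1)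
      rw [← show scal _ k = x.1 from e, scal_apply, orth_smul] at this
      have h1 : (k : F) = 1 := sq_inj h2 (by simpa [Cfsg.quadFormOdd] using this)
      exact Subtype.ext (e.symm.trans (by rw [Units.val_eq_one.1 h1, map_one]; rfl))⟩
  exact ⟨b.symm.trans (c.trans ((oEquiv (oddF F m)).symm.trans (a.trans (spEquiv m))))⟩

lemma pq_B3 {m : ℕ} {w : Fin m ⊕ Fin m → F} (hw : w ≠ 0) {t : symplecticGroup (Fin m) F}
    (ht : ∀ x, t.1 *ᵥ x = x + (sympF F m).B x w • w) (n : Nd (tw (bs (sympF F m)) w)) :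
    Nonempty (PQ (SG (tw (bs (sympF F m)) w)) ≃* Subgroup.centralizer {t}) := by
  have : Nontrivial (Fin m ⊕ Fin m → F) := ⟨_, _, hw⟩
  have nd := sympF_nondeg (F := F) m
  have k : ∀ g : symplecticGroup (Fin m) F, g ∈ Subgroup.centralizer {t} ↔ (spEquiv m g).1 w = w := fun g => by
    have hg := isom_B (spEquiv m g).2
    rw [Subgroup.mem_centralizer_singleton_iff, Subtype.ext_iff]
    refine ⟨fun e => ?_, fun e => matrix_ext_mulVec fun x => ?_⟩
    · have e' : ∀ x, (sympF F m).B x w • (spEquiv m g).1 w = (sympF F m).B ((spEquiv m g).1 x) w • w := fun x => by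
        have := congrArg (· *ᵥ x) e
        simp only [Submonoid.coe_mul, ← mulVec_mulVec, ht, mulVec_add, mulVec_smul, add_right_inj] at this
        exact this
      obtain ⟨x, hx⟩ := nd.exists_ne hw
      obtain ⟨a, ha⟩ : ∃ a : F, (spEquiv m g).1 w = a • w :=
        ⟨_, by rw [← inv_smul_smul₀ hx ((spEquiv m g).1 w), e', smul_smul]⟩
      have h1 := hg x w
      have h3 := e' x
      rw [ha, smul_smul] at h3
      rw [ha, B_smul_right, ← smul_left_injective F hw h3] at h1
      rw [ha, sq_inj h2 (a := a) (b := 1) (mul_left_cancel₀ hx (by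
        simp only [Kind.symp_σ] at h1; linear_combination h1)), one_smul]
    · simp only [Submonoid.coe_mul, ← mulVec_mulVec, ht, mulVec_add, mulVec_smul, ← spEquiv_apply, e]
      rw [← hg x w, e]
  refine pq_two h2 n ((sympF F m).isom.subtype.comp ((spEquiv m).toMonoidHom.comp (Subgroup.subtype _)))
    (Subtype.val_injective.comp ((spEquiv m).injective.comp Subtype.val_injective)) fun g => ⟨fun h => ?_, ?_⟩
  · have h1 : ∀ x, (sympF F m).B (g x) w = (sympF F m).B x w := fun x => sq_inj h2 (by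
      simpa [tw_apply, bs_apply, symp_self, -sympF_B] using h.2 x x)
    have h3 : g ∈ (sympF F m).isom := (mem_isom_symp _).2 fun x y => by
      simpa [tw_apply, bs_apply, h1, -sympF_B] using h.2 x y
    refine ⟨⟨(spEquiv m).symm ⟨g, h3⟩, (k _).2 ?_⟩, by simp⟩
    rw [MulEquiv.apply_symm_apply]
    refine nd.ext fun x => ?_
    obtain ⟨x, rfl⟩ := g.surjective x
    exact (isom_B h3 x w).trans (h1 x).symm
  · rintro ⟨g, rfl⟩
    have hg := isom_B (spEquiv m g.1).2
    have h1 : ∀ x, (sympF F m).B ((spEquiv m g.1).1 x) w = (sympF F m).B x w := fun x => by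
      rw [← hg x w, (k _).1 g.2]
    exact ⟨one_ne_zero, fun u v => by
      show (sympF F m).B ((spEquiv m g.1).1 u) ((spEquiv m g.1).1 v) + (sympF F m).B ((spEquiv m g.1).1 u) w *
        (sympF F m).B ((spEquiv m g.1).1 v) w = _
      rw [hg, h1, h1, one_mul]; rfl⟩

variable [FiniteDimensional F V]

lemma exists_w (n : Nd B) (s : Sy B) : ∃ w, ∀ x, B x x = B x w * B x w := by
  choose r hr using exists_sqrt h2
  let l : V →ₗ[F] F := ⟨⟨fun v => r (B v v), fun x y => sq_inj h2 (by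
    rw [← hr, add_mul_self_eq, ← hr, ← hr]
    simp only [map_add, LinearMap.add_apply, s x y]
    linear_combination (B x y - r (B x x) * r (B y y)) * h2)⟩, fun c x => sq_inj h2 (by
    rw [← hr, RingHom.id_apply, smul_eq_mul, mul_mul_mul_comm, ← hr (B x x)]; simp [mul_assoc])⟩
  obtain ⟨w, hw⟩ := (LinearMap.injective_iff_surjective_of_finrank_eq_finrank (f := B.flip)
    Subspace.dual_finrank_eq.symm).1 ((injective_iff_map_eq_zero _).2 fun y e => n y (DFunLike.congr_fun e)) l
  exact ⟨w, fun x => by rw [show B x w = r (B x x) from DFunLike.congr_fun hw x, ← hr]⟩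

lemma tw_al (hw : ∀ x, B x x = B x w * B x w) : Al (tw B w) := fun x => by
  rw [tw_apply, hw]; linear_combination B x w * B x w * h2

lemma tw_nd (n : Nd B) (h : B w w = 0) : Nd (tw B w) := fun y hy => by
  have : y + B y w • w = 0 := n _ fun x => by simpa [tw_apply, mul_comm] using hy x
  have h1 : B y w = 0 := by simpa [h] using congrArg (B · w) this
  simpa [h1] using this

lemma two_cases (n : Nd B) (s : Sy B) (hw : ∀ x, B x x = B x w * B x w) :
    (B w w = 0 ∧ ∃ m, finrank F V = 2 * m) ∨ ∃ m e, finrank F V = 2 * m + 1 ∧ SE B (B1 F m) e 1 := by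
  by_cases h : B w w = 0
  · exact .inl ⟨h, al_even (tw_nd h2 n h) (tw_al h2 hw)⟩
  replace h : B w w = 1 := mul_left_cancel₀ h (by rw [← hw, mul_one])
  let K := LinearMap.ker (B.flip w)
  have a : Al (B.compl₁₂ K.subtype K.subtype) := fun x => (hw x).trans (by rw [show B x w = 0 from x.2, mul_zero])
  have n' : Nd (B.compl₁₂ K.subtype K.subtype) := fun y hy => Subtype.ext (n _ fun x => by
    have : B (x - B x w • w) y = 0 := hy (dec h x).2
    simpa [s y w, show B y w = 0 from y.2] using this)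
  obtain ⟨m, hm⟩ := al_even n' a
  obtain ⟨e, he⟩ := al_iso n' (sympF_nondeg (F := F) m) a (bs_al _) (by simp [hm, two_mul])
  refine .inr ⟨m, (dec h).trans ((LinearEquiv.refl F F).prodCongr e), by
    rw [(dec h).finrank_eq, finrank_prod, hm, finrank_self, add_comm], one_ne_zero, fun u v => ?_⟩
  have : (sympF F m).B (e (dec h u).2) (e (dec h v).2) = 1 * B (u - B u w • w) (v - B v w • w) := he.2 _ _
  refine (congrArg (B u w * B v w + ·) this).trans ?_
  simp [s v w, h]; ring

lemma odd_two (g : Good B) {m : ℕ} (hV : finrank F V = 2 * m + 1) : Si B (B1 F m) := by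
  obtain ⟨w, hw⟩ := exists_w h2 g.1 (g.sy h2)
  rcases two_cases h2 g.1 (g.sy h2) hw with ⟨-, k, h⟩ | ⟨k, e, h, he⟩
  · omega
  · obtain rfl : k = m := by omega
    exact ⟨e, 1, he⟩

lemma even_two (g : Good B) (a : ¬ Al B) {m : ℕ} (hV : finrank F V = 2 * m) {w₀ : Fin m ⊕ Fin m → F} (h0 : w₀ ≠ 0) :
    Si B (tw (bs (sympF F m)) w₀) := by
  obtain ⟨w, hw⟩ := exists_w h2 g.1 (g.sy h2)
  rcases two_cases h2 g.1 (g.sy h2) hw with ⟨h, -⟩ | ⟨k, e, h, -⟩
  swap
  · omega
  obtain ⟨e, he⟩ := al_iso (tw_nd h2 g.1 h) (sympF_nondeg (F := F) m) (tw_al h2 hw) (bs_al _) (by simp [hV, two_mul])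
  obtain ⟨t, ht, e1, -⟩ := (sympF_nondeg (F := F) m).witt_step (H := ⊥) (x := e w) (y := w₀)
    (fun k => a fun x => by rw [hw, e.map_eq_zero_iff.1 k]; simp) h0 (by simp [symp_Q]) (by simp [-sympF_B])
  have k : ∀ u v, bs (sympF F m) (t (e u)) (t (e v)) = tw B w u v := fun u v =>
    (isom_B ht _ _).trans ((he.2 u v).trans (one_mul _))
  refine ⟨e.trans t, 1, one_ne_zero, fun u v => ?_⟩
  rw [tw_apply, ← e1, LinearEquiv.trans_apply, LinearEquiv.trans_apply, k, k, k, tw_apply, tw_apply, tw_apply, h]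
  linear_combination B u w * B v w * h2
end two

section cls
variable [Fintype F] [FiniteDimensional F V] [FiniteDimensional F W]

theorem odd_pq (g : Good B) {m : ℕ} (hV : finrank F V = 2 * m + 1) :
    Nonempty (PQ (SG B) ≃* Cfsg.PGO F (Cfsg.quadFormOdd m F)) := by
  by_cases h2 : (2 : F) = 0
  · obtain ⟨a⟩ := pq_congr (odd_two h2 g hV)
    obtain ⟨b⟩ := pq_B1 h2 (m := m)
    obtain ⟨c⟩ := pgo_two h2 m
    exact ⟨a.trans (b.trans c.symm)⟩
  · exact pq_sim (mem_qsimG h2 (oddF F m))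
      (sy_odd h2 (oddF_nondeg h2 m) g.1 (bo_sy _) (g.sy_odd hV) (by simp; omega) hV)

theorem odd_si (g : Good B) (g' : Good B') {m : ℕ} (hV : finrank F V = 2 * m + 1) (hW : finrank F W = 2 * m + 1) :
    Si B B' := by
  by_cases h2 : (2 : F) = 0
  · exact (odd_two h2 g hV).trans (odd_two h2 g' hW).symm
  · exact sy_odd h2 g.1 g'.1 (g.sy_odd hV) (g'.sy_odd hW) hV hW

theorem al_pq (n : Nd B) (a : Al B) {m : ℕ} (hV : finrank F V = 2 * m + 2) :
    Nonempty (PQ (SG B) ≃* Cfsg.PGSp (m + 1) F) :=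
  have ⟨e, h⟩ := al_iso (sympF_nondeg (F := F) (m + 1)) n (bs_al _) a (by simp [hV]; omega)
  pq_sim (mem_simG (sympF_B (m + 1))) ⟨e, 1, h⟩

theorem plus_pq (h2 : (2 : F) ≠ 0) (n : Nd B) (s : Sy B) {m : ℕ} (hV : finrank F V = 2 * m + 2) (p : Pl B (m + 1)) :
    Nonempty (PQ (SG B) ≃* Cfsg.PGO F (Cfsg.quadFormPlus (m + 1) F)) :=
  have ⟨e, h⟩ := sy_iso h2 (plusF_nondeg (F := F) (m + 1)) n (bo_sy _) s (by simp; omega) hV
    (iff_of_true ((bo_ts h2).2 (plusF_hasTS _)) p)
  pq_sim (mem_qsimG h2 (plusF F (m + 1))) ⟨e, 1, h⟩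

theorem minus_pq (h2 : (2 : F) ≠ 0) (n : Nd B) (s : Sy B) {m : ℕ} (hV : finrank F V = 2 * m + 2) (p : ¬ Pl B (m + 1))
    {a b : F} (hab : ∀ z₁ z₂ : F, z₁ ^ 2 + a * z₁ * z₂ + b * z₂ ^ 2 = 0 → z₁ = 0 ∧ z₂ = 0) :
    Nonempty (PQ (SG B) ≃* Cfsg.PGO F (Cfsg.quadFormMinus m F a b)) :=
  have ⟨e, h⟩ := sy_iso h2 (minusF_nondeg m (disc_ne_zero_of_aniso hab)) n (bo_sy _) s (by simp; omega) hV
    (iff_of_false (mt (bo_ts h2).1 (minusF_not_hasTS m hab)) p)
  pq_sim (mem_qsimG h2 (minusF m a b)) ⟨e, 1, h⟩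

theorem sy_not_sp (h2 : (2 : F) ≠ 0) (n : Nd B) (s : Sy B) {m : ℕ} (hV : finrank F V = 2 * m + 2) :
    ¬ Nonempty (PQ (SG B) ≃* Cfsg.PGSp (m + 1) F) := by
  rintro ⟨a⟩
  have : Nontrivial V := Module.nontrivial_of_finrank_pos (R := F) (by omega)
  have : Finite V := Module.finite_of_finite F
  have nd : Nd (bs (sympF F (m + 1))) := sympF_nondeg (F := F) (m + 1)
  have d : finrank F (Fin (m + 1) ⊕ Fin (m + 1) → F) = 2 * m + 2 := by simp; omega
  obtain ⟨b⟩ := al_pq nd (bs_al _) d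
  have h := Nat.card_congr (a.trans b.symm).toEquiv
  rw [card_pq n (exists_mult h2 ⟨n, .inl s⟩ hV), card_pq nd (exists_mult h2 ⟨nd, .inr (bs_al _)⟩ d),
    Nat.card_congr (β := (qf B).isom) (Equiv.subtypeEquivRight fun g => ?_),
    Nat.card_congr (α := {g // SE (bs (sympF F (m + 1))) (bs (sympF F (m + 1))) g 1}) (β := (sympF F (m + 1)).isom) (Equiv.subtypeEquivRight fun g => ?_),
    card_isom_symp (m := m + 1) rfl (sympF_nondeg _) d, spOrd, Finset.prod_range_succ, pow_two_mul_sub_one,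
    show (m + 1) ^ 2 = (m + 1) * m + (m + 1) by ring, pow_add] at h
  · have q2 : 2 ≤ Fintype.card F := Fintype.one_lt_card
    have q3 : 3 ≤ Fintype.card F := by
      by_contra e
      exact h2 (by simpa [show Fintype.card F = 2 by omega] using FiniteField.cast_card_eq_zero F)
    have h3 : 3 ≤ Fintype.card F ^ (m + 1) := q3.trans (Nat.le_self_pow (by omega) _)
    have hP : 0 < Fintype.card F ^ ((m + 1) * m) * ∏ i ∈ Finset.range m, (Fintype.card F ^ (2 * (i + 1)) - 1) :=
      Nat.mul_pos (by positivity) (Finset.prod_pos fun i _ => Nat.sub_pos_of_lt (Nat.one_lt_pow (by omega) q2))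
    by_cases p : (qf B).HasTS (m + 1)
    · rw [card_isom_plus rfl (qf_nd h2 n s) hV p] at h
      generalize Fintype.card F ^ (m + 1) = x at *
      obtain ⟨x, rfl⟩ := Nat.exists_eq_add_of_le' h3
      have : 2 * (x + 3 - 1) = (x + 3) * ((x + 3 + 1) * (x + 3 - 1)) := Nat.eq_of_mul_eq_mul_left hP (by linarith)
      simp only [show x + 3 - 1 = x + 2 by omega] at this
      nlinarith [Nat.zero_le (x * x * x), Nat.zero_le (x * x)]
    · rw [card_isom_minus rfl (qf_nd h2 n s) hV p] at h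
      generalize Fintype.card F ^ (m + 1) = x at *
      obtain ⟨x, rfl⟩ := Nat.exists_eq_add_of_le' h3
      have : 2 * (x + 3 + 1) = (x + 3) * ((x + 3 + 1) * (x + 3 - 1)) := Nat.eq_of_mul_eq_mul_left hP (by linarith)
      simp only [show x + 3 - 1 = x + 2 by omega] at this
      nlinarith [Nat.zero_le (x * x * x), Nat.zero_le (x * x)]
  · exact ⟨fun h => (mem_isom_symp _).2 fun x y => (h.2 x y).trans (one_mul _),
      fun h => ⟨one_ne_zero, fun x y => (isom_B h x y).trans (one_mul _).symm⟩⟩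
  · exact ⟨fun h => (mem_isom_orth _).2 fun x => (h.2 x x).trans (one_mul _),
      fun h => se_of_q h2 s s one_ne_zero fun x => (isom_Q h x).trans (one_mul _).symm⟩

/-- the standard dot product -/
def dot (F : Type*) [Field F] (n : ℕ) : BF F (Fin n → F) := Matrix.toLinearMap₂' F 1

lemma dot_apply {n : ℕ} (u v : Fin n → F) : dot F n u v = u ⬝ᵥ v := by simp [dot, toLinearMap₂'_apply']

lemma dot_nd {n : ℕ} : Nd (dot F n) := fun y h => funext fun i => by simpa [dot_apply] using h (Pi.single i 1)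
lemma dot_sy {n : ℕ} : Sy (dot F n) := fun x y => by rw [dot_apply, dot_apply, dotProduct_comm]

lemma dot_pl (h2 : (2 : F) ≠ 0) {n m : ℕ} (h : n = 2 * m) : Pl (dot F n) m ↔ IsSquare ((-1 : F) ^ m) := by
  rw [← qf_ts, (qf_nd h2 dot_nd dot_sy).hasTS_iff_det h2 (by simpa) (Pi.basisFun F _),
    show (qf (dot F n)).gram (Pi.basisFun F _) = (2 : F) • 1 from Matrix.ext fun i j => by
      simp [Form.gram, qf_B dot_sy, dot_apply, one_apply, Pi.single_apply, eq_comm], det_smul, det_one, Fintype.card_fin, h,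
    mul_one, mul_comm, two_mul m, pow_add, isSquare_sq_mul (pow_ne_zero m h2)]
end cls

end H6.GA
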