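import Cfsg.Agent.H6.GA2

/-! Involutory graph automorphisms, part 3: the dictionary between graph automorphisms of `PSL_n` and `PSU_n` and
reflexive bilinear forms; classes, centralizers and class splitting. -/

set_option autoImplicit false
set_option linter.unusedSectionVars false

namespace H6.GA
open H5 H5.Form H6.CA Module Matrix

section dict
variable {F : Type*} [Field F] [Fintype F] {V : Type*} [AddCommGroup V] [Module F V] [FiniteDimensional F V]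
  {A : Type*} [Group A] {I : Subgroup A} {P : A → Prop} {R : A → BF F V → Prop} {B : BF F V}

variable (I P R) in
/-- a dictionary between involutions and forms -/
structure Dict : Prop where
  ex : ∀ {γ}, P γ → orderOf γ = 2 → ∃ B, Good B ∧ R γ B
  ex' : ∀ {B}, Good B → ∃ γ, P γ ∧ orderOf γ = 2 ∧ R γ B
  conj : ∀ {γ γ' B B'}, Good B → R γ B → R γ' B' → (Cfsg.IsConjUnder I γ γ' ↔ Si B B')
  cent : ∀ {γ B}, Good B → R γ B → Nonempty (↥(I ⊓ Subgroup.centralizer {γ}) ≃* PQ (SG B))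

lemma ne_trans {X Y Z : Type*} [Group X] [Group Y] [Group Z] (a : Nonempty (X ≃* Y)) (b : Nonempty (Y ≃* Z)) :
    Nonempty (X ≃* Z) := ⟨a.some.trans b.some⟩

namespace Dict
variable (D : Dict I P R)
include D

theorem odd {m : ℕ} (hV : finrank F V = 2 * m + 1) {γ γ' : A} (h : P γ) (o : orderOf γ = 2) (h' : P γ')
    (o' : orderOf γ' = 2) : Nonempty (↥(I ⊓ Subgroup.centralizer {γ}) ≃* Cfsg.PGO F (Cfsg.quadFormOdd m F)) ∧
      Cfsg.IsConjUnder I γ γ' :=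
  have ⟨_, g, r⟩ := D.ex h o
  have ⟨_, g', r'⟩ := D.ex h' o'
  ⟨ne_trans (D.cent g r) (odd_pq g hV), (D.conj g r r').2 (odd_si g g' hV hV)⟩

theorem even_odd (h2 : (2 : F) ≠ 0) {m : ℕ} (hm : 2 ≤ m) (hV : finrank F V = 2 * m) :
    ∃ (γ₁ γ₂ γ₃ : A) (a b : F), (∀ z₁ z₂ : F, z₁ ^ 2 + a * z₁ * z₂ + b * z₂ ^ 2 = 0 → z₁ = 0 ∧ z₂ = 0) ∧ P γ₁ ∧
      orderOf γ₁ = 2 ∧ P γ₂ ∧ orderOf γ₂ = 2 ∧ P γ₃ ∧ orderOf γ₃ = 2 ∧ ¬ Cfsg.IsConjUnder I γ₁ γ₂ ∧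
      ¬ Cfsg.IsConjUnder I γ₁ γ₃ ∧ ¬ Cfsg.IsConjUnder I γ₂ γ₃ ∧ (∀ γ, P γ → orderOf γ = 2 →
        Cfsg.IsConjUnder I γ₁ γ ∨ Cfsg.IsConjUnder I γ₂ γ ∨ Cfsg.IsConjUnder I γ₃ γ) ∧
      Nonempty (↥(I ⊓ Subgroup.centralizer {γ₁}) ≃* Cfsg.PGSp m F) ∧
      Nonempty (↥(I ⊓ Subgroup.centralizer {γ₂}) ≃* Cfsg.PGO F (Cfsg.quadFormPlus m F)) ∧
      Nonempty (↥(I ⊓ Subgroup.centralizer {γ₃}) ≃* Cfsg.PGO F (Cfsg.quadFormMinus (m - 1) F a b)) := by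
  obtain ⟨m, rfl⟩ : ∃ k, m = k + 1 := ⟨m - 1, by omega⟩
  obtain ⟨a, b, hab⟩ := exists_aniso (F := F)
  have : Nontrivial V := Module.nontrivial_of_finrank_pos (R := F) (by omega)
  obtain ⟨B₁, s₁⟩ := exists_si (V := V) (bs (sympF F (m + 1))) (by simp [hV]; omega)
  obtain ⟨B₂, s₂⟩ := exists_si (V := V) (bo (plusF F (m + 1))) (by simp [hV]; omega)
  obtain ⟨B₃, s₃⟩ := exists_si (V := V) (bo (minusF m a b)) (by simp [hV]; omega)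
  have n₁ := s₁.nd (sympF_nondeg _)
  have n₂ := s₂.nd (plusF_nondeg _)
  have n₃ := s₃.nd (minusF_nondeg m (disc_ne_zero_of_aniso hab))
  have a₁ := s₁.al (bs_al _)
  have y₂ := s₂.sy (bo_sy _)
  have y₃ := s₃.sy (bo_sy _)
  have p₂ := s₂.symm.pl ((bo_ts h2).2 (plusF_hasTS _))
  have p₃ : ¬ Pl B₃ (m + 1) := fun p => minusF_not_hasTS m hab ((bo_ts h2).1 (s₃.pl p))
  have g₁ : Good B₁ := ⟨n₁, .inr a₁⟩
  have g₂ : Good B₂ := ⟨n₂, .inl y₂⟩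
  have g₃ : Good B₃ := ⟨n₃, .inl y₃⟩
  obtain ⟨γ₁, c₁, o₁, r₁⟩ := D.ex' g₁
  obtain ⟨γ₂, c₂, o₂, r₂⟩ := D.ex' g₂
  obtain ⟨γ₃, c₃, o₃, r₃⟩ := D.ex' g₃
  refine ⟨γ₁, γ₂, γ₃, a, b, hab, c₁, o₁, c₂, o₂, c₃, o₃, fun h => not_al h2 n₂ y₂ (((D.conj g₁ r₁ r₂).1 h).symm.al a₁),
    fun h => not_al h2 n₃ y₃ (((D.conj g₁ r₁ r₃).1 h).symm.al a₁), fun h => p₃ (((D.conj g₂ r₂ r₃).1 h).pl p₂),
    fun γ c o => ?_, ne_trans (D.cent g₁ r₁) (al_pq n₁ a₁ hV), ne_trans (D.cent g₂ r₂) (plus_pq h2 n₂ y₂ hV p₂),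
    ne_trans (D.cent g₃ r₃) (minus_pq h2 n₃ y₃ hV p₃ hab)⟩
  obtain ⟨B, ⟨n, s | s⟩, r⟩ := D.ex c o
  · by_cases p : Pl B (m + 1)
    · exact .inr (.inl ((D.conj g₂ r₂ r).2 ((sy_iso h2 n₂ n y₂ s hV hV (iff_of_true p₂ p)).imp fun _ h => ⟨1, h⟩)))
    · exact .inr (.inr ((D.conj g₃ r₃ r).2 ((sy_iso h2 n₃ n y₃ s hV hV (iff_of_false p₃ p)).imp fun _ h => ⟨1, h⟩)))
  · exact .inl ((D.conj g₁ r₁ r).2 ((al_iso n₁ n a₁ s rfl).imp fun _ h => ⟨1, h⟩))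

theorem even_even (h2 : (2 : F) = 0) {m : ℕ} (hm : 2 ≤ m) (hV : finrank F V = 2 * m) :
    ∃ (γ₁ γ₃ : A) (t : symplecticGroup (Fin m) F), Cfsg.IsTransvection t.1 ∧ P γ₁ ∧ orderOf γ₁ = 2 ∧ P γ₃ ∧
      orderOf γ₃ = 2 ∧ ¬ Cfsg.IsConjUnder I γ₁ γ₃ ∧ (∀ γ, P γ → orderOf γ = 2 →
        Cfsg.IsConjUnder I γ₁ γ ∨ Cfsg.IsConjUnder I γ₃ γ) ∧
      Nonempty (↥(I ⊓ Subgroup.centralizer {γ₁}) ≃* symplecticGroup (Fin m) F) ∧
      Nonempty (↥(I ⊓ Subgroup.centralizer {γ₃}) ≃* Subgroup.centralizer {t}) := by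
  have : Nonempty (Fin m) := ⟨⟨0, by omega⟩⟩
  obtain ⟨w, hw⟩ := exists_ne (0 : Fin m ⊕ Fin m → F)
  obtain ⟨t, ht, ht'⟩ := exists_transv hw
  have nd : Nd (bs (sympF F m)) := sympF_nondeg m
  have n : Nd (tw (bs (sympF F m)) w) := tw_nd h2 nd (bs_al _ w)
  have y : Sy (tw (bs (sympF F m)) w) := fun x y => by rw [tw_apply, tw_apply, (bs_al _).sy h2, mul_comm]
  have na : ¬ Al (tw (bs (sympF F m)) w) := fun a => hw (nd w fun x => mul_self_eq_zero.1 (by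
    simpa [tw_apply, bs_al _ x] using a x))
  obtain ⟨B₁, s₁⟩ := exists_si (V := V) (bs (sympF F m)) (by simp [hV]; omega)
  obtain ⟨B₃, s₃⟩ := exists_si (V := V) (tw (bs (sympF F m)) w) (by simp [hV]; omega)
  have a₁ := s₁.al (bs_al _)
  have g₁ : Good B₁ := ⟨s₁.nd nd, .inr a₁⟩
  have g₃ : Good B₃ := ⟨s₃.nd n, .inl (s₃.sy y)⟩
  obtain ⟨γ₁, c₁, o₁, r₁⟩ := D.ex' g₁
  obtain ⟨γ₃, c₃, o₃, r₃⟩ := D.ex' g₃
  refine ⟨γ₁, γ₃, t, ht, c₁, o₁, c₃, o₃, fun h => na ((((D.conj g₁ r₁ r₃).1 h).trans s₃).symm.al a₁), fun γ c o => ?_,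
    ne_trans (D.cent g₁ r₁) (ne_trans (pq_congr s₁) (pq_two h2 nd ((sympF F m).isom.subtype.comp (spEquiv m).toMonoidHom)
      (Subtype.val_injective.comp (spEquiv m).injective) fun g => ⟨fun h => ⟨(spEquiv m).symm ⟨g, (mem_isom_symp _).2
        fun x y => (h.2 x y).trans (one_mul _)⟩, by simp⟩, ?_⟩)),
    ne_trans (D.cent g₃ r₃) (ne_trans (pq_congr s₃) (pq_B3 h2 hw ht' n))⟩
  · obtain ⟨B, g, r⟩ := D.ex c o
    by_cases a : Al B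
    · exact .inl ((D.conj g₁ r₁ r).2 ((al_iso g₁.1 g.1 a₁ a rfl).imp fun _ h => ⟨1, h⟩))
    · exact .inr ((D.conj g₃ r₃ r).2 (s₃.trans (even_two h2 g a hV hw).symm))
  · rintro ⟨g, rfl⟩
    exact ⟨one_ne_zero, fun u v => (isom_B (spEquiv m g).2 u v).trans (one_mul _).symm⟩
end Dict

theorem count {N : Type*} [CommGroup N] [Finite N] [IsCyclic N] {C : Subgroup N} {n : ℕ} (hV : finrank F V = n)
    (hn : 3 ≤ n) (g : Good B) (h1 : ∀ x ∈ C, ∃ y, x ^ 2 = y ^ n ∧ ∀ m, n = 2 * m → Al B → x = y ^ m)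
    (h3 : (2 : F) ≠ 0 → ∀ m, n = 2 * m + 2 → ∀ y, (Al B → y ^ (m + 1) ∈ C) ∧ (Sy B → ∀ x, x ^ 2 = y ^ n → x ∈ C))
    {p : Prop} (hp : p ↔ (2 : F) ≠ 0) (par : p ↔ Even (Nat.card N)) {X : Type*} [Group X] (e : Nonempty (X ≃* PQ (SG B))) :
    ((Even n ∧ p ∧ Nonempty (X ≃* Cfsg.PGSp (n / 2) F)) →
      ((powMonoidHom n).range ⊔ C).index = Nat.gcd (n / 2) (Nat.card N)) ∧
    ((Even n ∧ p ∧ ¬ Nonempty (X ≃* Cfsg.PGSp (n / 2) F)) →
      ((powMonoidHom n).range ⊔ C).index = Nat.gcd n (Nat.card N) / 2) ∧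
    (¬ (Even n ∧ p) → ((powMonoidHom n).range ⊔ C).index = Nat.gcd n (Nat.card N)) := by
  refine ⟨fun ⟨⟨k, hk⟩, h2, h⟩ => ?_, fun ⟨⟨k, hk⟩, h2, h⟩ => ?_, fun h => ?_⟩
  · obtain ⟨m, rfl⟩ : ∃ m, n = 2 * m + 2 := ⟨k - 1, by omega⟩
    rw [show (2 * m + 2) / 2 = m + 1 by omega] at h ⊢
    have a := g.2.resolve_left fun s => sy_not_sp (hp.1 h2) g.1 s hV (ne_trans ⟨e.some.symm⟩ h)
    rw [show _ ⊔ C = (powMonoidHom (m + 1)).range from le_antisymm (sup_le ?_ fun x hx => ?_) (le_sup_of_le_right ?_),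
      IsCyclic.index_powMonoidHom_range, Nat.gcd_comm]
    · rintro _ ⟨y, rfl⟩
      exact ⟨y ^ 2, by simp [← pow_mul, mul_add]⟩
    · rintro _ ⟨y, rfl⟩
      exact (h3 (hp.1 h2) m rfl y).1 a
    · obtain ⟨y, -, hy⟩ := h1 x hx
      exact ⟨y, (hy _ rfl a).symm⟩
  · obtain ⟨m, rfl⟩ : ∃ m, n = 2 * m + 2 := ⟨k - 1, by omega⟩
    rw [show (2 * m + 2) / 2 = m + 1 by omega] at h
    have s := g.2.resolve_right fun a => h (ne_trans e (al_pq g.1 a hV))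
    have le : (powMonoidHom (2 * m + 2) : N →* N).range ≤ (powMonoidHom 2).range := by
      rintro _ ⟨y, rfl⟩
      exact ⟨y ^ (m + 1), by simp [← pow_mul, add_mul, mul_comm]⟩
    have := Subgroup.relIndex_mul_index le
    rw [IsCyclic.index_powMonoidHom_range, IsCyclic.index_powMonoidHom_range,
      Nat.gcd_eq_right (even_iff_two_dvd.1 (par.1 h2))] at this
    rw [show _ ⊔ C = (powMonoidHom (2 * m + 2)).range.comap (powMonoidHom 2) from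
      le_antisymm (sup_le ?_ fun x hx => ?_) (le_sup_of_le_right ?_), Subgroup.index_comap, Nat.gcd_comm, ← this,
      Nat.mul_div_cancel _ two_pos]
    · rintro _ ⟨y, rfl⟩
      exact ⟨y ^ 2, by simp [← pow_mul, mul_comm]⟩
    · rintro x ⟨y, hy⟩
      exact (h3 (hp.1 h2) m rfl y).2 s x hy.symm
    · obtain ⟨y, hy, -⟩ := h1 x hx
      exact ⟨y, hy.symm⟩
  · rw [sup_eq_left.2 (show C ≤ (powMonoidHom n).range from ?_), IsCyclic.index_powMonoidHom_range, Nat.gcd_comm]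
    intro x hx
    obtain ⟨y, hy, -⟩ := h1 x hx
    rcases Nat.even_or_odd n with ev | ⟨m, rfl⟩
    · have := (Nat.coprime_two_right.2 (Nat.not_even_iff_odd.1 fun k => h ⟨ev, par.2 k⟩)).pow_left_bijective (G := N)
      obtain ⟨z, rfl⟩ := this.2 y
      exact ⟨z, this.1 (by simp only [powMonoidHom_apply, hy, ← pow_mul, mul_comm])⟩
    · refine ⟨x / y ^ m, ?_⟩
      rw [powMonoidHom_apply, div_pow, ← pow_mul, mul_comm m, pow_mul y, ← hy, pow_succ, pow_mul, mul_div_cancel_left]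
end dict

section sl
variable {F : Type*} [Field F] [Fintype F] {n : ℕ} [Nontrivial (Fin n)]

/-- the form of a graph automorphism of `PSL_n` -/
def RL (γ : MulAut (ProjectiveSpecialLinearGroup (Fin n) F)) (B : BF F (Fin n → F)) : Prop :=
  ∃ M : GL (Fin n) F, γ = gf 1 M ∧ ∀ u v, B u v = bf 1 M u v

lemma RL.iff {M M' : GL (Fin n) F} {B B' : BF F (Fin n → F)} (h : ∀ u v, B u v = bf 1 M u v)
    (h' : ∀ u v, B' u v = bf 1 M' u v) {a : GL (Fin n) F} :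
    piL a * gf 1 M * (piL a)⁻¹ = gf 1 M' ↔ ∃ c, SE B B' (glEquiv a) c := by
  refine gf_form.trans (exists_congr fun c => ⟨fun k => ⟨?_, by simpa only [h, h'] using k⟩,
    fun k => by simpa only [h, h'] using k.2⟩)
  rintro rfl
  exact one_ne_zero ((glEquiv a).map_eq_zero_iff.1 (bf_nd (M := M') (σ := 1) fun u => by
    simpa using k ((glEquiv a).symm u) 1))

lemma RL.cent {γ : MulAut (ProjectiveSpecialLinearGroup (Fin n) F)} {B : BF F (Fin n → F)} (h : RL γ B) :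
    Cfsg.inndiagPSL n F ⊓ Subgroup.centralizer {γ} = ((SG B).comap glEquiv.toMonoidHom).map piL := by
  obtain ⟨M, rfl, h⟩ := h
  ext z
  rw [inn_sl, Subgroup.mem_inf, Subgroup.mem_centralizer_singleton_iff, ← mul_inv_eq_iff_eq_mul]
  exact ⟨fun ⟨⟨g, e⟩, c⟩ => ⟨g, (RL.iff h h).1 (e ▸ c), e⟩, fun ⟨g, c, e⟩ => e ▸ ⟨⟨_, rfl⟩, (RL.iff h h).2 c⟩⟩

lemma gf_one' : gf 1 (1 : GL (Fin n) F) = itP F _ := by rw [gf_one, map_one, one_mul]

theorem dictL (hn : 3 ≤ n) : Dict (Cfsg.inndiagPSL n F) Cfsg.IsGraphAutClassPSL RL where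
  ex := by
    rintro _ ⟨-, δ, γ, hδ, hγ, rfl⟩ o
    obtain rfl := itP_iff.1 hγ
    obtain ⟨M, hM⟩ := (mem_gf (σ := 1) (x := δ * itP F _)).2 ⟨δ, inndiag_psl.1 hδ, by rw [map_one, one_mul]⟩
    obtain ⟨c, hc⟩ := (gf_sq (mul_one _)).1 (hM ▸ o ▸ pow_orderOf_eq_one _ : gf 1 M ^ 2 = 1)
    have k : ∀ u v, Matrix.toLinearMap₂' F M.1 u v = bf 1 M u v := fun u v => toLinearMap₂'_apply' _ _ _
    exact ⟨_, good_of_refl (c := c) (fun y hy => bf_nd (σ := 1) (M := M) fun u => (k u y).symm.trans (hy u))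
      fun u v => by rw [k, k]; exact bf_symm (mul_one _) hc u v, M, hM, k⟩
  ex' := by
    intro B g
    let M := GeneralLinearGroup.mkOfDetNeZero (LinearMap.toMatrix₂' F B)
      (LinearMap.separatingRight_toLinearMap₂'_iff_det_ne_zero.1 (by rw [toLinearMap₂'_toMatrix']; exact g.1))
    obtain ⟨δ, hδ, e⟩ := (mem_gf (σ := 1)).1 ⟨M, rfl⟩
    rw [map_one, one_mul] at e
    refine ⟨gf 1 M, ⟨hn, δ, _, inndiag_psl.2 hδ, itP_iff.2 rfl, e⟩, orderOf_eq_prime ((gf_sq (mul_one _)).2 ?_) fun k => ?_,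
      M, rfl, fun u v => (congrArg (· u v) (toLinearMap₂'_toMatrix' (R := F) B)).symm.trans (toLinearMap₂'_apply' _ _ _)⟩
    · rcases g.2 with s | a
      · exact ⟨1, Matrix.ext fun i j => (s _ _).trans (one_mul _).symm⟩
      · exact ⟨-1, Matrix.ext fun i j => (a.neg _ _).trans (neg_one_mul _).symm⟩
    · obtain ⟨a, rfl⟩ := hδ
      rw [k, eq_comm, mul_eq_one_iff_inv_eq, ← map_inv] at e
      exact itP_notMem (by simpa) ⟨_, e⟩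
  conj := by
    rintro _ _ B B' - ⟨M, rfl, h⟩ ⟨M', rfl, h'⟩
    rw [inn_sl]
    refine ⟨fun ⟨_, ⟨a, rfl⟩, e⟩ => ⟨_, (RL.iff h h').1 e.symm⟩, fun ⟨e, k⟩ => ?_⟩
    obtain ⟨a, rfl⟩ := glEquiv.surjective e
    exact ⟨_, ⟨a, rfl⟩, ((RL.iff h h').2 k).symm⟩
  cent := by
    intro γ B _ h
    rw [h.cent, show ((SG B).comap glEquiv.toMonoidHom).map piL =
      (piL.comp (glEquiv.symm.toMonoidHom.comp (SG B).subtype)).range from le_antisymm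
        (fun _ ⟨a, b, c⟩ => ⟨⟨_, b⟩, by simpa using c⟩) fun _ ⟨a, c⟩ => ⟨_, by simp, c⟩]
    exact range_equiv fun g => piL_eq_one.trans (Iff.trans (by simp) mem_Sc.symm)

lemma rl_dot : RL (itP F (Fin n)) (dot F n) := ⟨1, gf_one'.symm, fun u v => by rw [dot_apply, bf, Units.val_one, one_mulVec]; rfl⟩

lemma two_ne_iff {p f : ℕ} [hp : Fact p.Prime] (hF : Fintype.card F = p ^ f) (hf : f ≠ 0) : Odd p ↔ (2 : F) ≠ 0 := by
  rw [Ne, ← even_iff_two_eq_zero, hF, Nat.even_pow' hf, Nat.not_even_iff_odd]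

theorem sl_count {p f : ℕ} [Fact p.Prime] (hF : Fintype.card F = p ^ f) (hf : 1 ≤ f) (hn : 3 ≤ n)
    {γ : MulAut (ProjectiveSpecialLinearGroup (Fin n) F)} (h : Cfsg.IsGraphAutClassPSL γ) (o : orderOf γ = 2) :
    ((Even n ∧ Odd p ∧ Nonempty (↥(Cfsg.inndiagPSL n F ⊓ Subgroup.centralizer {γ}) ≃* Cfsg.PGSp (n / 2) F)) →
      Cfsg.splitClassCount (Cfsg.inndiagPSL n F) (Cfsg.Inn _) γ = Nat.gcd (n / 2) (p ^ f - 1)) ∧
    ((Even n ∧ Odd p ∧ ¬ Nonempty (↥(Cfsg.inndiagPSL n F ⊓ Subgroup.centralizer {γ}) ≃* Cfsg.PGSp (n / 2) F)) →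
      Cfsg.splitClassCount (Cfsg.inndiagPSL n F) (Cfsg.Inn _) γ = Nat.gcd n (p ^ f - 1) / 2) ∧
    (¬ (Even n ∧ Odd p) → Cfsg.splitClassCount (Cfsg.inndiagPSL n F) (Cfsg.Inn _) γ = Nat.gcd n (p ^ f - 1)) := by
  obtain ⟨B, g, r⟩ := (dictL hn).ex h o
  have hV : finrank F (Fin n → F) = n := by simp
  rw [split_count inn_sl (inn_sl (F := F) (n := n) ▸ sl_le) r.cent (ψ := GeneralLinearGroup.det) fun _ => sl_Inn,
    MonoidHom.range_eq_top.2 GeneralLinearGroup.det_surjective, Subgroup.relIndex_top_right, Fintype.card_fin, ← hF,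
    ← card_units_eq]
  refine count hV hn g ?_ (fun h2 m hm y => ⟨fun a => ?_, fun s x hx => ?_⟩) (two_ne_iff hF (by omega)) ?_
    ((dictL hn).cent g r)
  · rintro _ ⟨a, ⟨c, hc⟩, rfl⟩
    refine ⟨Units.mk0 c hc.1, Units.ext ?_, fun m hm al => Units.ext ?_⟩
    · simpa [← det_glEquiv'] using hc.det_sq g.1
    · simpa [← det_glEquiv'] using al_det g.1 al (hV.trans hm) hc
  · obtain ⟨t, ht⟩ := exists_mult h2 g (hV.trans hm) y y.ne_zero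
    obtain ⟨t, rfl⟩ := glEquiv.surjective t
    exact ⟨t, ⟨_, ht⟩, Units.ext (by simpa [← det_glEquiv'] using al_det g.1 a (m := m + 1) (hV.trans hm) ht)⟩
  · obtain ⟨t, ht, e⟩ := exists_det h2 g.1 s (hV.trans hm) y.ne_zero (d := x) (by simpa [hm] using congrArg Units.val hx)
    obtain ⟨t, rfl⟩ := glEquiv.surjective t
    exact ⟨t, ⟨_, ht⟩, Units.ext (by simpa [← det_glEquiv'] using e)⟩
  · rw [card_units_eq, hF, Nat.even_sub (Nat.one_le_pow _ _ (Fact.out : p.Prime).pos), Nat.even_pow' (by omega),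
      ← Nat.not_even_iff_odd]
    simp
end sl

end H6.GA
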