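import Cfsg.Agent.H6.GA3

/-! Involutory graph automorphisms, part 4: the unitary groups. -/

set_option autoImplicit false
set_option linter.unusedSectionVars false

namespace H6.GA
open H5 H5.Form H6.CA Module Matrix

variable {F F₀ : Type*} [Field F] [Fintype F] [Field F₀] [Fintype F₀] {q n : ℕ} {hF : Fintype.card F = q ^ 2}
  {φ : F₀ →+* F} {σ : F ≃+* F} {a a' t : (Fin n → F) ≃ₗ[F] (Fin n → F)} {l l' k : F} {B B' : BF F₀ (Fin n → F₀)}
  {g : (Fin n → F₀) ≃ₗ[F₀] (Fin n → F₀)}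

variable (hF φ a l B) in
/-- the Hermitian form restricts to `l B` in the coordinates `a` -/
def UD : Prop := l ≠ 0 ∧ ∀ u v, (hermF n hF).B (a (φ ∘ u)) (a (φ ∘ v)) = l * φ (B u v)

lemma UD.sim (U : UD hF φ a l B) (U' : UD hF φ a' l' B') {c : F₀} (S : SE B B' g c) (k0 : k ≠ 0)
    (ht : ∀ u, t (a (φ ∘ u)) = k • a' (φ ∘ g u)) : Sim (hermF n hF) (lp t) 1 (k * conj hF k * l' * φ c / l) := by
  refine sim_unit (sl_lp _) (by simp [k0, U.1, U'.1, S.1]) fun x y => ?_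
  obtain ⟨x, rfl⟩ := a.surjective x
  obtain ⟨y, rfl⟩ := a.surjective y
  generalize hc : k * conj hF k * l' * φ c / l = z
  show (hermF n hF).B (t (a x)) (t (a y)) = z * (hermF n hF).B (a x) (a y)
  refine span_ex φ (P := fun y => (hermF n hF).B (t (a x)) (t (a y)) = z * (hermF n hF).B (a x) (a y))
    (fun _ _ h h' => by simp only [map_add, h, h', mul_add])
    (fun _ _ h => by simp only [map_smul, B_smul_right, h, mul_left_comm]) (fun v => ?_) y
  refine span_ex φ (P := fun x => (hermF n hF).B (t (a x)) (t (a (φ ∘ v))) = z * (hermF n hF).B (a x) (a (φ ∘ v)))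
    (fun _ _ h h' => by simp only [map_add, LinearMap.add_apply, h, h', mul_add])
    (fun _ _ h => by simp only [map_smul, LinearMap.smul_apply, smul_eq_mul, h, mul_left_comm]) (fun u => ?_) x
  rw [ht, ht, B_smul_left, B_smul_right, U'.2, U.2, S.2, ← hc, map_mul, Kind.unit_σ]
  field_simp [U.1]

lemma UD.se [Nonempty (Fin n)] (nd : Nd B) (U : UD hF φ a l B) (U' : UD hF φ a' l' B') {μ : F}
    (S : Sim (hermF n hF) (lp t) 1 μ) (k0 : k ≠ 0) (ht : ∀ u, t (a (φ ∘ u)) = k • a' (φ ∘ g u)) :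
    ∃ c, SE B B' g c ∧ μ * l = k * conj hF k * l' * φ c := by
  have h : ∀ u v, k * conj hF k * l' * φ (B' (g u) (g v)) = μ * l * φ (B u v) := fun u v => by
    have : (hermF n hF).B (t (a (φ ∘ u))) (t (a (φ ∘ v))) = μ * (hermF n hF).B (a (φ ∘ u)) (a (φ ∘ v)) := S.B _ _
    rw [ht, ht, B_smul_left, B_smul_right, U'.2, U.2, Kind.unit_σ] at this
    linear_combination this
  obtain ⟨x, y, hx⟩ := nd.ex_ne
  have e : μ * l = k * conj hF k * l' * φ (B' (g x) (g y) / B x y) := by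
    rw [map_div₀, ← mul_div_assoc, h, mul_div_cancel_right₀ _ (by simpa)]
  have k1 : k * conj hF k * l' ≠ 0 := by simp [k0, U'.1]
  refine ⟨_, ⟨fun c0 => ?_, fun u v => φ.injective (mul_left_cancel₀ k1 ?_)⟩, e⟩
  · simp [c0, S.ne, U.1] at e
  · rw [h, e, map_mul, mul_assoc]

lemma bf_fm {ι : Type} [Fintype ι] [DecidableEq ι] [Nontrivial ι] {M : GL ι F} (hM : M.1.map σ = M.1) (x y : ι → F) :
    bf σ M (fm ι σ x) (fm ι σ y) = σ (bf σ M x y) := by
  rw [bf, bf, show σ _ = fm ι σ x ⬝ᵥ fm ι σ _ from RingHom.map_dotProduct σ.toRingHom _ _, fm_mulVec, hM]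

variable (hF) (h : 3 ≤ n) (h' : ¬ (n = 3 ∧ q = 2))

include hF h h' in
lemma inndiag_psu {β : MulAut (Cfsg.PSU n F q)} : Cfsg.IsInnerDiagonalAutPSU β ↔ β ∈ Cfsg.inndiagPSU n F q := by
  have k := (bigSU hF h h').nm'.lin_iff (suE_apply hF) (S := (hermF n hF).isom.subgroupOf _) fun g =>
    (mem_GU_iff n hF g).trans ⟨fun h => ⟨isom_le_Dl h, h⟩, fun ⟨_, h⟩ => h⟩
  rw [show Cfsg.inndiagPSU n F q = _ from autSub_eq k]
  exact k β

variable (φ σ) in
/-- the form of a graph automorphism of `PSU_n` -/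
def RU (γ : MulAut (Cfsg.PSU n F q)) (B : BF F₀ (Fin n → F₀)) : Prop :=
  ∃ (s : Sm (hermF n hF)) (a : (Fin n → F) ≃ₗ[F] (Fin n → F)) (l : F),
    γ = (bigSU hF h h').nm'.ind (suE n hF) s ∧ Ds σ a s.1 ∧ UD hF φ a l B

variable {hF} (hσ : ∀ x, σ x = conj hF x) (hφ : Fx φ σ)
include hσ

lemma sig_sq : σ * σ = 1 := RingEquiv.ext fun x => by simp [hσ, conj_conj]

lemma sig_order : orderOf σ = 2 := orderOf_eq_prime (by rw [sq, sig_sq hσ]) fun e =>
  conj_ne_id hF (RingHom.ext fun x => by rw [← hσ, e]; rfl)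

include hφ

theorem dictU : Dict (Cfsg.inndiagPSU n F q) Cfsg.IsGraphAutClassPSU (RU hF φ σ h h') where
  ex := by
    rintro _ ⟨-, δ, y, τ, ev, hδ, hy, rfl⟩ o
    have N := (bigSU hF h h').nm'
    have := N.nt
    have : Nonempty (Fin n) := ⟨⟨0, by omega⟩⟩
    have nd := hermF_nondeg n hF
    obtain rfl := (N.ind_iff_fm (suE_apply hF) (sim_fm_su hF τ).mem).1 hy
    rw [inndiag_psu hF h h', inn_su hF h h'] at hδ
    obtain ⟨g, -, rfl⟩ := hδ
    have o' := o ▸ pow_orderOf_eq_one _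
    obtain rfl : σ = τ := by
      rw [NM.pi, MonoidHom.comp_apply, ← map_mul, ← map_pow, N.ind_eq_one] at o'
      obtain ⟨c, hc⟩ := o'
      have sl : SL (lp g.1 * fm _ τ) τ := by simpa using (sl_lp g.1).mul (sl_fm τ)
      have e : τ ^ 2 = 1 := (sl.pow 2).uniq (τ' := 1)
        ⟨fun x y => (hc _).trans (by rw [smul_add, ← hc, ← hc]; rfl), fun b x => (hc _).trans (by
          rw [smul_comm, ← hc]; rfl)⟩
      exact inv_uniq (sig_order hσ) (orderOf_eq_prime e (by rintro rfl; simp at ev))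
    obtain ⟨t, -, E, sl, o⟩ := N.coset (suE n hF) (s := ⟨_, (sim_fm_su hF σ).mem⟩) (sl_fm σ) ((sig_order hσ).symm ▸ o')
    obtain ⟨a, ha⟩ := exists_desc (ι := Fin n) (by simp) sl o
    obtain ⟨τ, c, S⟩ := t.2
    obtain rfl := sl.uniq S.toSL
    have fx : ∀ u v : Fin n → F₀, c * σ ((hermF n hF).B (a (φ ∘ u)) (a (φ ∘ v))) =
        (hermF n hF).B (a (φ ∘ u)) (a (φ ∘ v)) := fun u v => by rw [← S.B, ha, ha, hφ.fm, hφ.fm]
    obtain ⟨l, l0, hl⟩ : ∃ z ≠ 0, c * σ z = z := by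
      by_contra! E
      exact one_ne_zero (comp_inj φ (u := (1 : Fin n → F₀)) ((a.injective ((nd_of φ a nd fun u => by_contra fun e =>
        E _ e (fx u 1)).trans (map_zero a).symm)).trans (by ext; simp)))
    have k : ∀ z, c * σ z = z → ∃ a, z = l * φ a := fun z hz => ((hφ (l⁻¹ * z)).1 (by
      rw [map_mul, map_inv₀]; nth_rw 2 [← hz, ← hl]; field_simp [S.ne])).imp fun a e => by simp [e, l0]
    choose B hB using fun u v => k _ (fx u v)
    have inj : ∀ {a b}, l * φ a = l * φ b → a = b := fun e => φ.injective (mul_left_cancel₀ l0 e)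
    let B' : BF F₀ (Fin n → F₀) := LinearMap.mk₂ F₀ B
      (fun _ _ _ => inj (by simp only [← hB, comp_add', mul_add, map_add, LinearMap.add_apply]))
      (fun c _ _ => inj (by rw [smul_eq_mul, map_mul, mul_left_comm, ← hB, ← hB, comp_smul', map_smul, B_smul_left]))
      (fun _ _ _ => inj (by simp only [← hB, comp_add', mul_add, map_add]))
      (fun c _ _ => inj (by
        rw [smul_eq_mul, map_mul, mul_left_comm, ← hB, ← hB, comp_smul', map_smul, B_smul_right, Kind.unit_σ, ← hσ, hφ.map]))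
    have n' : Nd B' := fun y hy => comp_inj φ (a.injective ((nd_of φ a nd fun u => by
      rw [hB, show B u y = 0 from hy u, map_zero, mul_zero]).trans (by rw [← map_zero a]; congr; ext; simp)))
    have sy : ∀ u v, l * φ (B u v) = σ l * φ (B v u) := fun u v => by
      rw [← hB, unit_symm, hB, map_mul, ← hσ, ← hσ, hφ.map]
    obtain ⟨x, y, hx⟩ := n'.ex_ne
    refine ⟨B', good_of_refl (c := B y x / B x y) n' fun u v => inj ?_, t, a, l, E, ha, l0, hB⟩
    show l * φ (B u v) = l * φ (B y x / B x y * B v u)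
    rw [sy, map_mul, map_div₀, ← mul_assoc, ← mul_div_assoc, sy,
      mul_div_cancel_right₀ _ ((map_ne_zero φ).2 (show B x y ≠ 0 from hx))]
  ex' := by
    intro B g
    have N := (bigSU hF h h').nm'
    have : Nontrivial (Fin n) := Fin.nontrivial_iff_two_le.2 (by omega)
    obtain ⟨l, l0, hl⟩ : ∃ l ≠ 0, ∀ u v, l * φ (B v u) = σ l * φ (B u v) := by
      rcases g.2 with s | a
      · exact ⟨1, one_ne_zero, fun u v => by rw [s, map_one]⟩
      · obtain ⟨θ, a0, b⟩ := exists_conj_eq_neg hF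
        exact ⟨θ, a0, fun u v => by rw [a.neg, hσ, b]; simp⟩
    let M := GeneralLinearGroup.map φ (GeneralLinearGroup.mkOfDetNeZero (LinearMap.toMatrix₂' F₀ B)
      (LinearMap.separatingRight_toLinearMap₂'_iff_det_ne_zero.1 (by rw [toLinearMap₂'_toMatrix']; exact g.1)))
    have hM : M.1.map σ = M.1 := Matrix.ext fun i j => hφ.map _
    have sy := bf_symm (sig_sq hσ) (M := M) (c := l / σ l) (hM.trans (Matrix.ext fun i j => by
      show φ (B _ _) = l / σ l * φ (B _ _)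
      rw [div_mul_eq_mul_div, hl, mul_div_cancel_left₀ _ (by simpa)]))
    let Ψ : Form (unitK hF) (Fin n → F) := ofHerm (conj_conj hF) (conj_ne_id hF) (LinearMap.mk₂'ₛₗ _ _
      (fun u v => l * bf σ M u v) (by simp [bf, mul_add]) (by simp [bf, mul_left_comm])
        (by simp [bf, (sl_fm σ).add, mulVec_add, mul_add]) (by simp [bf, (sl_fm σ).smul, mulVec_smul, mul_left_comm, hσ]))
      fun u v => show l * _ = conj hF (l * _) by
        rw [map_mul, ← hσ (bf _ _ _ _), sy, ← hσ, ← mul_assoc, mul_div_cancel₀ _ (by simpa)]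
    obtain ⟨a, ha, -⟩ := unit_iso (Φ := Ψ) (fun v hv => bf_nd (M := M) (σ := σ) fun u =>
      (mul_eq_zero.1 (hv u)).resolve_left l0) (hermF_nondeg n hF) rfl
    replace ha : ∀ x y, (hermF n hF).B (a x) (a y) = l * bf σ M x y := ha
    have D : Ds σ a (lp a * fm _ σ * (lp a)⁻¹) := fun v =>
      congrArg (fun x => a (fm _ σ x)) ((lp a).symm_apply_apply v)
    have S : Sim (hermF n hF) (lp a * fm _ σ * (lp a)⁻¹) σ (l / σ l) := sim_unit D.sl (by simp [l0]) fun x y => by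
      obtain ⟨x, rfl⟩ := a.surjective x
      obtain ⟨y, rfl⟩ := a.surjective y
      rw [D, D, ha, ha, bf_fm hM, map_mul, ← mul_assoc, div_mul_cancel₀ _ (by simpa)]
    obtain ⟨b, hb⟩ := SL.exists_lp (F := F) (s := lp a * fm _ σ * (lp a)⁻¹ * (fm _ σ)⁻¹)
      (by simpa only [mul_inv_cancel] using D.sl.mul (sl_fm σ).inv)
    have hb' : lp b ∈ Sm (hermF n hF) := hb ▸ mul_mem S.mem (inv_mem (sim_fm_su hF σ).mem)
    refine ⟨N.ind (suE n hF) ⟨_, S.mem⟩, ⟨h, N.pi (suE n hF) ⟨b, hb'⟩, N.ind (suE n hF) ⟨_, (sim_fm_su hF σ).mem⟩, σ,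
      by simp [sig_order hσ], (inndiag_psu hF h h').2 (inn_su hF h h' ▸ ⟨_, trivial, rfl⟩),
      (N.ind_iff_fm (suE_apply hF) _).2 rfl, ?_⟩, (N.order _ (s := ⟨_, S.mem⟩) D).trans (sig_order hσ), _, a, l, rfl, D, l0,
      fun u v => ?_⟩
    · rw [NM.pi, MonoidHom.comp_apply, ← map_mul]
      exact congrArg _ (Subtype.ext (eq_mul_inv_iff_mul_eq.1 hb).symm)
    · rw [ha, bf, hφ.fm, ← toLinearMap₂'_toMatrix' (R := F₀) B, toLinearMap₂'_apply', RingHom.map_dotProduct]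
      congr 2
      exact funext fun i => (RingHom.map_mulVec φ _ v i).symm
  conj := by
    rintro _ _ B B' g ⟨s, a, l, rfl, D, U⟩ ⟨s', a', l', rfl, D', U'⟩
    have N := (bigSU hF h h').nm'
    have := N.nt
    have : Nonempty (Fin n) := ⟨⟨0, by omega⟩⟩
    rw [inn_su hF h h']
    refine ⟨?_, fun ⟨e, c, S⟩ => N.conj_of _ (t := ⟨_, (U.sim U' S (t := a.symm.trans ((ex φ e).trans a')) one_ne_zero
      fun u => by simp [ex_apply]).mem⟩) trivial
      (D.conj fun v => (D' _).trans (congrArg a' (hφ.comm (ex_apply φ e) v).symm))⟩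
    rintro ⟨_, ⟨t, -, rfl⟩, E⟩
    rw [eq_mul_inv_iff_mul_eq, eq_comm, NM.pi, MonoidHom.comp_apply, ← map_mul, ← map_mul, N.ind_eq_ind] at E
    obtain ⟨c, hc⟩ := E
    obtain ⟨k, e, he⟩ := ds_fm.exists_jj hφ (g := a.trans (t.1.trans a'.symm)) (c := c) fun v => a'.injective (by
      rw [map_smul, ← D']
      simpa [← D v] using show t.1 (s.1 (a v)) = c • s'.1 (t.1 (a v)) from hc (a v))
    obtain ⟨μ, S⟩ := dl_sim t
    obtain ⟨c, S, -⟩ := U.se g.1 U' S k.ne_zero (g := e) fun u => by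
      have := congrArg a' (DFunLike.congr_fun he (φ ∘ u))
      simpa [jj_refl, ex_apply] using this
    exact ⟨e, c, S⟩
  cent := by
    rintro _ B g ⟨s, a, l, rfl, D, U⟩
    have N := (bigSU hF h h').nm'
    have := N.nt
    have : Nonempty (Fin n) := ⟨⟨0, by omega⟩⟩
    let J : SG B →* Dl (hermF n hF) := ((jj φ a).comp (SG B).subtype).codRestrict _ fun g =>
      (U.sim U g.2.choose_spec one_ne_zero fun u => by simp [jj_apply]).mem
    rw [inn_su hF h h', N.cent_eq _ D hφ (J := J) (fun x => ⟨x, rfl⟩) (fun t ht => ?_) fun _ => Subgroup.mem_top _,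
      Subgroup.comap_top, ← MonoidHom.range_eq_map]
    · exact range_equiv fun g => (N.ind_eq_one _).trans (jj_sc.trans mem_Sc.symm)
    · obtain ⟨μ, S⟩ := dl_sim ⟨_, ht⟩
      obtain ⟨c, S, -⟩ := U.se g.1 U S one_ne_zero (g := t) fun u => by simp [jj_apply]
      exact ⟨⟨t, c, S⟩, 1, by rw [map_one, one_mul]; rfl⟩

lemma ru_dot {y : MulAut (Cfsg.PSU n F q)} (hy : Cfsg.IsFieldAutPSUOf σ y) : RU hF φ σ h h' y (dot F₀ n) :=
  ⟨_, LinearEquiv.refl F _, 1, ((bigSU hF h h').nm'.ind_iff_fm (suE_apply hF) (sim_fm_su hF σ).mem).1 hy, ds_fm,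
    one_ne_zero, fun u v => by simp [hermF_B', dot_apply, dotProduct, ← hσ, hφ.map, -hermF_B]⟩

include h h' in
theorem su_count (hF₀ : Fintype.card F₀ = q) {γ : MulAut (Cfsg.PSU n F q)} (hγ : Cfsg.IsGraphAutClassPSU γ)
    (o : orderOf γ = 2) :
    ((Even n ∧ Odd q ∧ Nonempty (↥(Cfsg.inndiagPSU n F q ⊓ Subgroup.centralizer {γ}) ≃* Cfsg.PGSp (n / 2) F₀)) →
      Cfsg.splitClassCount (Cfsg.inndiagPSU n F q) (Cfsg.Inn _) γ = Nat.gcd (n / 2) (q + 1)) ∧
    ((Even n ∧ Odd q ∧ ¬ Nonempty (↥(Cfsg.inndiagPSU n F q ⊓ Subgroup.centralizer {γ}) ≃* Cfsg.PGSp (n / 2) F₀)) →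
      Cfsg.splitClassCount (Cfsg.inndiagPSU n F q) (Cfsg.Inn _) γ = Nat.gcd n (q + 1) / 2) ∧
    (¬ (Even n ∧ Odd q) → Cfsg.splitClassCount (Cfsg.inndiagPSU n F q) (Cfsg.Inn _) γ = Nat.gcd n (q + 1)) := by
  obtain ⟨B, g, r⟩ := (dictU h h' hσ hφ).ex hγ o
  have ce := (dictU h h' hσ hφ).cent g r
  obtain ⟨s, a, l, rfl, D, U⟩ := r
  have N := (bigSU hF h h').nm'
  have := N.nt
  have : Nonempty (Fin n) := ⟨⟨0, by omega⟩⟩
  have nd := hermF_nondeg n hF
  have hV : finrank F₀ (Fin n → F₀) = n := by simp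
  let π := (N.pi (suE n hF)).comp (Subgroup.inclusion isom_le_Dl)
  have hI : Cfsg.inndiagPSU n F q = π.range :=
    (inn_su hF h h').trans ((MonoidHom.range_eq_map _).symm.trans (range_isom hF nd (N.pi_scal _)))
  have e' := map_det_unit nd finrank_pos
  let Z := (powMonoidHom (q + 1) : Fˣ →* Fˣ).ker
  have hZ : ∀ y : Fˣ, y ∈ Z ↔ y * conj hF y = 1 := fun y => by simp [Z, norm_eq_pow, Units.ext_iff]
  let ψ : (hermF n hF).isom →* Z := (LinearEquiv.det.comp (Subgroup.subtype _)).codRestrict Z fun t => e'.le ⟨_, t.2, rfl⟩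
  have sur : ψ.range = ⊤ := MonoidHom.range_eq_top.2 fun y => have ⟨t, b, c⟩ := e'.ge y.2; ⟨⟨t, b⟩, Subtype.ext c⟩
  have dt : ∀ (k : Fˣ) e, ((LinearEquiv.det (scal _ k * jj φ a e) : Fˣ) : F) = k ^ n * φ (LinearEquiv.det e : F₀ˣ) :=
    fun k e => by rw [map_mul, det_scal, det_jj]; simp
  rw [split_count hI (inn_su hF h h' ▸ N.inn_le _ fun _ _ => Subgroup.mem_top _)
    (C := (Subgroup.centralizer {N.ind (suE n hF) s}).comap π) (by rw [Subgroup.map_comap_eq, hI]) (ψ := ψ)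
    (P := (powMonoidHom n).range) fun t => Iff.trans ⟨fun ⟨y, e⟩ => ⟨y, y.2, congrArg Subtype.val e⟩,
      fun ⟨y, b, e⟩ => ⟨⟨y, b⟩, Subtype.ext e⟩⟩ (su_Inn hF h h'), sur, Subgroup.relIndex_top_right,
    ← card_units_pow_succ hF]
  refine count hV h g ?_ (fun h2 m hm y => ?_) (by rw [Ne, ← even_iff_two_eq_zero, hF₀, Nat.not_even_iff_odd])
    (by rw [card_units_pow_succ hF, Nat.even_add_one, Nat.not_even_iff_odd]) ce
  · rintro _ ⟨t, ht, rfl⟩
    obtain ⟨k, e, he⟩ := (N.comm_iff _ D hφ).1 ht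
    replace he : t.1 = scal _ k * jj φ a e := he
    obtain ⟨c, S, hc⟩ := U.se g.1 U (sim_lp t.2) k.ne_zero (g := e) fun u => by simp [he, jj_apply]
    replace hc : k * conj hF k * φ c = 1 := mul_left_cancel₀ U.1 (by linear_combination -hc)
    have d : (((ψ t).1 : Fˣ) : F) = k ^ n * φ (LinearEquiv.det e : F₀ˣ) := (congrArg _ (congrArg _ he)).trans (dt k e)
    refine ⟨⟨k ^ 2 * Units.map φ (Units.mk0 c S.1), (hZ _).2 ?_⟩, Subtype.ext (Units.ext ?_),
      fun m hm al => Subtype.ext (Units.ext ?_)⟩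
    · simp only [Units.val_mul, Units.val_pow_eq_pow_val, Units.coe_map, MonoidHom.coe_coe, Units.val_mk0, map_mul, map_pow]
      rw [← hσ (φ c), hφ.map]
      linear_combination (k * conj hF k * φ c + 1) * hc
    · simp only [SubgroupClass.coe_pow, Units.val_mul, Units.val_pow_eq_pow_val, Units.coe_map, MonoidHom.coe_coe,
        Units.val_mk0, d]
      rw [mul_pow, ← map_pow, S.det_sq g.1, hV, map_pow]; ring
    · simp only [SubgroupClass.coe_pow, Units.val_mul, Units.val_pow_eq_pow_val, Units.coe_map, MonoidHom.coe_coe,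
        Units.val_mk0, d]
      rw [al_det g.1 al (hV.trans hm) S, map_pow, hm]; ring
  · obtain ⟨k, k0, hk⟩ := exists_eq_div_conj hF ((hZ _).1 y.2)
    obtain ⟨c, hc⟩ := (hφ (k * conj hF k)⁻¹).1 (by rw [hσ, map_inv₀, map_mul, conj_conj, mul_comm])
    have k1 : conj hF k ≠ 0 := by simpa
    have c0 : c ≠ 0 := by rintro rfl; exact inv_ne_zero (mul_ne_zero k0 k1) (hc.symm.trans (map_zero φ))
    have hy : ((y : Fˣ) : F) = k ^ 2 * φ c := by rw [hc]; field_simp; linear_combination hk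
    have key : ∀ e (x : Z), SE B B e c → ((x : Fˣ) : F) = k ^ n * φ (LinearEquiv.det e : F₀ˣ) →
        x ∈ ((Subgroup.centralizer {N.ind (suE n hF) s}).comap π).map ψ := fun e x S hx =>
      ⟨⟨scal _ (Units.mk0 k k0) * jj φ a e, Sim.isom (by
        have := U.sim U S (t := scal _ (Units.mk0 k k0) * jj φ a e) k0 fun u => by simp [jj_apply]
        rwa [hc, show _ / l = 1 by field_simp [U.1]] at this)⟩, (N.comm_iff _ D hφ).2 ⟨_, _, rfl⟩,
        Subtype.ext (Units.ext ((dt _ e).trans hx.symm))⟩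
    refine ⟨fun al => ?_, fun sy x hx => ?_⟩
    · obtain ⟨e, S⟩ := exists_mult h2 g (hV.trans hm) c c0
      refine key e _ S ?_
      rw [al_det g.1 al (m := m + 1) (hV.trans hm) S, SubgroupClass.coe_pow, Units.val_pow_eq_pow_val, hy, map_pow, hm]
      ring
    · replace hx : ((x : Fˣ) : F) ^ 2 = ((k ^ 2 * φ c) ^ (m + 1)) ^ 2 := by
        rw [← hy, ← pow_mul, show (m + 1) * 2 = n by omega]
        simpa using congrArg (fun z : Z => ((z : Fˣ) : F)) hx
      rcases sq_eq_sq_iff_eq_or_eq_neg.1 hx with hx | hx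
      · obtain ⟨e, S, d⟩ := exists_det h2 g.1 sy (hV.trans hm) c0 (d := c ^ (m + 1)) (by ring)
        exact key e _ S (by rw [hx, d, map_pow, hm]; ring)
      · obtain ⟨e, S, d⟩ := exists_det h2 g.1 sy (hV.trans hm) c0 (d := -c ^ (m + 1)) (by ring)
        exact key e _ S (by rw [hx, d, map_neg, map_pow, hm]; ring)

omit hσ hφ in
lemma exists_su_data (hF : Fintype.card F = q ^ 2) (hF₀ : Fintype.card F₀ = q) :
    ∃ (σ : F ≃+* F) (φ : F₀ →+* F), (∀ x, σ x = conj hF x) ∧ Fx φ σ := by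
  let σ : F ≃+* F := RingEquiv.ofRingHom (conj hF) (conj hF) (RingHom.ext (conj_conj hF)) (RingHom.ext (conj_conj hF))
  obtain ⟨p, k, hp, -, -, rfl⟩ := exists_pow_of_card_sq hF
  have := Fact.mk hp
  obtain ⟨-, φ, hφ⟩ := exists_sub (p := p) (f := k * 2) (hF.trans (pow_mul _ _ _).symm) (sig_order (hF := hF) (σ := σ) fun _ => rfl) F₀
    (by simpa)
  exact ⟨σ, φ, fun _ => rfl, hφ⟩

end H6.GA
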