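import Cfsg.Agent.H6.CA17
import Cfsg.Agent.H5.Ess

/-! # Class splitting of involutory graph automorphisms and of semisimple elements of the even-dimensional
orthogonal groups in odd characteristic. -/

set_option autoImplicit false
set_option linter.unusedSectionVars false

namespace H6.GB
open H5 H5.Form H6.CA Module Matrix
universe u

variable {F : Type u} [Field F] [Fintype F] {V : Type*} [AddCommGroup V] [Module F V] [FiniteDimensional F V]
  {Φ : Form (Kind.orth F) V}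

lemma not_sq {c : Fˣ} : qc F c = -1 ↔ ¬ IsSquare (c : F) := by
  rw [← qc_eq_one, ← Ne, Int.units_ne_iff_eq_neg]

/-- the polar form as a bilinear map -/
def bo (Ψ : Form (Kind.orth F) V) : V →ₗ[F] V →ₗ[F] F := Ψ.B

lemma al_det {A : V →ₗ[F] V →ₗ[F] F} (a : ∀ x, A x x = 0) (n : ∀ y, (∀ x, A x y = 0) → y = 0) {m : ℕ}
    (hV : finrank F V = 2 * m) {t : V ≃ₗ[F] V} {c : F} (c0 : c ≠ 0) (h : ∀ u v, A (t u) (t v) = c * A u v) :
    (LinearEquiv.det t : F) = c ^ m := by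
  obtain ⟨e, he⟩ := symp_iso (Φ := ofAlt A a) (Ψ := sympF F m) n (sympF_nondeg m) (by simp [hV, two_mul])
  rw [← det_autCongr e]
  replace h : ∀ u v, (sympF F m).B (autCongr e t u) (autCongr e t v) = c * (sympF F m).B u v := fun u v => by
    obtain ⟨u, rfl⟩ := e.surjective u
    obtain ⟨v, rfl⟩ := e.surjective v
    simpa [he.1] using h u v
  generalize autCongr e t = t at h
  let D : Matrix (Fin m ⊕ Fin m) (Fin m ⊕ Fin m) F := diagonal (Sum.elim (fun _ => c⁻¹) fun _ => 1)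
  obtain ⟨t, rfl⟩ := glEquiv.surjective t
  have : D * t.1 ∈ symplecticGroup (Fin m) F := (mem_symplectic_iff m _).2 fun u v => by
    have : Cfsg.sympForm m F (t.1 *ᵥ u) (t.1 *ᵥ v) = c * Cfsg.sympForm m F u v := by
      rw [← sympF_B, ← sympF_B]; exact h u v
    rw [← mulVec_mulVec, ← mulVec_mulVec, ← inv_mul_eq_iff_eq_mul₀ c0 |>.2 this, sympForm_eq, sympForm_eq, Finset.mul_sum]
    exact Finset.sum_congr rfl fun i _ => by simp [D, mulVec_diagonal]; ring
  have := SymplecticGroup.det_eq_one this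
  rw [det_mul, det_diagonal, Fintype.prod_sum_type] at this
  simp only [Sum.elim_inl, Sum.elim_inr, Finset.prod_const, Finset.card_univ, Fintype.card_fin, one_pow, mul_one,
    inv_pow] at this
  rw [det_glEquiv', GeneralLinearGroup.val_det_apply, ← inv_mul_eq_one₀ (pow_ne_zero m c0) |>.1 this]

lemma B_comm (x y : V) : Φ.B x y = Φ.B y x := by simpa using Φ.B_symm y x

lemma exists_perp (nd : Φ.Nondeg) (h5 : 5 ≤ finrank F V) (h2 : (2 : F) ≠ 0) {g : V ≃ₗ[F] V}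
    (sy : ∀ x y, Φ.B (g x) y = Φ.B x (g y)) (ne : ∀ u ≠ 0, ∀ a : F, g u ≠ a • u) : ∃ v, Φ.Q v ≠ 0 ∧ Φ.B v (g v) = 0 := by
  obtain ⟨u, hu, u0⟩ : ∃ u, Φ.B u (g u) = 0 ∧ u ≠ 0 := by
    simpa [Aniso] using orth_not_aniso (ofQuadFun (fun v => Φ.B v (g v)) ((2 : F) • (bo Φ).compl₂ g.toLinearMap)
      (fun c x => by simp [mul_assoc]) fun x y => by
        have := (sy x y).symm.trans (B_comm _ _)
        show _ = _ + _ + 2 * Φ.B x (g y)
        simp [this]; ring) (by omega)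
  by_cases qu : Φ.Q u = 0
  swap
  · exact ⟨u, qu, hu⟩
  obtain ⟨f, hf⟩ := nd.exists_hyp qu u0
  obtain ⟨⟨y, hy⟩, qy⟩ := (hf.perp_nondeg nd).orth_universal (by have := hf.finrank_perp nd; omega) 1
  replace hy := (Φ.mem_perp_pair.1 hy).1
  replace qy : Φ.Q y = 1 := qy
  obtain ⟨x, hx, hx'⟩ : ∃ x, Φ.B x u = 0 ∧ Φ.B x (g u) ≠ 0 := by
    by_contra! k
    refine ne u u0 (Φ.B f (g u)) (nd.ext fun z => ?_)
    have := k (z - Φ.B z u • f) (by simp [B_comm f u, hf.Bef])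
    simp only [map_sub, map_smul, LinearMap.sub_apply, LinearMap.smul_apply, smul_eq_mul] at this
    rw [B_smul_right]; simp only [Kind.orth_σ, RingHom.id_apply]; linear_combination this
  obtain ⟨x, hx, hx', qx⟩ : ∃ x, Φ.B x u = 0 ∧ Φ.B x (g u) ≠ 0 ∧ Φ.Q x ≠ 0 := by
    by_cases k : Φ.B y (g u) = 0
    swap
    · exact ⟨y, hy, k, by simp [qy]⟩
    by_contra! z
    have z1 := z x hx hx'
    have z2 := z (x + y) (by simp [hx, hy]) (by simpa [k] using hx')
    have z3 := z (x + -y) (by simp [hx, hy]) (by simpa [k] using hx')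
    rw [orth_add] at z2 z3
    simp only [Q_neg, map_neg] at z3
    exact h2 (by linear_combination z2 + z3 - 2 * z1 - 2 * qy)
  refine ⟨x + (-(Φ.B x (g x) / (2 * Φ.B x (g u)))) • u, ?_, ?_⟩
  · rwa [orth_add, orth_smul, B_smul_right, qu, hx, mul_zero, mul_zero, add_zero, add_zero]
  · simp only [map_add, map_smul, LinearMap.add_apply, LinearMap.smul_apply, B_smul_right, smul_eq_mul, hu, ← sy u x,
      B_comm (g u), Kind.orth_σ, RingHom.id_apply]
    field_simp; ring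

lemma conj_rD [Nontrivial V] (t : Dl Φ) (v : V) : t * rD Φ v * t⁻¹ = rD Φ (t.1 v) :=
  Subtype.ext <| LinearEquiv.ext fun x => by
    obtain ⟨c, h⟩ := dl_sim t
    simpa using (h.conj_r v (t.1.symm x)).symm

/-- an invariant subspace of odd dimension forces a square multiplier -/
lemma sq_of_odd (U : Submodule F V) (nd : (Φ.res U).Nondeg) (o : Odd (finrank F U)) {g : V ≃ₗ[F] V} {c : F}
    (h : Sim Φ (lp g) 1 c) (hU : ∀ u ∈ U, g u ∈ U) : IsSquare c := by
  have : Nontrivial U := finrank_pos_iff.1 o.pos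
  have S : Sim (Φ.res U) (lp (resAut g U hU)) 1 c := sim_orth (sl_lp _) h.ne fun u => h.Q _
  obtain ⟨k, hk⟩ : mu nd ⟨_, S.mem⟩ ∈ (powMonoidHom 2).range := mu_odd nd o ▸ ⟨_, rfl⟩
  exact ⟨k, by rw [← mu_eq nd (g := ⟨_, S.mem⟩) S, ← hk]; simp [sq]⟩

section eo
variable [Nontrivial V] {M : ℕ} {ρ : Fˣ → Dl Φ} {ε : Dl Φ →* ℤˣ} (E : EO Φ M ρ ε) (h2 : (2 : F) ≠ 0)
  {O : Type*} [Group O] {o : Dl Φ →* O} (ho : ∀ g, o g = 1 ↔ ZO Φ g.1) {g s t : Dl Φ}

/-- the quadratic character of the multiplier -/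
noncomputable abbrev ch : Dl Φ →* ℤˣ := (qc F).comp (mu E.nd)

lemma ch_r (v : V) : ch E (rD Φ v) = 1 := by
  rw [MonoidHom.comp_apply, (mu_eq_one E.nd).2 (Φ.r_mem v), map_one]

include E h2 ho
lemma N_or (hg : ch E g = 1 ∧ ε g = 1) (hs : ch E s = 1 ∧ ε s = 1) (n : o s ≠ 1) : o g = 1 ∨ o g = o s :=
  (E.zo_or h2 hg hs (mt (ho s).2 n)).imp (ho _).2 fun h => by simpa [mul_inv_eq_one] using (ho _).2 h

lemma N_cent (hs : ch E s = 1 ∧ ε s = 1) (x : Dl Φ) : Commute (o s) (o x) := by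
  by_cases n : o s = 1
  · simp [n]
  · rcases N_or E h2 ho (g := x * s * x⁻¹) (by simp only [map_mul, map_inv, hs.1, hs.2]; simp) hs n with h | h
    · exact (n (by simpa [mul_inv_eq_one] using h)).elim
    · rw [map_mul, map_mul, map_inv, mul_inv_eq_iff_eq_mul] at h
      exact h.symm

lemma N_sq (hs : ch E s = 1 ∧ ε s = 1) : o s * o s = 1 := by
  by_cases n : o s = 1
  · simp [n]
  · rcases N_or E h2 ho (g := s⁻¹) (by simpa using hs) hs n with h | h
    · exact (n (by simpa using h)).elim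
    · rw [map_inv, inv_eq_iff_mul_eq_one] at h
      exact h

omit E h2 in
lemma o_scal (k : Fˣ) : o ⟨scal V k, (sim_scal k).mem⟩ = 1 :=
  (ho _).2 ⟨1, one_mem _, k, fun _ => rfl⟩

variable (hn : scal V (-1 : Fˣ) ∈ Φ.EG)
include hn

lemma o_rr {v w : V} {c d : Fˣ} (hv : Φ.Q v = c) (hw : Φ.Q w = d) : o (rD Φ v * rD Φ w) = 1 ↔ qc F c = qc F d :=
  (ho _).trans ((EO.zo_isom E.nd hn (mul_mem (Φ.r_mem v) (Φ.r_mem w))).trans (rr_mem_EG E.nd E.five h2 hv hw))

lemma not_comm_r (ht : ch E t = -1) {v : V} (hv : Φ.Q v = 1) : ¬ Commute (o t) (o (rD Φ v)) := fun h => by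
  have := (o_rr E h2 ho hn (v := t.1 v) (c := mu E.nd t) (d := 1) (by simpa [hv] using (mu_sim E.nd t).Q v) hv).1 (by
    rw [← conj_rD, map_mul, map_mul, map_mul, map_inv, h.eq, mul_inv_cancel_right, ← map_mul]
    exact (congrArg o (Subtype.ext (r_mul_self v))).trans (map_one o))
  rw [map_one] at this
  exact absurd (this.symm.trans ht) (by decide)

lemma not_comm (ht : ε t = 1) (ht' : ch E t = -1) (hg : ε g = -1) : ¬ Commute (o t) (o g) := fun h => by
  obtain ⟨v, hv⟩ := E.exists_Q 1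
  have e := E.eps_r (v := v) (by simp [hv])
  refine not_comm_r E h2 ho hn ht' hv ?_
  rcases Int.units_eq_one_or (ch E g) with k | k
  · have := N_cent E h2 ho (s := g⁻¹ * rD Φ v) (by simp only [map_mul, map_inv, k, ch_r, e, hg]; decide) t
    simpa using h.mul_right this.symm
  · have := N_cent E h2 ho (s := t⁻¹ * g⁻¹ * rD Φ v) (by simp only [map_mul, map_inv, k, ch_r, e, hg, ht, ht']; decide) t
    simpa [mul_assoc] using h.mul_right ((Commute.refl _).mul_right this.symm)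

lemma sq_ne (hs : ch E s = -1) (hs' : ε s = -(-1) ^ M) : o s * o s ≠ 1 := fun h => by
  obtain ⟨v, hv⟩ := E.exists_Q 1
  obtain ⟨l, hl⟩ := exists_qc h2
  have e := E.eps_r (v := v) (by simp [hv])
  have c : ch E (ρ l) = -1 := by rw [MonoidHom.comp_apply, E.mu_rho, hl]
  have n : ch E (s * (ρ l * rD Φ v)⁻¹) = 1 ∧ ε (s * (ρ l * rD Φ v)⁻¹) = 1 := by
    simp only [map_mul, map_inv, hs, hs', c, ch_r, e, E.eps]; simp
  have k := N_cent E h2 ho n (ρ l * rD Φ v)
  have k2 := N_sq E h2 ho n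
  have a : o (ρ l) * o (ρ l) = 1 := by
    rw [← map_mul, ← o_scal ho l]; exact congrArg o (Subtype.ext (E.sq l))
  have b : o (rD Φ v) * o (rD Φ v) = 1 := by
    rw [← map_mul]; exact (congrArg o (Subtype.ext (r_mul_self v))).trans (map_one o)
  refine not_comm_r E h2 ho hn c hv ?_
  rw [show o s = o (s * (ρ l * rD Φ v)⁻¹) * o (ρ l * rD Φ v) by rw [← map_mul, inv_mul_cancel_right], k.symm.mul_mul_mul_comm, k2, one_mul, map_mul] at h
  rw [Commute, SemiconjBy, eq_inv_of_mul_eq_one_left h, _root_.mul_inv_rev, inv_eq_of_mul_eq_one_left a,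
    inv_eq_of_mul_eq_one_left b]
end eo

section inv
variable [Nontrivial V] {M : ℕ} {ρ : Fˣ → Dl Φ} {ε : Dl Φ →* ℤˣ} (E : EO Φ M ρ ε) (hV : finrank F V = 2 * M)
  (h2 : (2 : F) ≠ 0) {g s : Dl Φ} {l : Fˣ}
include E hV h2

lemma eps_of_det (h : (LinearEquiv.det g.1 : F) = mu E.nd g ^ M) : ε g = 1 := by
  rcases Int.units_eq_one_or (ε g) with k | k
  · exact k
  · have := E.det hV g
    rw [h, k, Units.val_neg, Units.val_one, Int.cast_neg, Int.cast_one] at this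
    exact (h2 (mul_right_cancel₀ (pow_ne_zero M (mu E.nd g).ne_zero) (by linear_combination this))).elim

lemma mu_of_sq (hg : ε g = -1) (h : g.1 * g.1 = scal V l) : mu E.nd g = l := by
  have S := mu_sim E.nd g
  have gg : ∀ v, g.1 (g.1 v) = (l : F) • v := LinearEquiv.congr_fun h
  have e : (mu E.nd g : F) * mu E.nd g = l * l := by
    rw [← Units.val_mul, ← map_mul, mu_eq E.nd (g := g * g) (c := (l : F) * l) (τ := 1) (by rw [Subgroup.coe_mul, h]; exact sim_scal l)]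
  refine Units.ext ((mul_self_eq_mul_self_iff.1 e).resolve_right fun e => ?_)
  have k : ε g = 1 := eps_of_det E hV h2 (al_det (A := (bo Φ).compl₂ g.1.toLinearMap) (fun x => ?_) (fun y hy => ?_) hV
    (mu E.nd g).ne_zero fun u v => S.B _ _)
  · exact absurd (k.symm.trans hg) (by decide)
  · have := S.B x (g.1 x)
    simp only [lp_apply, gg, e, B_smul_left, B_comm (g.1 x), Kind.orth_σ, RingHom.id_apply, RingAut.one_apply] at this
    exact (mul_eq_zero.1 (show (2 * l : F) * Φ.B x (g.1 x) = 0 by linear_combination this)).resolve_left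
      (mul_ne_zero h2 l.ne_zero)
  · simpa using E.nd _ hy

/-- the isometric involution behind a graph involution with square multiplier -/
lemma exists_inv (hg : ε g = -1) (h : g.1 * g.1 = scal V l) (sq : qc F l = 1) :
    ∃ t ∈ Φ.isom, ∃ k : Fˣ, g.1 = scal V k * t ∧ t ^ 2 = 1 ∧ Odd (finrank F (fixSp t)) := by
  have m := mu_of_sq E hV h2 hg h
  obtain ⟨t, ht, k, e⟩ := (qc_mu E.nd).1 (m ▸ sq)
  have d := E.eps_mul ht e
  refine ⟨t, ht, k, e, LinearEquiv.ext fun v => ?_, ?_⟩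
  · have a : (l : F) = k * k := by
      rw [← m]; exact mu_eq E.nd (τ := 1) (by simpa [e] using (sim_scal k).mul (sim_lp ht))
    have := LinearEquiv.congr_fun h v
    simp only [e, LinearEquiv.mul_apply, scal_apply, map_smul, a, smul_smul] at this
    exact smul_right_injective V (mul_ne_zero k.ne_zero k.ne_zero) this
  · rw [hg, dick, hV, pow_add, pow_mul] at d
    by_contra n
    rw [(Nat.not_odd_iff_even.1 n).neg_one_pow] at d
    simp at d

omit E hV in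
lemma fix_neg {t : V ≃ₗ[F] V} (t2 : t ^ 2 = 1) :
    finrank F (fixSp (scal V (-1 : Fˣ) * t)) + finrank F (fixSp t) = finrank F V := by
  have tt : ∀ v, t (t v) = v := fun v => by simpa [sq] using LinearEquiv.congr_fun t2 v
  suffices fixSp (scal V (-1 : Fˣ) * t) = mv t by rw [this, finrank_mv_add t]
  ext x
  refine ⟨fun h => ⟨-(2⁻¹ : F) • x, ?_⟩, ?_⟩
  · have : t x = -x := by rw [← neg_eq_iff_eq_neg]; simpa using mem_fixSp.1 h
    simp only [LinearMap.sub_apply, LinearEquiv.coe_coe, map_smul, this, LinearMap.id_apply]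
    rw [← neg_add', ← two_smul F x, smul_neg, smul_smul]; simp [h2]
  · rintro ⟨y, rfl⟩
    simp [mem_fixSp, tt]

lemma exists_cent (hg : ε g = -1) (h : g.1 * g.1 = scal V l) : ∃ v w, ∃ c d : Fˣ, Φ.Q v = c ∧ Φ.Q w = d ∧
    qc F c ≠ qc F d ∧ g * (rD Φ v * rD Φ w) * g⁻¹ = rD Φ v * rD Φ w := by
  have cj : ∀ v w, g * (rD Φ v * rD Φ w) * g⁻¹ = rD Φ (g.1 v) * rD Φ (g.1 w) := fun v w => by
    rw [← conj_rD, ← conj_rD]; group
  have S := mu_sim E.nd g
  rw [mu_of_sq E hV h2 hg h] at S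
  have gg : ∀ v, g.1 (g.1 v) = (l : F) • v := LinearEquiv.congr_fun h
  rcases Int.units_eq_one_or (qc F l) with k | k
  · obtain ⟨t, ht, k, e, t2, -⟩ := exists_inv E hV h2 hg h k
    obtain ⟨U, nd, h2', hU⟩ : ∃ U : Submodule F V, (Φ.res U).Nondeg ∧ 2 ≤ finrank F U ∧ ∀ u ∈ U, ∃ a : F, a ≠ 0 ∧
        g.1 u = a • u := by
      have := fix_neg h2 t2
      have := E.five
      by_cases a : 2 ≤ finrank F (fixSp t)
      · exact ⟨_, E.nd.fix_nondeg ht (n := 2) (by simpa) t2, a, fun u hu => ⟨k, k.ne_zero, by simp [e, mem_fixSp.1 hu]⟩⟩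
      · refine ⟨_, E.nd.fix_nondeg (mul_mem neg_mem_isom ht) (n := 2) (by simpa) (LinearEquiv.ext fun v => ?_), by omega,
          fun u hu => ⟨-k, by simp, ?_⟩⟩
        · simpa [sq] using LinearEquiv.congr_fun t2 v
        · have : t u = -u := by rw [← neg_eq_iff_eq_neg]; simpa using mem_fixSp.1 hu
          simp [e, this]
    obtain ⟨d, hd⟩ := exists_qc h2
    obtain ⟨v, hv⟩ := nd.orth_universal h2' 1
    obtain ⟨w, hw⟩ := nd.orth_universal h2' d
    obtain ⟨a, a0, ha⟩ := hU v v.2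
    obtain ⟨b, b0, hb⟩ := hU w w.2
    refine ⟨v, w, 1, d, hv, hw, by simp [hd], ?_⟩
    rw [cj, ha, hb]
    exact Subtype.ext (congrArg₂ (· * ·) (r_smul a0 _) (r_smul b0 _))
  · obtain ⟨v, hv, p⟩ := exists_perp E.nd E.five h2 (g := g.1) (fun x y => mul_left_cancel₀ l.ne_zero (by
      simpa [gg, B_comm y] using (S.B (g.1 x) y).symm)) fun u u0 a e => not_sq.1 k ⟨a, smul_left_injective F u0 (by
        simp only [← gg, e, map_smul, smul_smul])⟩
    refine ⟨v, g.1 v, Units.mk0 _ hv, l * Units.mk0 _ hv, rfl, S.Q v, by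
      rw [map_mul, k, neg_one_mul]; exact fun e => by simpa using e, ?_⟩
    rw [cj, gg]
    refine Subtype.ext ((congrArg (Φ.r (g.1 v) * ·) (r_smul l.ne_zero v)).trans ?_)
    show _ = Φ.r v * Φ.r (g.1 v)
    rw [← mul_inv_eq_iff_eq_mul, conj_r (Φ.r_mem _), r_of_perp p]

lemma cent_sq (hM : Even M) (hg : ε g = -1) (h : g.1 * g.1 = scal V l) {c : F} (hs : ∀ v, s.1 (g.1 v) = c • g.1 (s.1 v)) :
    ch E s = 1 := by
  have m := mu_of_sq E hV h2 hg h
  rcases Int.units_eq_one_or (qc F l) with k | k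
  swap
  · exact absurd ((eps_of_det E hV h2 (by rw [det_of_sq h (not_sq.1 k) hV, m, hM.neg_pow]; simp)).symm.trans hg) (by decide)
  obtain ⟨t, ht, k, e, t2, o⟩ := exists_inv E hV h2 hg h k
  have tt : ∀ v, t (t v) = v := fun v => by simpa [sq] using LinearEquiv.congr_fun t2 v
  replace hs : ∀ v, s.1 (t v) = c • t (s.1 v) := fun v => smul_right_injective V k.ne_zero (by
    simpa [e, smul_comm c] using hs v)
  obtain ⟨v, v0⟩ := exists_ne (0 : V)
  have cc : c * c = 1 * 1 := smul_left_injective F (show s.1 v ≠ 0 by simpa) (by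
    have := hs (t v)
    rw [tt, hs, map_smul, tt, smul_smul] at this
    simpa using this.symm)
  rcases mul_self_eq_mul_self_iff.1 cc with rfl | rfl
  · exact qc_eq_one.2 (sq_of_odd _ (E.nd.fix_nondeg ht (n := 2) (by simpa) t2) o (mu_sim E.nd s) fun u hu => by
      simpa [mem_fixSp, mem_fixSp.1 hu] using (hs u).symm)
  · have : (fixSp t).map s.1.toLinearMap = fixSp (scal V (-1 : Fˣ) * t) := by
      ext x
      obtain ⟨x, rfl⟩ := s.1.surjective x
      rw [Submodule.mem_map_equiv, LinearEquiv.symm_apply_apply, mem_fixSp, mem_fixSp, ← s.1.injective.eq_iff, hs]; simp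
    have a := fix_neg h2 t2
    rw [← this, LinearEquiv.finrank_map_eq, hV] at a
    exact absurd (show Odd M by convert o; omega) (Nat.not_odd_iff_even.2 hM)
end inv

section aut
variable {ι : Type} [Fintype ι] [DecidableEq ι] {Φ : Form (Kind.orth F) (ι → F)} [Nontrivial (ι → F)] {M : ℕ}
  {ρ : Fˣ → Dl Φ} {ε : Dl Φ →* ℤˣ} (E : EO Φ M ρ ε) (h5 : 5 ≤ Fintype.card ι) (hV : Fintype.card ι = 2 * M)
  (h2 : (2 : F) ≠ 0) {g s : Dl Φ}

lemma pi_eq : piO E.nd h5 g = piO E.nd h5 s ↔ ∃ c : F, ∀ v, g.1 v = c • s.1 v := (bigO E.nd h5).nm'.ind_eq_ind _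

lemma pi_sc {n : ℕ} (h : piO E.nd h5 g ^ n = 1) : ∃ l : Fˣ, g.1 ^ n = scal _ l := by
  obtain ⟨c, hc⟩ := (pi_eq E h5 (g := g ^ n) (s := 1)).1 (by rw [map_pow, h, map_one])
  obtain ⟨v, v0⟩ := exists_ne (0 : ι → F)
  exact ⟨Units.mk0 c fun e => v0 (by simpa [e] using hc v), LinearEquiv.ext hc⟩

lemma inf_cent {X A : Type*} [Group X] [Group A] (π : X →* A) (S : Subgroup X) (x : A) :
    S.map π ⊓ Subgroup.centralizer {x} = (S ⊓ (Subgroup.centralizer {x}).comap π).map π := by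
  ext y
  exact ⟨fun ⟨⟨s, a, b⟩, c⟩ => ⟨s, ⟨a, show π s ∈ _ from b ▸ c⟩, b⟩, fun ⟨s, a, b⟩ => ⟨⟨s, a.1, b⟩, b ▸ a.2⟩⟩

include hV h2
theorem graph_count (hg : ε g = -1) (h : piO E.nd h5 g ^ 2 = 1) :
    (Cfsg.splitClassCount (ε.ker.map (piO E.nd h5)) (Cfsg.Inn _) (piO E.nd h5 g) = 1 ∨
      Cfsg.splitClassCount (ε.ker.map (piO E.nd h5)) (Cfsg.Inn _) (piO E.nd h5 g) = 2) ∧
    (scal _ (-1 : Fˣ) ∈ Φ.EG ∨ Even M →
      Cfsg.splitClassCount (ε.ker.map (piO E.nd h5)) (Cfsg.Inn _) (piO E.nd h5 g) = 2) := by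
  obtain ⟨l, hl⟩ := pi_sc E h5 h
  rw [sq] at hl
  have hV' : finrank F (ι → F) = 2 * M := by simpa
  set π := piO E.nd h5
  set C := ε.ker ⊓ (Subgroup.centralizer {π g}).comap π
  let o := (QuotientGroup.mk' (Cfsg.Inn _)).comp π
  have ho : ∀ g, o g = 1 ↔ ZO Φ g.1 := fun g => (QuotientGroup.eq_one_iff _).trans (piO_mem_Inn E.nd h5)
  have a : ∀ s, ch E s = 1 ∧ ε s = 1 → ∃ c ∈ C, ch E c = 1 ∧ π (s * c⁻¹) ∈ Cfsg.Inn _ := fun s hs => by
    by_cases hn : scal _ (-1 : Fˣ) ∈ Φ.EG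
    swap
    · exact ⟨1, one_mem _, map_one _, (piO_mem_Inn E.nd h5).2 (by simpa using (E.zo_odd h2 hn).1 hs)⟩
    obtain ⟨v, w, c, d, hv, hw, n, e⟩ := exists_cent E hV' h2 hg hl
    have k : ch E (rD Φ v * rD Φ w) = 1 ∧ ε (rD Φ v * rD Φ w) = 1 := by
      simp only [map_mul, ch_r, E.eps_r (hv ▸ c.ne_zero), E.eps_r (hw ▸ d.ne_zero)]; decide
    rcases E.zo_or h2 hs k (mt (fun z => (o_rr E h2 ho hn hv hw).1 ((ho _).2 z)) n) with z | z
    · exact ⟨1, one_mem _, map_one _, (piO_mem_Inn E.nd h5).2 (by simpa using z)⟩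
    · exact ⟨_, ⟨k.2, Subgroup.mem_centralizer_singleton_iff.2 (by
        rw [← map_mul, ← map_mul, ← mul_inv_eq_iff_eq_mul.1 e])⟩, k.1, (piO_mem_Inn E.nd h5).2 z⟩
  have two : (∀ c ∈ C, ch E c = 1) → Cfsg.splitClassCount (ε.ker.map π) (Cfsg.Inn _) (π g) = 2 := fun hC => by
    rw [count_hom (even_le E h5) (inf_cent ..) (ψ := (ch E).comp ε.ker.subtype) (fun x => ?_) fun s => ⟨fun hs => ?_, ?_⟩]
    · simp
    · obtain ⟨c, hc⟩ := exists_qc h2
      obtain ⟨s, e, m⟩ := E.exists_eps (if x = 1 then 1 else c) 1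
      refine ⟨⟨s, e⟩, ?_⟩
      show qc F (mu E.nd s) = x
      rcases Int.units_eq_one_or x with rfl | rfl <;> simp [m, hc]
    · exact (a s ⟨hs, s.2⟩).imp fun c k => ⟨k.1, k.2.2⟩
    · rintro ⟨c, hc, k⟩
      have := (E.of_zo ((piO_mem_Inn E.nd h5).1 k)).1
      rw [← MonoidHom.comp_apply, map_mul, map_inv, hC c hc] at this
      simpa using this
  refine ⟨?_, fun k => two fun c hc => ?_⟩
  · by_cases hC : ∀ c ∈ C, ch E c = 1
    · exact .inr (two hC)
    · push Not at hC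
      obtain ⟨c, hc, n⟩ := hC
      refine .inl (count_one (even_le E h5) (inf_cent ..) fun s hs => ?_)
      rcases Int.units_eq_one_or (ch E s) with k | k
      · exact (a s ⟨k, hs⟩).imp fun c k => ⟨k.1, k.2.2⟩
      · obtain ⟨d, hd, -, e⟩ := a (s * c⁻¹) ⟨by rw [map_mul, map_inv, k, Int.units_ne_iff_eq_neg.1 n]; simp,
          mul_mem hs (inv_mem hc.1)⟩
        exact ⟨d * c, mul_mem hd hc, by rwa [_root_.mul_inv_rev, ← mul_assoc]⟩
  · have cm : π (c * g) = π (g * c) := by simpa using Subgroup.mem_centralizer_singleton_iff.1 hc.2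
    rcases k with k | k
    · by_contra n
      refine not_comm E h2 ho k hc.1 (Int.units_ne_iff_eq_neg.1 n) hg ?_
      simpa [o, Commute, SemiconjBy] using congrArg (QuotientGroup.mk' (Cfsg.Inn _)) cm
    · obtain ⟨a, ha⟩ := (pi_eq E h5).1 cm
      exact cent_sq E hV' h2 k hg hl ha
end aut

section models
variable {m : ℕ}

lemma two_ne (h : Odd (Fintype.card F)) : (2 : F) ≠ 0 := fun e =>
  Nat.not_even_iff_odd.2 h (FiniteField.even_card_iff_char_two.1 (ringChar_eq_two e) |> Nat.even_iff.2)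

lemma plus_graph (h : 3 ≤ m) {γ : MulAut (Cfsg.POmega F (plusF F m).Q)} (hγ : Cfsg.IsSimilarityGraphAutPOmegaPlus m γ) :
    ∃ g, ((parP h).comp (dS _)) g = -1 ∧ γ = piO (plusF_nondeg m) (c5_plus h) g := by
  have : Nonempty (Fin m ⊕ Fin m) := ⟨.inl ⟨0, by omega⟩⟩
  obtain ⟨g, a, b, c⟩ := hγ
  have hg := (mem_qsim (Φ := plusF F m)).1 a
  exact ⟨⟨_, hg⟩, Int.units_ne_iff_eq_neg.1 (mt (psc_iff (plusF_nondeg m) (five_plus h) (mt_plus F m) hg).2 b),
    ((bigO (plusF_nondeg m) (c5_plus h)).nm'.ind_iff_lin (omE_apply _ _) hg).1 c⟩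

lemma minus_graph (h : 2 ≤ m) {a b : F} (hab : ∀ z₁ z₂ : F, z₁ ^ 2 + a * z₁ * z₂ + b * z₂ ^ 2 = 0 → z₁ = 0 ∧ z₂ = 0)
    {γ : MulAut (Cfsg.POmega F (minusF m a b).Q)} (hγ : γ ∈ Cfsg.gammaPOmega F _) (o : γ ^ 2 = 1) :
    ∃ g, γ = piO (nd_minus hab) (c5_minus h) g := by
  have nd := nd_minus (m := m) hab
  have h5 := c5_minus h
  have N := (bigO nd h5).nm'
  have := N.nt
  obtain ⟨s, rfl⟩ := gammaO nd h5 ▸ hγ
  by_cases k : N.fa s = 1
  · obtain ⟨g, hg⟩ := N.fa_eq_one.1 k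
    exact ⟨⟨g, show lp g ∈ _ from hg ▸ s.2⟩, congrArg _ (Subtype.ext hg.symm)⟩
  exfalso
  have o2 : orderOf (N.fa s) = 2 := orderOf_eq_prime (by
    obtain ⟨c, hc⟩ := (N.ind_eq_one _ (s := s ^ 2)).1 (by rw [map_pow]; exact o)
    obtain ⟨v, v0⟩ := exists_ne (0 : IM m → F)
    rw [← map_pow]
    exact N.fa_eq_one.2 ⟨scal _ (Units.mk0 c fun e => v0 (by
      have := hc v
      rw [e, zero_smul, ← (N.fa_sl (s ^ 2)).zero] at this
      exact (s ^ 2).1.injective this)), Equiv.ext fun v => (hc v).symm⟩) k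
  obtain ⟨t, -, -, ht, ht2⟩ := N.coset (omE nd h5) (N.fa_sl s) (g := 1) (by rw [map_one, one_mul, o2]; exact o)
  obtain ⟨τ, c, S⟩ := t.2
  obtain rfl := ht.uniq S.toSL
  obtain ⟨p, hp⟩ := CharP.exists F
  obtain ⟨f, pp, hF⟩ := FiniteField.card F p
  have := Fact.mk pp
  have dv : 2 ∣ (f : ℕ) := o2 ▸ card_ra hF ▸ orderOf_dvd_natCard _
  have f0 : (f : ℕ) / 2 ≠ 0 := by have := f.pos; omega
  have := Fintype.ofFinite (GaloisField p (f / 2))
  have hF₀ : Fintype.card (GaloisField p (f / 2)) = p ^ ((f : ℕ) / 2) := by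
    rw [← Nat.card_eq_fintype_card, GaloisField.card p _ f0]
  obtain ⟨-, φ, hφ⟩ := exists_sub hF o2 _ hF₀
  obtain ⟨e, Ψ, l, D⟩ := exists_DS' (ι := IM m) (by simp) nd hφ (ke_orth φ) S ht2
  by_cases ts : Ψ.HasTS (m + 1)
  · obtain ⟨T, x, -⟩ := D.mt (by simp; ring) ts
    exact minusF_not_hasTS m hab ⟨T, by have := x.2; simp at this; omega, x.1⟩
  · obtain ⟨a₀, b₀, hab₀⟩ := exists_aniso (GaloisField p (f / 2))
    obtain ⟨e, D⟩ := D.minus (by simp; ring) ts hab₀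
    letI := φ.toAlgebra
    obtain ⟨θ, T, -, -, hT, d, -⟩ := exists_mt (m := m) hab₀ (card_pow hF dv hF₀)
    exact minusF_not_hasTS m hab ((hasTS_of_sim D.ne (D.ext (ext_minus φ m a₀ b₀)).2).1 ⟨T, d, hT.1⟩)
end models

end H6.GB
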