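import Cfsg.Agent.H6.GA5

/-! # Fusion of semisimple elements of odd prime order in the even-dimensional orthogonal groups. -/

set_option autoImplicit false
set_option linter.unusedSectionVars false

namespace H6.GB
open H5 H5.Form H6.CA Module Matrix
universe u

variable {F : Type u} [Field F] [Fintype F] {V : Type*} [AddCommGroup V] [Module F V] [FiniteDimensional F V]
  {Φ : Form (Kind.orth F) V} {g : V ≃ₗ[F] V} {M n : ℕ}

lemma exists_rho (nd : Φ.Nondeg) (hV : finrank F V = 2 * M) (l : Fˣ) :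
    ∃ R : V ≃ₗ[F] V, (∀ v, Φ.Q (R v) = l * Φ.Q v) ∧ R * R = scal V l := by
  have k : ∀ {W : Type u} [AddCommGroup W] [Module F W] {Ψ : Form (Kind.orth F) W} (L : W →ₗ[F] W),
      (∀ v, L (L v) = (l : F) • v) → (∀ v, Ψ.Q (L v) = l * Ψ.Q v) → (∃ e, Ψ.IsIso Φ e) →
      ∃ R : V ≃ₗ[F] V, (∀ v, Φ.Q (R v) = l * Φ.Q v) ∧ R * R = scal V l := fun L a b ⟨e, he⟩ =>
    ⟨autCongr e (mkRho L l a b).1, fun v => by
      obtain ⟨v, rfl⟩ := e.surjective v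
      rw [autCongr_apply, e.symm_apply_apply, he.2, he.2]; exact b v, LinearEquiv.ext fun v => by
      rw [LinearEquiv.mul_apply, autCongr_apply, autCongr_apply, e.symm_apply_apply]
      exact (congrArg e (a (e.symm v))).trans (by simp)⟩
  by_cases h : Φ.HasTS M
  · exact k (Ψ := plusF F M) (LinearMap.pi (Sum.elim (fun i => (l : F) • LinearMap.proj (.inr i)) fun i =>
      LinearMap.proj (.inl i))) (fun v => by ext (i | i) <;> simp)
      (fun v => by simp [Cfsg.quadFormPlus, Finset.mul_sum, mul_left_comm, mul_comm])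
      (split_iso (plusF_nondeg M) nd (by simp [two_mul]) hV (plusF_hasTS M) h)
  · obtain _ | M := M
    · exact (h hasTS_zero).elim
    obtain ⟨a, b, hab⟩ := exists_aniso F
    obtain ⟨x, hx⟩ := exists_xy hab l
    exact k (Ψ := minusF M a b) (rhoM M a b x.1 x.2) (fun v => by rw [rhoM_sq, hx]) (fun v => by rw [rhoM_Q, hx])
      (minus_iso (nd_minus hab) nd (by simp; ring) hV (minusF_not_hasTS M hab) h)

lemma exists_csim (nd : Φ.Nondeg) (hV : finrank F V = 2 * M) (hg : g ∈ Φ.isom) (hn : (n : F) ≠ 0) (e : g ^ n = 1)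
    (o : Odd n) (l : Fˣ) : ∃ s : V ≃ₗ[F] V, (∀ v, Φ.Q (s v) = l * Φ.Q v) ∧ ∀ x, s (g x) = g (s x) := by
  obtain ⟨s, a, b⟩ := eqv_odd (nd.scale l.ne_zero) (a := g) ((mem_isom_orth _).2 fun x => by simp [hg.2]) hg nd
    (.refl F V) (fun _ => rfl) hn e o ((exists_rho nd hV l).imp fun _ h => isIso_orth h.1)
  exact ⟨s, a.2, b⟩

lemma det_fpf (nd : Φ.Nondeg) (hV : finrank F V = 2 * M) (hg : g ∈ Φ.isom) (e : g ^ n = 1) (o : Odd n)
    (f : ∀ x, g x = x → x = 0) {s : V ≃ₗ[F] V} {c : F} (c0 : c ≠ 0) (hs : ∀ v, Φ.Q (s v) = c * Φ.Q v)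
    (h : ∀ x, s (g x) = g (s x)) : (LinearEquiv.det s : F) = c ^ M := by
  have hB := B_of_sim (e := s.toLinearMap) hs
  refine al_det (A := (bo Φ).comp g.toLinearMap - (bo Φ).compl₂ g.toLinearMap) (fun x => sub_eq_zero.2 (B_comm _ _))
    (fun y hy => f y ?_) hV c0 fun u v => ?_
  · have : g (g y) = y := nd.ext fun x => by
      obtain ⟨x, rfl⟩ := g.surjective x
      rw [hg.1]; exact (sub_eq_zero.1 (hy x)).symm
    have : g * g ∈ MulAction.stabilizer _ y := this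
    obtain ⟨m, rfl⟩ := o
    have := pow_mem this m
    rwa [← sq, ← pow_mul, eq_inv_of_mul_eq_one_left ((pow_succ _ _).symm.trans e), inv_mem_iff] at this
  · show Φ.B (g (s u)) (s v) - Φ.B (s u) (g (s v)) = c * (Φ.B (g u) v - Φ.B u (g v))
    rw [← h, ← h, mul_sub]
    exact congrArg₂ _ (hB _ _) (hB _ _)

lemma cast_inj (h2 : (2 : F) ≠ 0) {a b : ℤˣ} (h : ((a : ℤ) : F) = (b : ℤ)) : a = b := by
  rcases Int.units_eq_one_or a with rfl | rfl <;> rcases Int.units_eq_one_or b with rfl | rfl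
  · rfl
  · exact (h2 (by simp only [Units.val_neg, Units.val_one, Int.cast_neg, Int.cast_one] at h; linear_combination h)).elim
  · exact (h2 (by simp only [Units.val_neg, Units.val_one, Int.cast_neg, Int.cast_one] at h; linear_combination -h)).elim
  · rfl

section eo
variable [Nontrivial V] {ρ : Fˣ → Dl Φ} {ε : Dl Φ →* ℤˣ} (E : EO Φ M ρ ε) (hV : finrank F V = 2 * M) (h2 : (2 : F) ≠ 0)
  (hg : g ∈ Φ.isom) (hn : (n : F) ≠ 0) (e : g ^ n = 1) (od : Odd n)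
include E hV hg hn e od

lemma fix_univ (f : ¬ ∀ x, g x = x → x = 0) (c : Fˣ) :
    ∃ v, Φ.Q v = c ∧ Commute (rD Φ v) ⟨g, isom_le_Dl hg⟩ := by
  have d : dick g = 1 := by
    have : ε ⟨g, isom_le_Dl hg⟩ ^ n = 1 := by rw [← map_pow, ← map_one ε]; exact congrArg ε (Subtype.ext e)
    rwa [E.iso g hg, Int.units_pow_eq_pow_mod_two, Nat.odd_iff.1 od, pow_one] at this
  rw [dick, neg_one_pow_eq_one_iff_even (by decide), hV] at d
  have : finrank F (fixSp g) ≠ 0 := fun k => f fun x hx => by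
    simpa [Submodule.finrank_eq_zero.1 k] using mem_fixSp.2 hx
  obtain ⟨v, hv⟩ := (E.nd.fix_nondeg hg hn e).orth_universal (by obtain ⟨k, hk⟩ := d; omega) c
  refine ⟨v, hv, Commute.symm (mul_inv_eq_iff_eq_mul.1 ?_)⟩
  rw [conj_rD]; exact congrArg _ v.2

lemma exists_mu (l : Fˣ) : ∃ s : Dl Φ, mu E.nd s = l ∧ Commute s ⟨g, isom_le_Dl hg⟩ := by
  obtain ⟨s, a, b⟩ := exists_csim E.nd hV hg hn e od l
  have S := sim_orth (sl_lp s) l.ne_zero a
  exact ⟨⟨s, S.mem⟩, Units.ext (mu_eq E.nd S), Subtype.ext (LinearEquiv.ext b)⟩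

include h2
omit hn in
lemma eps_fpf (f : ∀ x, g x = x → x = 0) {s : Dl Φ} (h : Commute s ⟨g, isom_le_Dl hg⟩) : ε s = 1 :=
  eps_of_det E hV h2 (det_fpf E.nd hV hg e od f (mu E.nd s).ne_zero (mu_sim E.nd s).Q
    (LinearEquiv.congr_fun (congrArg Subtype.val h.eq)))

lemma exists_s : ∃ s : Dl Φ, ch E s = -1 ∧ ε s = 1 ∧ Commute s ⟨g, isom_le_Dl hg⟩ := by
  obtain ⟨l, hl⟩ := exists_qc h2
  obtain ⟨s, a, b⟩ := exists_mu E hV hg hn e od l
  have c : ch E s = -1 := by rw [MonoidHom.comp_apply, a, hl]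
  rcases Int.units_eq_one_or (ε s) with k | k
  · exact ⟨s, c, k, b⟩
  obtain ⟨v, hv, d⟩ := fix_univ E hV hg hn e od (fun f => absurd (k.symm.trans (eps_fpf E hV h2 hg e od f b)) (by decide)) 1
  exact ⟨s * rD Φ v, by rw [map_mul, c, ch_r, mul_one], by rw [map_mul, k, E.eps_r (hv ▸ Units.ne_zero 1)]; rfl,
    b.mul_left d⟩

variable {O : Type*} [Group O] {o : Dl Φ →* O} (ho : ∀ g, o g = 1 ↔ ZO Φ g.1) (hN : scal V (-1 : Fˣ) ∈ Φ.EG)
  {W : Submodule F V} (nW : (Φ.res W).Nondeg) (iW : ∀ v ∈ W, g v ∈ W) {j : ℕ} (dW : finrank F W = 2 * j)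
include ho hN nW iW dW

lemma exists_c_odd (f : ∀ x, g x = x → x = 0) (hj : Odd j) :
    ∃ c : Dl Φ, ch E c = 1 ∧ o c ≠ 1 ∧ Commute c ⟨g, isom_le_Dl hg⟩ := by
  obtain ⟨l, hl⟩ := exists_qc h2
  obtain ⟨k, rfl⟩ : ∃ k, M = j + k := Nat.exists_eq_add_of_le (by have := W.finrank_le; omega)
  have dP : finrank F (Φ.perp W) = 2 * k := by have := E.nd.finrank_perp W; omega
  obtain ⟨s, a, b⟩ := exists_csim nW dW (Φ.resAut_mem hg iW) hn (resAut_one iW e) od l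
  obtain ⟨R, c, d⟩ := exists_rho (E.nd.perp_nondeg nW) dP l
  have cp := E.nd.isCompl_perp nW
  have S : Sim Φ (lp (sumAut cp (s, R))) 1 l := sim_orth (sl_lp _) l.ne_zero fun x => by
    obtain ⟨u, u', rfl⟩ := exists_add_of_isCompl cp x
    have p : ∀ (u : W) (u' : Φ.perp W), Φ.B u u' = 0 := fun u u' => Φ.B_zero_symm (u'.2 u u.2)
    rw [lp_apply, sumAut_apply, Φ.Q_add_of_perp (p _ _), Φ.Q_add_of_perp (p _ _), RingAut.one_apply, mul_add]
    exact congrArg₂ _ (a u) (c u')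
  have m : mu E.nd ⟨_, S.mem⟩ = l := Units.ext (mu_eq E.nd S)
  have x : ε ⟨_, S.mem⟩ = -(-1) ^ (j + k) := cast_inj h2 (mul_right_cancel₀ (pow_ne_zero (j + k) l.ne_zero) (by
    refine (m ▸ E.det hV ⟨_, S.mem⟩).symm.trans ?_
    rw [det_sumAut, Units.val_mul, det_of_sq d (not_sq.1 hl) dP, det_fpf nW dW (Φ.resAut_mem hg iW)
      (resAut_one iW e) od (fun x hx => Subtype.ext (f x (congrArg Subtype.val hx))) l.ne_zero a b]
    simp [pow_add, hj.neg_one_pow, neg_pow (l : F)]; ring))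
  refine ⟨⟨_, (sim_scal l⁻¹).mem⟩ * (⟨_, S.mem⟩ * ⟨_, S.mem⟩), ?_, ?_, Subtype.ext (E.nd.ext_of_compl nW
    (fun u hu => ?_) fun u hu => ?_)⟩
  · rw [map_mul, map_mul, Int.units_mul_self, mul_one]
    exact (qc_mu E.nd).2 ⟨1, one_mem _, _, (mul_one _).symm⟩
  · rw [map_mul, map_mul, o_scal ho, one_mul]
    exact sq_ne E h2 ho hN (by rw [MonoidHom.comp_apply, m, hl]) x
  · have k : ∀ u ∈ W, sumAut cp (s, R) (g u) = g (sumAut cp (s, R) u) ∧ sumAut cp (s, R) u ∈ W := fun u hu => by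
      erw [sumAut_left cp _ ⟨_, iW u hu⟩, sumAut_left cp _ ⟨_, hu⟩]
      exact ⟨congrArg Subtype.val (b ⟨u, hu⟩), Submodule.coe_mem _⟩
    simp [-map_inv, (k u hu).1, (k _ (k u hu).2).1]
  · have k : ∀ u ∈ Φ.perp W, sumAut cp (s, R) (sumAut cp (s, R) u) = (l : F) • u := fun u hu => by
      erw [sumAut_right cp _ ⟨_, hu⟩, sumAut_right]
      exact congrArg Subtype.val (LinearEquiv.congr_fun d ⟨u, hu⟩)
    simp [-map_inv, k u hu, k _ (isom_perp_mem hg iW u hu)]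

omit hV hn e od in
lemma exists_c_even (hj : Even j) (ht : ¬ (Φ.res W).HasTS j) :
    ∃ c : Dl Φ, ch E c = 1 ∧ o c ≠ 1 ∧ Commute c ⟨g, isom_le_Dl hg⟩ := by
  classical
  obtain ⟨b, b1, b2⟩ := nW.exists_orth_basis h2 (Fintype.card_fin _)
  obtain ⟨ψ, -, k, -, kr⟩ := exists_ab E.nd E.five h2
  obtain ⟨t, a, c⟩ := refl_prod kr (v := fun i => (b i : V)) (c := fun i => Units.mk0 _ (b1 i)) (fun _ => rfl) b2 Finset.univ
  have t1 : ∀ u ∈ W, t.1 u = -u := fun u hu => LinearMap.congr_fun (b.ext (f₁ := t.1.toLinearMap ∘ₗ W.subtype)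
    (f₂ := -W.subtype) fun i => by
      have : Φ.Q (b i) ≠ 0 := b1 i
      simp only [LinearMap.comp_apply, Submodule.subtype_apply, LinearEquiv.coe_coe, a, LinearMap.neg_apply]
      rw [Finset.sum_eq_single i (fun x _ h => by simp [show Φ.B (b i) (b x) = 0 from b2 _ _ h.symm]) (by simp), orth_self]
      simp only [Units.val_mk0, res_Q]
      rw [mul_left_comm, inv_mul_cancel₀ this, mul_one, two_smul]; abel) ⟨u, hu⟩
  have t2 : ∀ u ∈ Φ.perp W, t.1 u = u := fun u hu => by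
    rw [a, Finset.sum_eq_zero fun i _ => by rw [hu _ (b i).2, mul_zero, zero_smul], sub_zero]
  refine ⟨⟨t, isom_le_Dl t.2⟩, by rw [MonoidHom.comp_apply, (mu_eq_one E.nd).2 t.2, map_one], fun z => ht ?_,
    Subtype.ext (E.nd.ext_of_compl nW (fun u hu => ?_) fun u hu => ?_)⟩
  · rw [(k t).2 ((EO.zo_isom E.nd hN t.2).1 ((ho _).1 z)), ← map_prod, Prod.snd_one, eq_comm, qc_eq_one] at c
    rw [nW.hasTS_iff_of_orth h2 dW b b1 b2, hj.neg_one_pow, one_mul]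
    simpa using c
  · simp [t1 u hu, t1 _ (iW u hu)]
  · simp [t2 u hu, t2 _ (isom_perp_mem hg iW u hu)]

omit nW iW dW hn in
lemma exists_c [hr : Fact n.Prime] (p : ℕ) [Fact p.Prime] [CharP F p] (rp : n ≠ p) :
    ∃ c : Dl Φ, (ch E c = 1 ∧ ε c = 1) ∧ o c ≠ 1 ∧ Commute c ⟨g, isom_le_Dl hg⟩ := by
  have r2 : n ≠ 2 := by rintro rfl; exact absurd od (by decide)
  obtain ⟨-, b, j, hj, k, -⟩ := blk_so (F := F) r2 p rp rfl rfl
  by_cases f : ∀ x, g x = x → x = 0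
  swap
  · obtain ⟨l, hl⟩ := exists_qc h2
    obtain ⟨v, hv, cv⟩ := fix_univ E hV hg b.ne e od f 1
    obtain ⟨w, hw, cw⟩ := fix_univ E hV hg b.ne e od f l
    refine ⟨rD Φ v * rD Φ w, ?_, fun z => ?_, cv.mul_left cw⟩
    · simp only [map_mul, ch_r, E.eps_r (hv ▸ Units.ne_zero 1), E.eps_r (hw ▸ l.ne_zero)]; decide
    · simpa [hl] using (o_rr E h2 ho hN hv hw).1 z
  suffices ∃ c : Dl Φ, ch E c = 1 ∧ o c ≠ 1 ∧ Commute c ⟨g, isom_le_Dl hg⟩ from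
    this.imp fun c h => ⟨⟨h.1, eps_fpf E hV h2 hg e od f h.2.2⟩, h.2⟩
  obtain ⟨d, s⟩ := b.sub_fpf E.nd hg e f
  obtain ⟨U, _, _, _, Ψ, h, nd, -, -, -, dU, s⟩ := s 1 (by simpa using Nat.le_of_dvd finrank_pos d)
  obtain ⟨W, iW, i, hi⟩ := s.exists_W nd
  have nW := hi.nondeg nd
  have dW : finrank F W = 2 * j := by rw [← i.finrank_eq, dU, hj, mul_one]
  rcases j.even_or_odd with z | z
  · refine exists_c_even E h2 hg ho hN nW iW dW z fun t => ?_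
    have := (type_of_fpf nW r2 (orderOf_pos_iff.1 (ord_pos hr.out (cast_ne p hr.out rp))).isUnit.ne_zero dW
      (Φ.resAut_mem hg iW) (resAut_one iW e) fun x hx => Subtype.ext (f x (congrArg Subtype.val hx))).1 t
    have := ((k 1).1 (by rwa [mul_one])).resolve_right (by decide)
    rw [if_neg (Nat.not_even_iff_odd.2 this)] at hj
    exact Nat.not_even_iff_odd.2 this (by convert z; omega)
  · exact exists_c_odd E hV h2 hg b.ne e od ho hN nW iW dW f z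
end eo

lemma conj_iff {A : Type*} [Group A] {K H : Subgroup A} {x : A} (le : K ≤ H)
    (h : ∀ a ∈ H, ∃ c, Commute c x ∧ a * c ∈ K) (y : A) : Cfsg.IsConjUnder K x y ↔ Cfsg.IsConjUnder H x y :=
  ⟨fun ⟨a, b, c⟩ => ⟨a, le b, c⟩, fun ⟨a, b, e⟩ => have ⟨c, d, k⟩ := h a b; ⟨_, k, by
    rw [e, mul_assoc a c, d.eq]; group⟩⟩

section aut
variable {ι : Type} [Fintype ι] [DecidableEq ι] {Φ : Form (Kind.orth F) (ι → F)} [Nontrivial (ι → F)]
  {ρ : Fˣ → Dl Φ} {ε : Dl Φ →* ℤˣ} (E : EO Φ M ρ ε) (h5 : 5 ≤ Fintype.card ι) (hV : Fintype.card ι = 2 * M)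

include hV in
theorem ss_fusion (p : ℕ) [Fact p.Prime] [CharP F p] (hp : p ≠ 2) {x : MulAut (Cfsg.POmega F Φ.Q)}
    (hx : x ∈ Cfsg.pgoAut F Φ.Q) (hr : n.Prime) (od : Odd n) (rp : n ≠ p) (ox : orderOf x = n) :
    (∀ y, (Cfsg.IsConjUnder (Cfsg.Inn _) x y ↔ Cfsg.IsConjUnder (ε.ker.map (piO E.nd h5)) x y) ∧
      (Cfsg.IsConjUnder (Cfsg.psoAut F Φ.Q) x y ↔ Cfsg.IsConjUnder (ε.ker.map (piO E.nd h5)) x y)) ∧
      ∀ y, Cfsg.IsConjUnder (Cfsg.poAut F Φ.Q) x y ↔ Cfsg.IsConjUnder (Cfsg.pgoAut F Φ.Q) x y := by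
  have := Fact.mk hr
  have h2 : (2 : F) ≠ 0 := fun e => hp ((Nat.prime_dvd_prime_iff_eq Fact.out Nat.prime_two).1
    ((CharP.cast_eq_zero_iff F p 2).1 e))
  have hn : (n : F) ≠ 0 := fun e => rp ((Nat.prime_dvd_prime_iff_eq Fact.out hr).1 ((CharP.cast_eq_zero_iff F p n).1 e)).symm
  have hV' : finrank F (ι → F) = 2 * M := by simpa
  have N := (bigO E.nd h5).nm'
  obtain ⟨g, hg, e, rfl⟩ : ∃ g, ∃ hg : g ∈ Φ.isom, g ^ n = 1 ∧ x = piO E.nd h5 ⟨g, isom_le_Dl hg⟩ := by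
    obtain ⟨g, rfl⟩ := pgo_eq E.nd h5 ▸ hx
    have ms : ∀ {g : Dl Φ} {l : Fˣ}, g.1 ^ n = scal _ l → mu E.nd g ^ n = l * l := fun {g l} h => Units.ext (by
      rw [← map_pow]; exact mu_eq E.nd (τ := 1) (by rw [Subgroup.coe_pow, h]; exact sim_scal l))
    have o := ox ▸ pow_orderOf_eq_one (piO E.nd h5 g)
    obtain ⟨l, hl⟩ := pi_sc E h5 o
    have := congrArg (qc F) (ms hl)
    rw [map_pow, map_mul, Int.units_mul_self, Int.units_pow_eq_pow_mod_two, Nat.odd_iff.1 od, pow_one] at this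
    obtain ⟨t, ht, k, e⟩ := (qc_mu E.nd).1 this
    have a : piO E.nd h5 g = piO E.nd h5 ⟨t, isom_le_Dl ht⟩ := (pi_eq E h5).2 ⟨k, by simp [e]⟩
    obtain ⟨d, hd⟩ := pi_sc E h5 (a ▸ o)
    have dd := ms hd
    rw [(mu_eq_one E.nd).2 ht, one_pow] at dd
    refine ⟨scal _ d * t, Sim.isom (by simpa [← Units.val_mul, ← dd] using (sim_scal d).mul (sim_lp ht)), ?_,
      a.trans ((pi_eq E h5).2 ⟨d⁻¹, by simp⟩)⟩
    obtain ⟨m, rfl⟩ := od
    rw [Commute.mul_pow (LinearEquiv.ext fun v => by simp), hd, ← map_pow, ← map_mul, pow_succ, mul_assoc, pow_mul, sq,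
      ← dd]; simp
  set π := piO E.nd h5
  let o := (QuotientGroup.mk' (Cfsg.Inn _)).comp π
  have ho : ∀ g, o g = 1 ↔ ZO Φ g.1 := fun g => (QuotientGroup.eq_one_iff _).trans (piO_mem_Inn E.nd h5)
  have a : ∀ s, ch E s = 1 ∧ ε s = 1 → ∃ c, Commute c ⟨g, isom_le_Dl hg⟩ ∧ π (s * c) ∈ Cfsg.Inn _ := fun s hs => by
    by_cases hN : scal _ (-1 : Fˣ) ∈ Φ.EG
    swap
    · exact ⟨1, .one_left _, (piO_mem_Inn E.nd h5).2 (by simpa using (E.zo_odd h2 hN).1 hs)⟩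
    obtain ⟨c, k, z, cm⟩ := exists_c E hV' h2 hg e od ho hN p rp
    rcases E.zo_or h2 hs k (mt (ho _).2 z) with z | z
    · exact ⟨1, .one_left _, (piO_mem_Inn E.nd h5).2 (by simpa using z)⟩
    · exact ⟨c⁻¹, cm.inv_left, (piO_mem_Inn E.nd h5).2 z⟩
  have b : ∀ a ∈ ε.ker.map π, ∃ c, Commute c (π ⟨g, isom_le_Dl hg⟩) ∧ a * c ∈ Cfsg.Inn _ := by
    rintro _ ⟨s, hs, rfl⟩
    rcases Int.units_eq_one_or (ch E s) with k | k
    · obtain ⟨c, cm, z⟩ := a s ⟨k, hs⟩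
      exact ⟨π c, cm.map π, by rwa [← map_mul]⟩
    · obtain ⟨t, t1, t2, t3⟩ := exists_s E hV' h2 hg hn e od
      obtain ⟨c, cm, z⟩ := a (s * t) ⟨by rw [map_mul, k, t1]; rfl, by rw [map_mul, t2, mul_one]; exact hs⟩
      exact ⟨π (t * c), (t3.mul_left cm).map π, by rwa [← map_mul, ← mul_assoc]⟩
  have l1 : Cfsg.Inn _ ≤ Cfsg.psoAut F Φ.Q := fun x hx => by
    obtain ⟨s, -, rfl⟩ := even_le E h5 hx
    obtain ⟨t, ht, c, z⟩ := (E.so_iff h2).1 (E.of_zo ((piO_mem_Inn E.nd h5).1 hx))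
    exact pso_eq E.nd h5 ▸ (N.pi_mem_map _).2 ⟨⟨t, isom_le_Dl ht.1⟩, ht, c, z⟩
  refine ⟨fun y => ⟨conj_iff (even_le E h5) b y, conj_iff ?_ (fun x hx => (b x hx).imp fun c h => ⟨h.1, l1 h.2⟩) y⟩,
    ?_⟩
  · rw [pso_eq E.nd h5]
    exact Subgroup.map_mono fun t ht => ((E.so_iff h2).2 ⟨t.1, ht, 1, by simp⟩).2
  · rw [po_eq E.nd h5, pgo_eq E.nd h5]
    refine conj_iff (Subgroup.map_le_range _ _) ?_
    rintro _ ⟨s, rfl⟩
    obtain ⟨c, m, cm⟩ := exists_mu E hV' hg hn e od (mu E.nd s)⁻¹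
    exact ⟨π c, cm.map π, s * c, (mu_eq_one E.nd (g := s * c)).1 (by rw [map_mul, m, mul_inv_cancel]), map_mul _ _ _⟩
end aut

end H6.GB
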