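import Cfsg.Agent.H6.ChevAll
import Cfsg.Prelude.Def_ChevAutomorphisms

/-! # Generation of a Chevalley group by the monomial subgroup and few root subgroups -/

namespace H6.Chev
open Cfsg.Lie

def edge (D : ChevalleyDatum) (m : ℤ) (i j : ℕ) : Bool :=
  Nat.blt i D.rank && Nat.blt j D.rank &&
  (decide (D.reflectRoot i (D.reflectRoot j (D.simple i)) = D.simple j) ||
    (decide (D.reflectRoot i (D.reflectRoot j (D.simple i)) ≠ D.simple i) &&
     decide (D.reflectRoot i (D.reflectRoot j (D.simple i)) ≠ D.neg (D.simple i)) &&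
     (decide (D.commTerms (D.simple i) (D.reflectRoot i (D.reflectRoot j (D.simple i))) =
        [(D.reflectRoot i (D.simple j), m, 1, 1)]) ||
      decide (D.commTerms (D.simple i) (D.reflectRoot i (D.reflectRoot j (D.simple i))) =
        [(D.reflectRoot i (D.simple j), -m, 1, 1)]))))

def clo (E : List (ℕ × ℕ)) (L : List ℕ) : ℕ → List ℕ
  | 0 => L
  | k + 1 => clo E (L ++ (E.filter fun e => decide (e.1 ∈ L) && !decide (e.2 ∈ L)).map Prod.snd) k

def full (n : ℕ) (E : List (ℕ × ℕ)) (L : List ℕ) : Bool := allLt n fun j => decide (j ∈ clo E L n)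

lemma clo_ind {E : List (ℕ × ℕ)} {P : ℕ → Prop} (hE : ∀ e ∈ E, P e.1 → P e.2) (k : ℕ) :
    ∀ L : List ℕ, (∀ i ∈ L, P i) → ∀ i ∈ clo E L k, P i := by
  induction k with
  | zero => exact fun L h => h
  | succ k ih =>
    intro L h
    refine ih _ fun i hi => ?_
    rcases List.mem_append.1 hi with hi | hi
    · exact h i hi
    · obtain ⟨e, he, rfl⟩ := List.mem_map.1 hi
      rw [List.mem_filter] at he
      exact hE e he.1 (h _ (by have := he.2; simp at this; exact this.1))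

section
variable {Φ ι : Type} [Fintype ι] [DecidableEq ι] {R : RS Φ ι} {F : Type*} [Field F] {G : Type*}
  [Group G] {S : StSys R F G} {K : Subgroup G}

lemma mem_refl (hN : S.NConj) (h : S.N ≤ K) (i : ι) {r : Φ} (hx : ∀ t, S.x r t ∈ K) (t : F) :
    S.x (R.refl i r) t ∈ K := by
  obtain ⟨c, hc⟩ := hN.acts i (c := 1) one_ne_zero
  have := hc.conj r ((c r)⁻¹ * t)
  rw [mul_inv_cancel_left₀ (hc.ne r), RS.act_s] at this
  rw [← this]
  have hn := h (S.n_mem_N (R.simple i) one_ne_zero)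
  exact K.mul_mem (K.mul_mem hn (hx _)) (K.inv_mem hn)

lemma mem_terms {r s k : Φ} (h1 : s ≠ r) (h2 : s ≠ R.neg r) {c : ℤ}
    (h : R.terms r s = [(k, c, 1, 1)]) (hc : (c : F) ≠ 0) (hr : ∀ t, S.x r t ∈ K)
    (hs : ∀ t, S.x s t ∈ K) (t : F) : S.x k t ∈ K := by
  have := S.comm r s h1 h2 (-1) ((c : F)⁻¹ * t)
  rw [h] at this
  simp only [List.map_cons, List.map_nil, List.prod_cons, List.prod_nil, mul_one, _root_.neg_neg,
    pow_one, mul_inv_cancel_left₀ hc] at this
  rw [← inv_mul_eq_iff_eq_mul] at this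
  rw [← this]
  exact K.mul_mem (K.inv_mem (K.mul_mem (hr _) (hs _))) (K.mul_mem (hs _) (hr _))
end

variable {D : ChevalleyDatum} {F : Type*} [Field F]

theorem Cert.edge_mem (C : Cert D) {G : Type*} [Group G] {S : StSys C.R F G} (hS : S.NConj)
    {K : Subgroup G} (hN : S.N ≤ K) {m : ℤ} (hm : (m : F) ≠ 0) {i j : Fin D.rank}
    (he : edge D m i j = true) (hx : ∀ t, S.x (C.R.simple i) t ∈ K) :
    ∀ t, S.x (C.R.simple j) t ∈ K := by
  simp only [edge, Bool.and_eq_true, Bool.or_eq_true, Nat.blt_eq, decide_eq_true_eq] at he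
  have h2 := mem_refl hS hN i (mem_refl hS hN j hx)
  rcases he.2 with h1 | ⟨⟨h3, h4⟩, h5⟩
  · have : C.R.refl i (C.R.refl j (C.R.simple i)) = C.R.simple j := Fin.ext h1
    rwa [this] at h2
  · have h6 : ∀ c : ℤ, (c : F) ≠ 0 →
        D.commTerms (D.simple i) (D.reflectRoot i (D.reflectRoot j (D.simple i))) =
          [(D.reflectRoot i (D.simple j), c, 1, 1)] → ∀ t,
        S.x (C.R.refl i (C.R.simple j)) t ∈ K := fun c hc e =>
      mem_terms (r := C.R.simple i) (s := C.R.refl i (C.R.refl j (C.R.simple i)))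
        (fun e => h3 (congrArg Fin.val e)) (fun e => h4 (congrArg Fin.val e))
        (C.terms_eq (L := [(C.R.refl i (C.R.simple j), c, 1, 1)]) e) hc hx h2
    have h7 := mem_refl hS hN i (h5.elim (h6 m hm) (h6 (-m) (by simpa using hm)))
    rwa [RS.refl_refl] at h7

theorem Cert.grp_le_of_full (C : Cert D) {G : Type*} [Group G] {S : StSys C.R F G} (hS : S.NConj)
    {m : ℤ} (hm : (m : F) ≠ 0) {E : List (ℕ × ℕ)}
    (hE : E.all (fun e => edge D m e.1 e.2) = true) {L : List ℕ} (hL : full D.rank E L = true)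
    {K : Subgroup G} (hN : S.N ≤ K)
    (h : ∀ i ∈ L, ∃ hi : i < D.rank, ∀ t, S.x (C.R.simple ⟨i, hi⟩) t ∈ K) : S.grp ≤ K := by
  have key := clo_ind (E := E)
    (P := fun i => ∃ hi : i < D.rank, ∀ t, S.x (C.R.simple ⟨i, hi⟩) t ∈ K)
    (by
      rintro ⟨i, j⟩ he ⟨hi, hx⟩
      have h1 := List.all_eq_true.1 hE _ he
      have hj : j < D.rank := by
        simp only [edge, Bool.and_eq_true, Nat.blt_eq] at h1; exact h1.1.2
      exact ⟨hj, C.edge_mem hS hN hm (i := ⟨i, hi⟩) (j := ⟨j, hj⟩) h1 hx⟩) D.rank L h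
  refine hS.grp_le_of_simple (fun j t => ?_) fun j => hN (S.n_mem_N _ one_ne_zero)
  have := (allLt_iff _ _).1 hL j j.2
  exact (key j (by simpa using this)).2 t

theorem Cert.le_of_full (C : Cert D) {m : ℤ} (hm : (m : F) ≠ 0) {E : List (ℕ × ℕ)}
    (hE : E.all (fun e => edge D m e.1 e.2) = true) {L : List ℕ} (hL : full D.rank E L = true)
    {K : Subgroup (GL D.Idx F)} (hN : D.monomialSubgroup F ≤ K)
    (h : ∀ i ∈ L, i < D.rank ∧ D.rootSubgroup F (D.simple i) ≤ K) : D.group F ≤ K := by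
  rw [C.monomialSubgroup_eq] at hN
  rw [C.group_eq]
  refine C.grp_le_of_full (C.sys F).nconj hm hE hL hN fun i hi => ?_
  obtain ⟨h1, h2⟩ := h i hi
  have h3 : D.rootSubgroup F (D.simple i) = (C.sys F).U {C.R.simple ⟨i, h1⟩} :=
    C.rootSubgroup_eq (C.R.simple ⟨i, h1⟩)
  rw [h3] at h2
  exact ⟨h1, fun t => h2 ((C.sys F).x_mem_U (Set.mem_singleton _) t)⟩

end H6.Chev
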