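import Mathlib

/-! # Lang's theorem for `GL_n` via fixed vectors of Frobenius-semilinear maps -/

namespace Cfsg.Agent.H6.Lang1

open Polynomial

/-- The recursively defined coefficient polynomials. -/
noncomputable def cp {K : Type*} [Field K] (q : ℕ) (a : ℕ → K) : ℕ → K[X]
  | 0 => C (a 0) * X ^ q
  | i + 1 => cp q a i ^ q + C (a (i + 1)) * X ^ q

theorem cp_dvd {K : Type*} [Field K] (q : ℕ) (hq : 1 ≤ q) (a : ℕ → K) (i : ℕ) :
    X ^ q ∣ cp q a i := by
  induction i with
  | zero => exact Dvd.intro_left _ rfl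
  | succ i ih =>
    exact dvd_add (dvd_pow ih (by omega)) (Dvd.intro_left _ rfl)

theorem cp_zero {K : Type*} [Field K] (q : ℕ) (hq : 2 ≤ q) (a : ℕ → K) (m : ℕ)
    (h : cp q a m = 0) : ∀ i ≤ m, a i = 0 := by
  induction m with
  | zero =>
    intro i hi
    obtain rfl : i = 0 := by omega
    simpa [cp] using h
  | succ m ih =>
    have h1 : (X : K[X]) ^ (q * q) ∣ cp q a m ^ q := by
      rw [pow_mul]; exact pow_dvd_pow_of_dvd (cp_dvd q (by omega) a m) q
    have h2 : cp q a m ^ q = - (C (a (m + 1)) * X ^ q) := by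
      simp only [cp] at h; linear_combination h
    have h3 : a (m + 1) = 0 := by
      rw [h2, X_pow_dvd_iff] at h1
      have := h1 q (by nlinarith)
      simpa using this
    have h4 : cp q a m = 0 := by
      rw [h3] at h2
      simp only [map_zero, zero_mul, neg_zero] at h2
      exact pow_eq_zero_iff (by omega) |>.1 h2
    intro i hi
    rcases Nat.lt_or_ge i (m + 1) with h5 | h5
    · exact ih h4 i (by omega)
    · obtain rfl : i = m + 1 := by omega
      exact h3

theorem cp_root {K : Type*} [Field K] [IsAlgClosed K] (q : ℕ) (hq : 2 ≤ q) (a : ℕ → K) (m : ℕ)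
    (h : cp q a m ≠ 0) : ∃ t : K, t ≠ 0 ∧ (cp q a m).eval t = t := by
  obtain ⟨Y, hY⟩ := cp_dvd q (by omega) a m
  have hY0 : Y ≠ 0 := by rintro rfl; simp at hY; exact h hY
  obtain ⟨k, rfl⟩ : ∃ k, q = k + 2 := ⟨q - 2, by omega⟩
  have hd : (X ^ (k + 1) * Y - 1 : K[X]).degree ≠ 0 := by
    have h1 : 0 < (X ^ (k + 1) * Y : K[X]).natDegree := by
      rw [natDegree_mul (by simp) hY0]; simp
    have h2 : (X ^ (k + 1) * Y - 1 : K[X]).natDegree = (X ^ (k + 1) * Y : K[X]).natDegree := by
      rw [← C_1]; exact natDegree_sub_C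
    intro h3
    have := natDegree_eq_zero_iff_degree_le_zero.2 h3.le
    omega
  obtain ⟨t, ht⟩ := IsAlgClosed.exists_root _ hd
  simp only [IsRoot.def, eval_sub, eval_mul, eval_pow, eval_X, eval_one] at ht
  refine ⟨t, ?_, ?_⟩
  · rintro rfl; simp at ht
  · rw [hY]; simp only [eval_mul, eval_pow, eval_X]
    linear_combination t * ht

theorem exists_fixed {K V : Type*} [Field K] [IsAlgClosed K] [AddCommGroup V] [Module K V]
    [FiniteDimensional K V] [Nontrivial V] (q : ℕ) (hq : 2 ≤ q) (φ : V →+ V)
    (hφ : ∀ (c : K) v, φ (c • v) = c ^ q • φ v) (hi : Function.Injective φ) :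
    ∃ v, v ≠ 0 ∧ φ v = v := by
  classical
  obtain ⟨v, hv⟩ := exists_ne (0 : V)
  let s : ℕ → V := fun i => φ^[i] v
  have hs : ∀ i, s (i + 1) = φ (s i) := fun i => Function.iterate_succ_apply' _ _ _
  have hs0 : ∀ i, s i ≠ 0 := by
    intro i; induction i with
    | zero => exact hv
    | succ i ih => rw [hs]; intro h; exact ih (hi (by rw [h, map_zero]))
  have hex : ∃ r, ∃ a : ℕ → K, s r = ∑ i ∈ Finset.range r, a i • s i := by
    by_contra hne
    push Not at hne
    have hli : LinearIndependent K s := by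
      rw [linearIndependent_iff']
      intro S g hg
      induction S using Finset.induction_on_max with
      | empty => simp
      | insert n S hS ih =>
        have hn : n ∉ S := fun h => lt_irrefl _ (hS n h)
        rw [Finset.sum_insert hn] at hg
        have hg0 : g n = 0 := by
          by_contra h0
          apply hne n (fun i => if i ∈ S then -(g n)⁻¹ * g i else 0)
          have e1 : ∑ i ∈ Finset.range n, (if i ∈ S then -(g n)⁻¹ * g i else 0) • s i
              = ∑ i ∈ S, (-(g n)⁻¹ * g i) • s i := by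
            rw [← Finset.sum_subset (s₁ := S) (fun i hi => Finset.mem_range.2 (hS i hi))
              (fun i _ hi => by rw [if_neg hi, zero_smul])]
            exact Finset.sum_congr rfl fun i hi => by rw [if_pos hi]
          rw [e1]
          simp only [mul_smul, ← Finset.smul_sum]
          have : ∑ i ∈ S, g i • s i = -(g n • s n) := eq_neg_of_add_eq_zero_right hg
          rw [this]; simp [smul_smul, h0]
        rw [hg0, zero_smul, zero_add] at hg
        intro i hi
        rcases Finset.mem_insert.1 hi with rfl | hi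
        · exact hg0
        · exact ih hg i hi
    exact Module.Finite.not_linearIndependent_of_infinite s hli
  obtain ⟨a, ha⟩ := Nat.find_spec hex
  have hmin := fun m => @Nat.find_min _ _ hex m
  generalize Nat.find hex = r at ha hmin
  obtain _ | m := r
  · exact absurd (by simpa using ha) (hs0 0)
  have hc : cp q a m ≠ 0 := by
    intro h
    apply hs0 (m + 1)
    rw [ha]
    exact Finset.sum_eq_zero fun i hi => by
      rw [cp_zero q hq a m h i (by simpa [Nat.lt_succ_iff] using hi), zero_smul]
  obtain ⟨t, ht0, ht⟩ := cp_root q hq a m hc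
  refine ⟨∑ i ∈ Finset.range (m + 1), (cp q a i).eval t • s i, ?_, ?_⟩
  · intro h
    apply hmin m (by omega)
    refine ⟨fun i => -t⁻¹ * (cp q a i).eval t, ?_⟩
    rw [Finset.sum_range_succ, ht] at h
    simp only [mul_smul, ← Finset.smul_sum]
    have : ∑ i ∈ Finset.range m, (cp q a i).eval t • s i = -(t • s m) :=
      eq_neg_of_add_eq_zero_left h
    rw [this]; simp [smul_smul, ht0]
  · rw [map_sum]
    simp only [hφ, ← hs]
    rw [Finset.sum_range_succ, ht, ha, Finset.smul_sum, Finset.sum_range_succ',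
      Finset.sum_range_succ', ← add_assoc, ← Finset.sum_add_distrib]
    congr 1
    · refine Finset.sum_congr rfl fun i _ => ?_
      simp only [cp, eval_add, eval_pow, eval_mul, eval_C, eval_X, add_smul, smul_smul]
      rw [mul_comm (t ^ q)]
    · simp only [cp, eval_pow, eval_mul, eval_C, eval_X, smul_smul]
      rw [mul_comm (t ^ q)]

theorem span_fixed {K V : Type*} [Field K] [IsAlgClosed K] [AddCommGroup V] [Module K V]
    [FiniteDimensional K V] (q : ℕ) (hq : 2 ≤ q) (φ : V →+ V)
    (hφ : ∀ (c : K) v, φ (c • v) = c ^ q • φ v) (hi : Function.Injective φ) :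
    Submodule.span K {v | φ v = v} = ⊤ := by
  set W := Submodule.span K {v | φ v = v} with hW
  have key : ∀ w ∈ W, ∀ c : K, (φ (c • w) ∈ W) ∧ (∃ u ∈ W, φ u = c • w) ∧
      (∃ u ∈ W, φ u - u = c • w) := by
    intro w hw
    induction hw using Submodule.span_induction with
    | mem x hx =>
      intro c
      have hxW : x ∈ W := Submodule.subset_span hx
      have hx' : φ x = x := hx
      refine ⟨by rw [hφ, hx']; exact W.smul_mem _ hxW, ?_, ?_⟩
      · obtain ⟨d, hd⟩ := IsAlgClosed.exists_pow_nat_eq c (n := q) (by omega)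
        exact ⟨d • x, W.smul_mem _ hxW, by rw [hφ, hx', hd]⟩
      · have hd : (X ^ q - X - C c : K[X]).degree ≠ 0 := by
          have : (X ^ q - X - C c : K[X]).degree = q := by
            rw [sub_sub]
            refine (degree_sub_eq_left_of_degree_lt ?_).trans (degree_X_pow q)
            rw [degree_X_pow, degree_X_add_C]
            exact_mod_cast hq
          rw [this]; exact_mod_cast (by omega : q ≠ 0)
        obtain ⟨d, hd⟩ := IsAlgClosed.exists_root _ hd
        simp only [IsRoot.def, eval_sub, eval_pow, eval_X, eval_C] at hd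
        refine ⟨d • x, W.smul_mem _ hxW, ?_⟩
        rw [hφ, hx', ← sub_smul]; congr 1; linear_combination hd
    | zero => intro c; exact ⟨by simp, ⟨0, W.zero_mem, by simp⟩, ⟨0, W.zero_mem, by simp⟩⟩
    | add x y _ _ hx hy =>
      intro c
      obtain ⟨h1, ⟨u, hu, h2⟩, ⟨u', hu', h3⟩⟩ := hx c
      obtain ⟨h4, ⟨z, hz, h5⟩, ⟨z', hz', h6⟩⟩ := hy c
      refine ⟨by rw [smul_add, map_add]; exact W.add_mem h1 h4,
        ⟨u + z, W.add_mem hu hz, by rw [map_add, h2, h5, smul_add]⟩,
        ⟨u' + z', W.add_mem hu' hz', ?_⟩⟩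
      rw [map_add, smul_add, ← h3, ← h6]; abel
    | smul a x _ hx => intro c; rw [smul_smul]; exact hx _
  by_contra hne
  haveI : Nontrivial (V ⧸ W) := Submodule.Quotient.nontrivial_iff.2 hne
  let ψ : (V ⧸ W) →+ (V ⧸ W) := QuotientAddGroup.map W.toAddSubgroup W.toAddSubgroup φ
    (fun w hw => by simpa using (key w hw 1).1)
  have hψ : ∀ v : V, ψ (W.mkQ v) = W.mkQ (φ v) := fun v => rfl
  obtain ⟨v, hv0, hv⟩ := exists_fixed (K := K) q hq ψ (by
    intro c v
    obtain ⟨v, rfl⟩ := W.mkQ_surjective v
    rw [← map_smul, hψ, hψ, hφ, map_smul]) (by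
    rw [injective_iff_map_eq_zero]
    intro v hv
    obtain ⟨v, rfl⟩ := W.mkQ_surjective v
    rw [hψ] at hv
    have h1 : φ v ∈ W := by simpa using hv
    obtain ⟨u, hu, h2⟩ := (key _ h1 1).2.1
    rw [one_smul] at h2
    rw [← hi h2]; simpa using hu)
  obtain ⟨v, rfl⟩ := W.mkQ_surjective v
  rw [hψ] at hv
  have h1 : φ v - v ∈ W := by simpa [Submodule.Quotient.eq] using hv
  obtain ⟨u, hu, h2⟩ := (key _ h1 1).2.2
  rw [one_smul] at h2
  have h3 : v - u ∈ W := Submodule.subset_span (by
    show φ (v - u) = v - u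
    rw [map_sub, sub_eq_sub_iff_sub_eq_sub, h2])
  apply hv0
  have : v ∈ W := by simpa using W.add_mem h3 hu
  simpa using this

theorem exists_basis_fixed {K : Type*} [Field K] {n : ℕ} (S : Set (Fin n → K))
    (hS : Submodule.span K S = ⊤) :
    ∃ x : GL (Fin n) K, ∀ j, (fun i => (x : Matrix (Fin n) (Fin n) K) i j) ∈ S := by
  classical
  obtain ⟨b, hb, h1, h2⟩ := exists_linearIndependent K S
  let B : Module.Basis b K (Fin n → K) := Module.Basis.mk h2 (by simp [h1, hS])
  haveI : Fintype b := FiniteDimensional.fintypeBasisIndex B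
  have hc : Fintype.card b = n := by rw [← Module.finrank_eq_card_basis B]; simp
  let B' := B.reindex (Fintype.equivFinOfCardEq hc)
  haveI := (Pi.basisFun K (Fin n)).invertibleToMatrix B'
  refine ⟨unitOfInvertible ((Pi.basisFun K (Fin n)).toMatrix B'), fun j => ?_⟩
  have : (fun i => ((Pi.basisFun K (Fin n)).toMatrix B') i j) = B' j := by
    funext i; simp [Module.Basis.toMatrix_apply]
  show (fun i => ((Pi.basisFun K (Fin n)).toMatrix B') i j) ∈ S
  rw [this]
  simp only [B', B, Module.Basis.reindex_apply, Module.Basis.mk_apply]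
  exact hb (Subtype.prop _)

theorem langGL {K : Type*} [Field K] [IsAlgClosed K] (q : ℕ) (hq : 2 ≤ q) (F : K →+* K)
    (hF : ∀ x, F x = x ^ q) (n : ℕ) (g : GL (Fin n) K) :
    ∃ x : GL (Fin n) K, g = x * (Matrix.GeneralLinearGroup.map F x)⁻¹ := by
  let φ : (Fin n → K) →+ (Fin n → K) :=
    { toFun := fun v => (g : Matrix (Fin n) (Fin n) K).mulVec (fun i => F (v i))
      map_zero' := by
        have : (fun i : Fin n => F ((0 : Fin n → K) i)) = 0 := by funext i; simp
        rw [this, Matrix.mulVec_zero]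
      map_add' := fun u v => by
        rw [← Matrix.mulVec_add]; congr 1; funext i; simp }
  have hφ : ∀ v, φ v = (g : Matrix (Fin n) (Fin n) K).mulVec (fun i => F (v i)) := fun v => rfl
  obtain ⟨x, hx⟩ := exists_basis_fixed _ (span_fixed (K := K) q hq φ (by
    intro c v
    rw [hφ, hφ, ← Matrix.mulVec_smul]; congr 1; funext i; simp [hF, mul_pow]) (by
    intro u v h
    rw [hφ, hφ] at h
    have := congrArg ((g⁻¹ : GL (Fin n) K) : Matrix (Fin n) (Fin n) K).mulVec h
    simp only [Matrix.mulVec_mulVec, Units.inv_mul, Matrix.one_mulVec] at this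
    funext i; exact F.injective (congrFun this i)))
  refine ⟨x, ?_⟩
  rw [eq_mul_inv_iff_mul_eq]
  ext i j
  have := congrFun (hx j : φ _ = _) i
  rw [hφ] at this
  simpa [Matrix.mul_apply, Matrix.mulVec, dotProduct] using this

end Cfsg.Agent.H6.Lang1
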