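import Cfsg.Agent.H6.Mult1

/-!
A torus acting on a group by scalars on the abelianization has no fixed points on low terms of the lower
central series (polynomial functions and finite differences).
-/

noncomputable section

namespace H6.Lcs

open Subgroup
open scoped commutatorElement

variable {K : Type*} {A : Type*} [CommGroup A]

section deg
variable [AddCommGroup K]

/-- functions of degree less than `r` -/
def Deg : ℕ → (K → A) → Prop
  | 0, F => ∀ k, F k = 1
  | r + 1, F => ∀ e, Deg r fun k => F (k + e) / F k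

lemma Deg.one : ∀ r, Deg r fun _ : K => (1 : A)
  | 0 => fun _ => rfl
  | r + 1 => fun _ => by simpa using Deg.one r

lemma Deg.mul : ∀ {r} {F F' : K → A}, Deg r F → Deg r F' → Deg r fun k => F k * F' k
  | 0, _, _, h, h' => fun k => by simp [h k, h' k]
  | _ + 1, _, _, h, h' => fun e => by simpa [mul_div_mul_comm] using (h e).mul (h' e)

lemma Deg.inv : ∀ {r} {F : K → A}, Deg r F → Deg r fun k => (F k)⁻¹
  | 0, _, h => fun k => by simp [h k]
  | _ + 1, _, h => fun e => by simpa [div_eq_mul_inv, mul_comm] using (h e).inv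

lemma Deg.shift : ∀ {r} {F : K → A}, Deg r F → ∀ a, Deg r fun k => F (k + a)
  | 0, _, h, _ => fun _ => h _
  | _ + 1, _, h, a => fun e => by simpa [add_right_comm] using (h e).shift a

lemma Deg.diag : ∀ {r} {Φ : K → K → A}, (∀ k a b, Φ k (a + b) = Φ k a * Φ k b) → (∀ b, Deg r (Φ · b)) →
    Deg (r + 1) fun k => Φ k k
  | 0, _, _, h => fun e k => by simp [h _ _]
  | r + 1, Φ, h1, h => fun e => by
    have := (Deg.diag (Φ := fun k b => Φ (k + e) b / Φ k b) (fun k a b => by
      rw [h1, h1, mul_div_mul_comm]) fun b => h b e).mul ((h e).shift e)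
    simpa [h1, div_mul_eq_mul_div] using this

lemma Deg.eq_one : ∀ (l : List K) {F : K → A}, Deg l.length F → (∀ s, s.Sublist l → s ≠ [] → F s.sum = 1) → F 0 = 1
  | [], _, h, _ => h 0
  | e :: l, F, h, h1 => by
    have := Deg.eq_one l (h e) fun s hs h0 => by
      rw [h1 s (hs.cons e) h0, add_comm, ← List.sum_cons, h1 _ (hs.cons₂ e) (by simp), div_one]
    rw [zero_add, show F e = 1 by simpa using h1 [e] (by simp) (by simp)] at this
    simpa using this

lemma exists_list [Fintype K] : ∀ n, 2 ^ n < 2 * Fintype.card K →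
    ∃ l : List K, l.length = n ∧ ∀ s, s.Sublist l → s ≠ [] → s.sum ≠ 0
  | 0, _ => ⟨[], rfl, by simp⟩
  | n + 1, h => by
    classical
    obtain ⟨l, rfl, hl⟩ := exists_list n (by omega)
    obtain ⟨e, -, he⟩ := Finset.exists_mem_notMem_of_card_lt_card (s := (l.sublists.map fun s => -s.sum).toFinset)
      (t := Finset.univ) ((List.toFinset_card_le _).trans_lt (by simp; omega))
    refine ⟨e :: l, rfl, fun s hs h0 => ?_⟩
    rcases List.sublist_cons_iff.1 hs with hs' | ⟨s, rfl, hs'⟩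
    · exact hl s hs' h0
    · exact fun e' => he (by simpa using ⟨s, hs', neg_eq_of_add_eq_zero_left (by simpa using e')⟩)

end deg

variable [Field K] {M : Type*} [Group M] {π : M →* Multiplicative K} (hπ : Function.Surjective π)
  (hk : π.ker ≤ commutator M ⊔ center M) {α : K → M →* M} (hα : ∀ k g, (π (α k g)).toAdd = k * (π g).toAdd)

local notation "γ" => Subgroup.lowerCentralSeries (⊤ : Subgroup M)

include hπ hk hα in
lemma deg_zero {r} {ψ : K → M → A} (h1 : ∀ k c d, ψ k (c * d) = ψ k c * ψ k d)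
    (h2 : ∀ k, ∀ c ∈ center M, ψ k c = 1) (h3 : ∀ c, Deg r (ψ · c)) (c : M) :
    Deg (r + 1) fun k => ψ k (α k c) := by
  have key : ∀ k g g', π g = π g' → ψ k g = ψ k g' := fun k g g' e => by
    have : π.ker ≤ (MonoidHom.mk' (ψ k) (h1 k)).ker := hk.trans (sup_le (Abelianization.commutator_subset_ker _) (h2 k))
    exact (MonoidHom.eq_iff (MonoidHom.mk' (ψ k) (h1 k))).2 (this (π.eq_iff.1 e))
  obtain ⟨σ, hσ⟩ := hπ.hasRightInverse
  have := Deg.diag (Φ := fun k b => ψ k (σ (.ofAdd (b * (π c).toAdd)))) (fun k a b => by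
    rw [← h1]; exact key _ _ _ (by rw [map_mul π, hσ, hσ, hσ, add_mul, ofAdd_add])) fun b => h3 _
  convert this using 2 with k
  exact key _ _ _ (by rw [hσ, ← hα]; rfl)

lemma map_γ (f : M →* M) {j : ℕ} {c : M} (hc : c ∈ γ j) : f c ∈ γ j :=
  lowerCentralSeries_mono j le_top (map_lowerCentralSeries ⊤ f j ▸ mem_map_of_mem f hc)

include hπ hk hα in
lemma deg_lcs : ∀ (j r : ℕ) {ψ : K → M → A}, (∀ k, ∀ c ∈ γ j, ∀ d ∈ γ j, ψ k (c * d) = ψ k c * ψ k d) →
    (∀ k, ∀ c ∈ γ (j + 1), ψ k c = 1) → (j = 0 → ∀ k, ∀ c ∈ center M, ψ k c = 1) →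
    (∀ c ∈ γ j, Deg r (ψ · c)) → ∀ c ∈ γ j, Deg (r + j + 1) fun k => ψ k (α k c)
  | 0, _, _, h1, _, h3, h4 => fun c _ => deg_zero hπ hk hα (fun k c d => h1 k c trivial d trivial) (h3 rfl)
    (fun c => h4 c trivial) c
  | j + 1, r, ψ, h1, h2, _, h4 => fun c hc => by
    have m : ∀ {i c} g, c ∈ γ i → ⁅c, g⁆ ∈ γ (i + 1) := fun g h => commutator_mem_commutator h trivial
    have o : ∀ k, ψ k 1 = 1 := fun k => h2 k 1 (one_mem _)
    have cj : ∀ k g, ∀ y ∈ γ (j + 1), ψ k (g * y * g⁻¹) = ψ k y := fun k g y hy => by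
      rw [show g * y * g⁻¹ = y * ⁅y⁻¹, g⁆ by group, h1 k y hy _ (Subgroup.lowerCentralSeries_antitone ⊤ (Nat.le_succ _)
        (m g (inv_mem hy))), h2 k _ (m g (inv_mem hy)), mul_one]
    have nm : ∀ g, ∀ y ∈ γ (j + 1), g * y * g⁻¹ ∈ γ (j + 1) := fun g y hy => Normal.conj_mem inferInstance y hy g
    induction hc using closure_induction with
    | mem x hx =>
      obtain ⟨a, ha, g, -, rfl⟩ := hx
      have := deg_lcs j (r + 1) (ψ := fun k c => ψ k ⁅c, α k g⁆) (fun k c hc d hd => by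
        rw [show ⁅c * d, α k g⁆ = c * ⁅d, α k g⁆ * c⁻¹ * ⁅c, α k g⁆ by group, h1 k _ (nm _ _ (m _ hd)) _ (m _ hc),
          cj k _ _ (m _ hd), mul_comm]) (fun k c hc => h2 k _ (m _ hc)) (fun _ k c hc => by
          rw [commutatorElement_eq_one_iff_mul_comm.2 (mem_center_iff.1 hc _).symm, o]) (fun c hc =>
          deg_zero hπ hk hα (ψ := fun k g => ψ k ⁅c, g⁆) (fun k g g' => by
            rw [show ⁅c, g * g'⁆ = ⁅c, g⁆ * (g * ⁅c, g'⁆ * g⁻¹) by group, h1 k _ (m _ hc) _ (nm _ _ (m _ hc)),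
              cj k _ _ (m _ hc)]) (fun k g hg => by
            rw [commutatorElement_eq_one_iff_mul_comm.2 (mem_center_iff.1 hg _), o]) (fun g => h4 _ (m _ hc)) g) a ha
      simpa [map_commutatorElement, add_assoc, add_comm 1] using this
    | one => simpa [o] using Deg.one _
    | mul x y hx hy ix iy =>
      convert ix.mul iy using 2 with k
      rw [map_mul, h1 k _ (map_γ _ hx) _ (map_γ _ hy)]
    | inv x hx ix =>
      convert ix.inv using 2 with k
      rw [eq_inv_iff_mul_eq_one, ← h1 k _ (map_γ _ (inv_mem hx)) _ (map_γ _ hx), ← map_mul, inv_mul_cancel, map_one, o]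

open scoped IsMulCommutative in
include hπ hk hα in
theorem lcs_fix [Fintype K] (h0 : α 0 = 1) {j : ℕ} (hj : 2 ^ (j + 3) < 2 * Fintype.card K) {z : M}
    (hz : z ∈ γ (j + 1)) (hfix : ∀ k ≠ 0, α k z = z) : z ∈ γ (j + 2) := by
  classical
  let μ := QuotientGroup.mk' (γ (j + 2))
  have hc : ∀ c ∈ γ (j + 1), μ c ∈ center _ := fun c hc => mem_center_iff.2 fun g => by
    obtain ⟨g, rfl⟩ := QuotientGroup.mk'_surjective _ g
    rw [eq_comm, ← commutatorElement_eq_one_iff_mul_comm, ← map_commutatorElement]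
    exact (QuotientGroup.eq_one_iff _).2 (commutator_mem_commutator hc trivial)
  let ψ : M → center (M ⧸ γ (j + 2)) := fun c => if h : μ c ∈ center _ then ⟨_, h⟩ else 1
  have hψ : ∀ c ∈ γ (j + 1), (ψ c).1 = μ c := fun c h => by simp only [ψ, dif_pos (hc c h)]
  obtain ⟨l, hl, hs⟩ := exists_list (K := K) _ hj
  have h1 := deg_lcs hπ hk hα (j + 1) 1 (ψ := fun _ => ψ) (fun _ c h d h' => Subtype.ext (by
    rw [coe_mul, hψ c h, hψ d h', hψ _ (mul_mem h h'), map_mul])) (fun _ c h => Subtype.ext (by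
    rw [hψ c (Subgroup.lowerCentralSeries_antitone ⊤ (Nat.le_succ _) h)]; exact (QuotientGroup.eq_one_iff _).2 h))
    (by simp) (fun c _ e k => div_self' _) z hz
  have h2 : Deg l.length fun k => ψ (α k z) / ψ z := by
    rw [hl, show j + 3 = 1 + (j + 1) + 1 by omega]
    intro e
    simpa only [div_div_div_cancel_right] using h1 e
  have := congrArg Subtype.val (div_eq_one.1 (h2.eq_one l fun s h h' => by rw [hfix _ (hs s h h'), div_self']))
  rw [hψ z hz, h0, hψ _ (by simp)] at this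
  exact (QuotientGroup.eq_one_iff _).1 (this.symm.trans μ.map_one)

end H6.Lcs
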