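import Cfsg.Agent.H6.Ree7
import Cfsg.Agent.H6.Lcs

/-!
Small Ree groups VIII: the Schur multiplier.
-/

noncomputable section

namespace H6.Ree

open H5 Pointwise MulAction Suz Mult
open scoped commutatorElement

universe u
variable {K : Type*} [Field K] [Fintype K] {P : Par K} {G : Type u} [Group G]

namespace ReS

variable (X : ReS P G) {Δ : Type*} [Group Δ] {τ : Δ →* G} (h : CE τ)

lemma c_a {y : G} (hy : y * X.a = X.a * y) : h.c X.a y = 1 := by
  let κ : SL2 K →* Δ := MonoidHom.mk' (fun g => h.c X.a (X.φ g)) fun a b => by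
    rw [map_mul, h.c_mul_right' (X.φ_a _).symm]
  have h2 : ∀ t, κ (up t) = 1 := fun t => by
    have e2 : κ (up t) * κ (up t) = 1 := (h.c_mul_left' (X.φ_a _).symm).symm.trans (by simp)
    have e3 : κ (up t) * κ (up t) * κ (up t) = 1 := by
      rw [← map_mul, ← map_mul, up_mul, up_mul, show t + t + t = 0 by linear_combination t * P.three,
        up_eq_one.2 rfl, map_one]
    rwa [e2, one_mul] at e3
  have h3 : ∀ g, κ g = 1 := hom_mem (M := ⊥) h2 fun t => by
    rw [show lo t = w2 * up (-t) * w2⁻¹ by rw [eq_mul_inv_iff_mul_eq]; simp [sl2_mul, sl2_eq_iff], map_mul, map_mul, h2]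
    simp
  have ha : h.c X.a X.a = 1 := commutatorElement_self _
  obtain ⟨l, -, rfl | rfl⟩ := X.cent_a.le (mem_cent.2 hy) <;> obtain ⟨g, rfl⟩ := QuotientGroup.mk_surjective l
  · exact h3 g
  · rw [h.c_mul_right' (X.ι_a _).symm, ha, one_mul]; exact h3 g

/-- first coordinate -/
def t1 : X.U →* Multiplicative K := MonoidHom.mk' (fun u => .ofAdd u.2.choose) fun a b => by
  obtain ⟨_, _, e1⟩ := a.2.choose_spec
  obtain ⟨_, _, e2⟩ := b.2.choose_spec
  obtain ⟨_, _, e3⟩ := (a * b).2.choose_spec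
  exact (X.x_inj.1 (e3.symm.trans ((congrArg₂ (· * ·) e1 e2).trans (X.x_mul ..)))).1

lemma t1_eq {g : X.U} {t u v : K} (e : g = X.x t u v) : X.t1 g = .ofAdd t := by
  obtain ⟨_, _, e1⟩ := g.2.choose_spec
  exact (X.x_inj.1 (e1.symm.trans e)).1

lemma mem_comm (hm : 1 ≤ P.m) (s w : K) : X.x 0 s w ∈ ⁅X.U, X.U⁆ := by
  refine X.U2_mem hm (fun k g hg => ?_) (fun w => ?_) (fun k => ⟨0, 0, 0, 0, ?_⟩) s w
  · have : cj (X.D k) X.U ≤ X.U := by rintro _ ⟨u, hu, rfl⟩; exact conj_mem_U (X.D_mem_B k) hu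
    exact Subgroup.commutator_mono this this (by rw [← Subgroup.map_commutator]; exact conj_mem_cj.2 hg)
  · simpa [commutatorElement_def, x_inv, X.x_mul, pow_succ] using
      Subgroup.commutator_mem_commutator (X.x_mem 1 0 0) (X.x_mem 0 w 0)
  · simpa [commutatorElement_def, mul_assoc] using Subgroup.commutator_mem_commutator (X.x_mem k 0 0) (X.x_mem 1 0 0)

/-- the derived subgroup of `U` -/
def U2 : Subgroup G where
  carrier := {g | ∃ u v, g = X.x 0 u v}
  one_mem' := ⟨0, 0, X.x_zero.symm⟩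
  mul_mem' := by rintro _ _ ⟨b, c, rfl⟩ ⟨b', c', rfl⟩; exact ⟨b + b', c + c', by simp [X.x_mul]⟩
  inv_mem' := by rintro _ ⟨b, c, rfl⟩; exact ⟨-b, -c, by simp [X.x_inv]⟩

/-- the centre of `U` -/
def U3 : Subgroup G where
  carrier := {g | ∃ v, g = X.x 0 0 v}
  one_mem' := ⟨0, X.x_zero.symm⟩
  mul_mem' := by rintro _ _ ⟨c, rfl⟩ ⟨c', rfl⟩; exact ⟨c + c', by simp [X.x_mul]⟩
  inv_mem' := by rintro _ ⟨c, rfl⟩; exact ⟨-c, by simp [X.x_inv]⟩

lemma lcs_U : X.U.lowerCentralSeries 3 = ⊥ := by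
  have h1 : ⁅X.U, X.U⁆ ≤ X.U2 := Subgroup.commutator_le.2 <| by
    rintro _ ⟨a, b, c, rfl⟩ _ ⟨a', b', c', rfl⟩
    exact ⟨_, _, by simp only [commutatorElement_def, x_inv, X.x_mul]; exact X.x_inj.2 ⟨by ring, rfl, rfl⟩⟩
  have h2 : ⁅X.U2, X.U⁆ ≤ X.U3 := Subgroup.commutator_le.2 <| by
    rintro _ ⟨b, c, rfl⟩ _ ⟨a', b', c', rfl⟩
    exact ⟨_, by simp only [commutatorElement_def, x_inv, X.x_mul]; exact X.x_inj.2 ⟨by ring, by
      simp; ring, rfl⟩⟩
  have h3 : ⁅X.U3, X.U⁆ ≤ ⊥ := Subgroup.commutator_le.2 <| by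
    rintro _ ⟨c, rfl⟩ _ ⟨a', b', c', rfl⟩
    exact commutatorElement_eq_one_iff_mul_comm.2 (by simp [X.x_mul, add_comm])
  exact eq_bot_iff.2 ((Subgroup.commutator_mono ((Subgroup.commutator_mono h1 le_rfl).trans h2) le_rfl).trans h3)

include h in
lemma comm_U (hm : 1 ≤ P.m) {z : Δ} (hz : z ∈ ⁅X.U.comap τ, X.U.comap τ⁆) (h1 : τ z = 1) : z = 1 := by
  let ρ := τ.subgroupComap X.U
  have hρ : Function.Surjective ρ := τ.subgroupComap_surjective_of_surjective _ h.surj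
  have hc : ∀ z : X.U.comap τ, τ z = 1 → z ∈ Subgroup.center _ := fun z hz =>
    Subgroup.mem_center_iff.2 fun g => Subtype.ext (Subgroup.mem_center_iff.1 (h.cent hz) g)
  choose χ hχ using fun (s : K) (hs : s ≠ 0) => P.exists_χ hs
  classical
  let α : K → X.U.comap τ →* X.U.comap τ := fun k => if hk : k = 0 then 1 else
    MonoidHom.mk' (fun g => ⟨h.s (X.D (χ k hk)) * g * (h.s (X.D (χ k hk)))⁻¹, by
      simpa using conj_mem_U (X.D_mem_B _) g.2⟩) fun a b => Subtype.ext (by simp [mul_assoc])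
  rw [← Subgroup.map_subtype_commutator] at hz
  obtain ⟨z, hz, rfl⟩ := hz
  have key : ∀ j, j ≤ 2 → z ∈ (⊤ : Subgroup _).lowerCentralSeries (j + 1) → z ∈ (⊤ : Subgroup _).lowerCentralSeries (j + 2) :=
    fun j hj hz => Lcs.lcs_fix (π := X.t1.comp ρ) (α := α) (fun t => ?_) (fun g hg => ?_) (fun k g => ?_) (dif_pos rfl)
      ((Nat.pow_le_pow_right two_pos (show _ ≤ 5 by omega)).trans_lt (by have := P.le_q hm; rw [P.hK, ← Par.q]; omega)) hz
      fun k hk => Subtype.ext (by simpa [α, hk] using h.conj_eq h1 _)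
  · have := key 2 le_rfl (key 1 one_le_two (key 0 zero_le hz))
    rwa [Subgroup.lowerCentralSeries_succ, Subgroup.commutator_eq_bot_iff_le_centralizer.2 fun g hg => ?_,
      Subgroup.mem_bot, ← OneMemClass.coe_eq_one] at this
    have := Subgroup.mem_map_of_mem (τ.comp (Subgroup.subtype _)) hg
    rw [Subgroup.map_lowerCentralSeries, ← MonoidHom.range_eq_map, MonoidHom.range_comp, Subgroup.range_subtype,
      Subgroup.map_comap_eq_self_of_surjective h.surj, lcs_U] at this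
    exact Subgroup.center_le_centralizer _ (hc g this)
  · obtain ⟨g, hg⟩ := hρ ⟨_, X.x_mem t.toAdd 0 0⟩
    exact ⟨g, X.t1_eq (congrArg Subtype.val hg)⟩
  · obtain ⟨t, u, v, e⟩ := g.2
    obtain rfl : t = 0 := (X.t1_eq (g := ρ g) e).symm.trans hg
    have := X.mem_comm hm u v
    rw [← Subgroup.map_comap_eq_self_of_surjective h.surj X.U, ← Subgroup.map_commutator,
      ← Subgroup.map_subtype_commutator] at this
    obtain ⟨_, ⟨y, hy, rfl⟩, e'⟩ := this
    rw [← mul_inv_cancel_left y g]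
    exact Subgroup.mul_mem_sup hy (hc _ (by simp [e, show τ y = _ from e']))
  · obtain ⟨t, u, v, e⟩ := g.2
    rw [MonoidHom.comp_apply, MonoidHom.comp_apply, X.t1_eq (g := ρ g) e]
    by_cases hk : k = 0
    · simp [α, hk]
    · rw [X.t1_eq (g := ρ (α k g)) (show τ (α k g) = _ from
        (by simp [α, hk, e] : _ = X.D (χ k hk) * X.x t u v * (X.D (χ k hk))⁻¹).trans (X.D_x ..)), hχ]
      rfl

include X in
theorem schur (hm : 1 ≤ P.m) : Cfsg.HasCyclicSchurMultiplier G 1 := by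
  have := X.finite
  refine L.hasSchur_one_of fun Δ _ _ τ hτ => ker_eq_bot hτ fun p hp => ?_
  have := Fact.mk hp
  have h : CE τ := ⟨hτ.1, hτ.2.1⟩
  obtain ⟨S⟩ : Nonempty (Sylow p G) := inferInstance
  refine ⟨S, S.not_dvd_index, fun z hz h1 _ => ?_⟩
  obtain rfl | h2 := eq_or_ne p 2
  · refine (Subgroup.commutator_le (H₃ := ⊥)).2 (fun x hx y hy => ?_) hz
    rw [h.comm_eq, Subgroup.mem_bot]
    by_cases e : τ x = 1
    · simp [e]
    obtain ⟨Y, e⟩ := X.exists_a_eq hm (X.sylow_sq S hx) e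
    rw [← e]
    exact Y.c_a h (e ▸ X.sylow_comm S hy hx)
  obtain rfl | h3 := eq_or_ne p 3
  · obtain ⟨Y, e⟩ := X.exists_U_eq S
    exact Y.comm_U h hm (e ▸ hz) h1
  · have := X.isCyclic_sylow hm (hp.five_le_of_ne_two_of_ne_three h2 h3 |>.trans_lt' (by decide)) S
    simpa [comm_bot_of_cyclic hτ.2.1] using hz

end ReS

end H6.Ree
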