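import Cfsg.Agent.H6.TC6
import Cfsg.Agent.H4.St4
import Cfsg.Agent.S0244
import Cfsg.Agent.S0298
import Cfsg.Agent.S0301

/-! Steinberg characters of the symplectic and orthogonal groups. -/

set_option autoImplicit false
set_option linter.unusedSectionVars false

namespace H6.SC
open Subgroup Cfsg H6.CA StSys H4 H1

/-- existence of an irreducible character of defect zero -/
def HS (p : ℕ) (G : Type*) [Group G] : Prop :=
  ∃ χ : G → ℂ, IsIrrCharacter G χ ∧ χ 1 = (p ^ (Nat.card G).factorization p : ℕ) ∧ ∀ x, p ∣ orderOf x → χ x = 0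

variable {p : ℕ} {G H : Type*} [Group G] [Group H]

lemma HS.equiv [Finite G] (h : HS p G) (e : H ≃* G) : HS p H := by
  have := Finite.of_equiv _ e.toEquiv.symm
  obtain ⟨χ, h1, h2, h3⟩ := h
  exact ⟨_, H3.irr_comp_equiv h1 e, by rw [map_one, h2, Nat.card_congr e.toEquiv], fun x hx => h3 _ (by rwa [MulEquiv.orderOf_eq])⟩

lemma HS.final [Finite G] [Fact p.Prime] (h : HS p G) : ∃ χ : G → ℂ, IsIrrCharacter G χ ∧
    ∀ P : Sylow p G, χ 1 = Nat.card P ∧ ∀ x : G, x ∈ P → x ≠ 1 → χ x = 0 := by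
  obtain ⟨χ, h1, h2, h3⟩ := h
  refine ⟨χ, h1, fun P => ⟨by rw [h2, P.card_eq_multiplicity], fun x hx h => h3 x ?_⟩⟩
  by_contra k
  exact h ((isPElt_of_mem Fact.out P.2 hx).eq_one Fact.out k)

lemma HS.prod [Finite G] [Finite H] [Fact p.Prime] (h : HS p G) (h' : HS p H) : HS p (G × H) := by
  obtain ⟨χ, h1, h2, h3⟩ := h
  obtain ⟨ψ, k1, k2, k3⟩ := h'
  refine ⟨_, H3.irr_prod h1 k1, ?_, fun x hx => ?_⟩
  · simp [h2, k2, Nat.factorization_mul Nat.card_pos.ne' Nat.card_pos.ne', pow_add]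
  · rw [Prod.orderOf] at hx
    rcases (Nat.Prime.dvd_mul Fact.out).1 (hx.trans (Nat.lcm_dvd_mul _ _)) with e | e
    · simp [h3 _ e]
    · simp [k3 _ e]

lemma r3_fin {Φ ι : Type} [Fintype ι] [DecidableEq ι] {R : RS Φ ι} {F : Type*} [Field F] [Finite F] {S : StSys R F G}
    (hN : S.NConj) (hS : S.grp = ⊤) : S.R3 := hN.r3_of_central fun r t u ht hu => by
  have z : (S.h r (t * u))⁻¹ * (S.h r t * S.h r u) ∈ center G := mem_center_iff.2 fun a => by
    have : S.grp ≤ centralizer {(S.h r (t * u))⁻¹ * (S.h r t * S.h r u)} := S.U_le_iff.2 fun s _ v =>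
      mem_centralizer_singleton_iff.2 (by
        have a := hN.h_conj r ht s (u ^ R.pair r s * v)
        rw [← mul_assoc (_ : F), ← mul_zpow, ← hN.h_conj r hu, ← hN.h_conj r (mul_ne_zero ht hu)] at a
        calc _ = (S.h r (t * u))⁻¹ * (S.h r (t * u) * S.x s v * (S.h r (t * u))⁻¹) * (S.h r t * S.h r u) := by group
          _ = _ := by rw [← a]; group)
    exact mem_centralizer_singleton_iff.1 (this (hS.ge (mem_top a)))
  rwa [(Subgroup.normal_of_characteristic _).mem_comm_iff] at z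

variable {F : Type*} [Field F] [Finite F] [Fact p.Prime] [CharP F p]

lemma hs_chev {Φ ι : Type} [Fintype ι] [DecidableEq ι] {R : RS Φ ι} [Finite Φ] (S : ChevSys R F G) [Finite G]
    (e : S.grp ≃* H) : HS p H := by
  have := Fintype.ofFinite Φ
  have := Fintype.ofFinite S.grp
  have hS : S.restrict.grp = ⊤ := StSys.restrict_grp
  have h3 := r3_fin S.restrict.nconj hS
  exact HS.equiv ⟨St.st S.restrict, St.irr_st hS, by rw [St.st_one hS, St.card_Up_eq p hS h3],
    fun _ => St.st_vanish p hS h3⟩ e.symm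

lemma hs_psl (l : ℕ) : HS p (Matrix.ProjectiveSpecialLinearGroup (Fin (l + 1)) F) :=
  hs_chev (sysA F l) ((MulEquiv.subgroupCongr sysA_top).trans topEquiv)

lemma hs_psp {m : ℕ} (hm : 1 ≤ m) : HS p (PSp m F) := by
  obtain rfl | ⟨l, rfl⟩ : m = 1 ∨ ∃ l, m = l + 2 := by
    rcases hm.eq_or_lt with e | e; exacts [.inl e.symm, .inr ⟨m - 2, by omega⟩]
  · let e : Matrix.symplecticGroup (Fin 1) F ≃* Matrix.SpecialLinearGroup (Fin 1 ⊕ Fin 1) F :=
      { toFun := fun g => ⟨g.1, (Cfsg.Agent.S0244.result _).1 g.2⟩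
        invFun := fun g => ⟨g.1, (Cfsg.Agent.S0244.result _).2 g.2⟩
        left_inv := fun _ => rfl, right_inv := fun _ => rfl, map_mul' := fun _ _ => rfl }
    let f := e.trans (H5.slCongr (finSumFinEquiv (m := 1) (n := 1)))
    exact (hs_psl 1).equiv (QuotientGroup.congr _ _ f (H5.map_center_eq f))
  · exact TC.isoC.elim (hs_chev _)

lemma hs_odd [Fintype F] (hq : Odd (Fintype.card F)) {m : ℕ} (hm : 1 ≤ m) : HS p (POmega F (quadFormOdd m F)) := by
  have h2 : (2 : F) ≠ 0 := fun e => by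
    obtain ⟨k, hk⟩ := hq
    simpa [hk, e] using FiniteField.cast_card_eq_zero F
  obtain rfl | rfl | ⟨l, rfl⟩ : m = 1 ∨ m = 2 ∨ ∃ l, m = l + 3 := by
    by_cases c : 3 ≤ m; exacts [.inr (.inr ⟨m - 3, by omega⟩), by omega]
  · exact (Cfsg.Agent.S0298.result hq).elim (hs_psl 1).equiv
  · exact (Cfsg.Agent.S0301.result hq).elim (hs_psp one_le_two).equiv
  · exact (TB.isoB h2).elim (hs_chev _)

end H6.SC
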