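import Cfsg.Agent.H6.SC1
import Cfsg.Agent.H8.Or3
import Cfsg.Agent.S0299
import Cfsg.Agent.S0302
import Cfsg.Agent.S0305

/-! Steinberg characters of the orthogonal groups of plus type. -/

set_option autoImplicit false
set_option linter.unusedSectionVars false

namespace H6.SC
open Subgroup Cfsg H6.CA StSys H4 H1 Equiv
open scoped commutatorElement

variable {p : ℕ} {G H : Type*} [Group G] [Group H]

lemma hs_triv [Fact p.Prime] [Subsingleton G] : HS p G :=
  ⟨_, H3.isIrr_one, by simp [Nat.card_of_subsingleton (1 : G)], fun x hx => by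
    rw [Subsingleton.elim x 1, orderOf_one, Nat.dvd_one] at hx; exact absurd hx (Fact.out : p.Prime).ne_one⟩

lemma dih_comm (n : ℕ) : ∀ x ∈ commutator (DihedralGroup n), ∃ i, x = .r i := by
  let K : Subgroup (DihedralGroup n) := ⟨⟨⟨{x | ∃ i, x = .r i}, by rintro _ _ ⟨i, rfl⟩ ⟨j, rfl⟩; exact ⟨_, rfl⟩⟩, ⟨0, rfl⟩⟩,
    by rintro _ ⟨i, rfl⟩; exact ⟨_, rfl⟩⟩
  refine fun x hx => (show commutator _ ≤ K from commutator_le.2 ?_) hx
  rintro (i | i) - (j | j) - <;> exact ⟨_, rfl⟩

lemma hs_dih [Fact p.Prime] {n : ℕ} (e : G ≃* DihedralGroup n) : HS p (commutator G ⧸ center (commutator G)) := by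
  have k : ∀ x : commutator G, ∃ i, e x = .r i := fun x => dih_comm n _ (commutator_mono le_top le_top
    (map_commutator_eq G e.toMonoidHom ▸ mem_map_of_mem e.toMonoidHom x.2))
  have : center (commutator G) = ⊤ := eq_top_iff.2 fun x _ => mem_center_iff.2 fun y => Subtype.ext (e.injective (by
    obtain ⟨i, hi⟩ := k x
    obtain ⟨j, hj⟩ := k y
    simp [hi, hj, add_comm]))
  have : Subsingleton (commutator G ⧸ center (commutator G)) := this ▸ QuotientGroup.subsingleton_quotient_top
  exact hs_triv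

/-- pairs of permutations of the same sign -/
def KK : Subgroup (Perm (Fin 3) × Perm (Fin 3)) := (Perm.sign.coprod Perm.sign).ker

lemma mem_KK {x : Perm (Fin 3) × Perm (Fin 3)} : x ∈ KK ↔ Perm.sign x.1 * Perm.sign x.2 = 1 := Iff.rfl

instance : DecidablePred (· ∈ KK) := fun _ => decidable_of_iff _ mem_KK.symm

lemma hs_KK : HS 2 KK := by
  obtain ⟨χ, h1, h2⟩ := H3.exists_irr_ne_of_ne_one (G := Perm (Fin 3)) (g := ⁅(swap 0 1 : Perm (Fin 3)), (swap 1 2 : Perm (Fin 3))⁆) (by decide)
  obtain ⟨d, d0, hd⟩ := H3.irr_one_nat h1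
  have k := H3.degree_sq_le_index h1 hd ⊥ bot_le
  rw [index_bot, Nat.card_perm, Nat.card_eq_fintype_card, Fintype.card_fin] at k
  obtain rfl : d = 2 := by
    have : d ≠ 1 := fun e => h2 ((H3.mem_charKer (H3.irr_char h1) _).1 ((H3.degree_one_iff_commutator_le h1).1
      (by simp [hd, e]) (commutator_mem_commutator (mem_top _) (mem_top _))))
    have : d < 3 := by by_contra c; simp only [Nat.factorial] at k; nlinarith
    omega
  have c : (Nat.card KK).factorization 2 = 1 := by
    rw [Nat.card_eq_fintype_card, show Fintype.card KK = 2 * 9 by decide +kernel, Nat.factorization_mul (by simp) (by simp)]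
    simp [Nat.prime_two.factorization, Nat.factorization_eq_zero_of_not_dvd (show ¬ 2 ∣ 9 by decide)]
  have h3 := H3.irr_comp_surj h1 ((MonoidHom.fst _ _).comp KK.subtype) fun s => ⟨⟨(s, s), by simp [mem_KK]⟩, rfl⟩
  exact ⟨_, h3, by simp [hd, c, -Nat.card_eq_fintype_card], fun x hx => eq_zero_of_nu Nat.prime_two h3 (by
    simp [nu, charDegree, hd, c, Nat.prime_two.factorization, -Nat.card_eq_fintype_card]) hx⟩

lemma hs_wr (hc : Nat.card G = 72) {A : Subgroup G} {g : G} (e : A ≃* Perm (Fin 3)) (h1 : g * g = 1)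
    (h2 : ∀ a ∈ A, ∀ b ∈ A, a * (g * b * g) = g * b * g * a ∧ (a = g * b * g → a = 1)) :
    HS 2 (commutator G ⧸ center (commutator G)) := by
  have : Finite G := Nat.finite_of_card_ne_zero (by omega)
  have hg : g⁻¹ = g := inv_eq_of_mul_eq_one_right h1
  let i := A.subtype.comp e.symm.toMonoidHom
  have iA : ∀ s, i s ∈ A := fun s => (e.symm s).2
  let f := i.noncommCoprod ((MulAut.conj g).toMonoidHom.comp i) fun a b => by
    simpa [hg, commute_iff_eq] using (h2 _ (iA a) _ (iA b)).1
  have f1 : ∀ x, f x = i x.1 * (g * i x.2 * g) := fun x => by simp [f, hg]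
  have i1 : Function.Injective i := A.subtype_injective.comp e.symm.injective
  have I : Function.Injective f := (injective_iff_map_eq_one f).2 fun x hx => by
    rw [f1, mul_eq_one_iff_eq_inv] at hx
    have a := (h2 _ (iA x.1) _ (iA x.2⁻¹)).2 (by rw [hx]; simp [hg, mul_assoc])
    rw [a, eq_comm, inv_eq_one, ← hg, mul_inv_eq_one, hg, mul_eq_left] at hx
    exact Prod.ext (i1 (by simpa using a)) (i1 (by simpa using hx))
  have sw : ∀ x, g * f x = f x.swap * g := fun x => by
    rw [f1, f1, Prod.fst_swap, Prod.snd_swap, (h2 _ (iA _) _ (iA _)).1]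
    simp only [← mul_assoc, h1, one_mul]; simp only [mul_assoc, h1, mul_one]
  have ix : f.range.index = 2 := by
    have := f.range.card_mul_index
    rw [← Nat.card_congr (MonoidHom.ofInjective I).toEquiv, Nat.card_prod, Nat.card_perm, hc] at this
    simp only [Nat.card_eq_fintype_card, Fintype.card_fin, Nat.factorial] at this; omega
  have gn : g ∉ f.range := by
    rintro ⟨x, hx⟩
    have := sw (swap 0 1, 1)
    rw [← hx, ← map_mul, ← map_mul, I.eq_iff, Prod.ext_iff] at this
    simp at this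
  have dec : ∀ y, ∃ x, y = f x ∨ y = f x * g := fun y => by
    by_cases c : y ∈ f.range
    · exact c.imp fun x h => .inl h.symm
    · obtain ⟨x, hx⟩ := (mul_mem_iff_of_index_two ix).2 (iff_of_false c gn)
      exact ⟨x, .inr (by rw [hx, mul_assoc, h1, mul_one])⟩
  have sw' : ∀ x y, g * (f x * y) = f x.swap * (g * y) := fun x y => by rw [← mul_assoc, sw, mul_assoc]
  have gg : ∀ y, g * (g * y) = y := fun y => by rw [← mul_assoc, h1, one_mul]
  have E : commutator G = KK.map f := by
    refine le_antisymm (commutator_le.2 fun y _ z _ => ?_) ?_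
    · obtain ⟨a, rfl | rfl⟩ := dec y <;> obtain ⟨b, rfl | rfl⟩ := dec z <;>
        simp only [commutatorElement_def, mul_inv_rev, hg, ← map_inv, mul_assoc, sw', gg, sw, h1, mul_one] <;>
        simp only [← map_mul] <;> refine mem_map_of_mem _ ?_ <;>
        rcases Int.units_eq_one_or (Perm.sign a.1) with p | p <;> rcases Int.units_eq_one_or (Perm.sign a.2) with q | q <;>
        rcases Int.units_eq_one_or (Perm.sign b.1) with r | r <;> rcases Int.units_eq_one_or (Perm.sign b.2) with s | s <;>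
        simp [mem_KK, p, q, r, s]
    · rintro _ ⟨⟨s, t⟩, hx, rfl⟩
      obtain ⟨a, b, h⟩ := (by decide +kernel : ∀ s t : Perm (Fin 3), Perm.sign s * Perm.sign t = 1 →
        ∃ a b : Perm (Fin 3), s * t = ⁅a, b⁆) s t hx
      have : f (s, t) = ⁅f (a, 1), f (b, 1)⁆ * ⁅f (t⁻¹, 1), g⁆ := by
        simp only [commutatorElement_def, hg, ← map_inv, mul_assoc, sw', h1, mul_one, ← map_mul]
        congr 1; ext1
        · simpa [commutatorElement_def, mul_assoc, ← eq_mul_inv_iff_mul_eq] using h
        · simp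
      exact this ▸ mul_mem (commutator_mem_commutator (mem_top _) (mem_top _)) (commutator_mem_commutator (mem_top _) (mem_top _))
  have Z : center KK = ⊥ := eq_bot_iff.2 fun x hx =>
    (by decide +kernel : ∀ x : KK, (∀ y, y * x = x * y) → x = 1) x (mem_center_iff.1 hx)
  exact hs_KK.equiv ((H5.quotCenterCongr ((MulEquiv.subgroupCongr E).trans (KK.equivMapOfInjective f I).symm)).trans
    ((QuotientGroup.quotientMulEquivOfEq Z).trans QuotientGroup.quotientBot))

lemma hs_plus {F : Type*} [Field F] [Fintype F] [hp : Fact p.Prime] [CharP F p] {m : ℕ} (hm : 1 ≤ m) :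
    HS p (POmega F (quadFormPlus m F)) := by
  obtain rfl | rfl | rfl | ⟨l, rfl⟩ : m = 1 ∨ m = 2 ∨ m = 3 ∨ ∃ l, m = l + 4 := by
    by_cases c : 4 ≤ m; exacts [.inr (.inr (.inr ⟨m - 4, by omega⟩)), by omega]
  · exact (Cfsg.Agent.S0305.result (F := F) rfl).elim hs_dih
  · by_cases c : Fintype.card F = 2
    · obtain rfl : p = 2 := (Nat.prime_dvd_prime_iff_eq hp.out Nat.prime_two).1
        ((CharP.cast_eq_zero_iff F p 2).1 (c ▸ FiniteField.cast_card_eq_zero F))
      obtain ⟨A, g, ⟨e⟩, h1, h2⟩ := H8.Or3.o4p c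
      exact hs_wr ((Cfsg.Agent.S0287.result c 2 (by norm_num)).trans (by decide +kernel)) e h1 h2
    · exact (Cfsg.Agent.S0299.result (by have := Fintype.one_lt_card (α := F); omega)).elim
        ((hs_psl 1).prod (hs_psl 1)).equiv
  · exact Cfsg.Agent.S0302.result.elim (hs_psl 3).equiv
  · exact DN.isoD.elim (hs_chev _)

end H6.SC
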