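import Cfsg.Agent.H6.SC1

/-! Unipotent elements of the symplectic groups. -/

set_option autoImplicit false
set_option linter.unusedSectionVars false

namespace H6.SC
open Subgroup Cfsg H6.CA StSys H4 H1 H5

variable {p : ℕ} {G H : Type*} [Group G] [Group H] {F : Type*} [Field F] [Fintype F] [hp : Fact p.Prime] [CharP F p]

lemma unip_chev {Φ ι : Type} [Fintype ι] [DecidableEq ι] {R : RS Φ ι} [Finite Φ] (S : ChevSys R F G) [Finite G]
    (e : S.grp ≃* H) : Nat.card {g : H // ∃ k, orderOf g = p ^ k} = (p ^ (Nat.card H).factorization p) ^ 2 := by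
  have := Fintype.ofFinite Φ
  have := Fintype.ofFinite S.grp
  have hS : S.restrict.grp = ⊤ := StSys.restrict_grp
  have h3 := r3_fin S.restrict.nconj hS
  rw [← Nat.card_congr e.toEquiv, ← St.card_Up_eq p hS h3, ← St.card_unip p hS h3]
  exact (Nat.card_congr (e.toEquiv.subtypeEquiv fun g => by simp)).symm

lemma unip_sp (m : ℕ) : Nat.card {g : Matrix.symplecticGroup (Fin m) F // ∃ k, orderOf g = p ^ k} =
    Fintype.card F ^ (2 * m ^ 2) := by
  have c : p ^ (Nat.card (Matrix.symplecticGroup (Fin m) F)).factorization p = Fintype.card F ^ m ^ 2 := by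
    obtain ⟨n, -, hn⟩ := FiniteField.card F p
    have q1 := Fintype.one_lt_card (α := F)
    have k : ¬ p ∣ ∏ i ∈ Finset.range m, (Fintype.card F ^ (2 * (i + 1)) - 1) := fun h => by
      obtain ⟨i, -, h⟩ := (hp.out.prime.dvd_finset_prod_iff _).1 h
      have d : p ∣ Fintype.card F ^ (2 * (i + 1)) := dvd_pow (hn ▸ dvd_pow_self p n.ne_zero) (by omega)
      exact hp.out.ne_one (Nat.dvd_one.1 ((Nat.dvd_sub_iff_right (Nat.one_le_pow _ _ (by omega)) d).1 h))
    rw [Nat.card_congr (spEquiv m).toEquiv, Form.card_isom_symp rfl (sympF_nondeg m) (m := m) (by simp; ring), spOrd,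
      Nat.factorization_mul (pow_ne_zero _ (by omega)) (mt (fun e => by rw [e]; exact dvd_zero p) k), Finsupp.add_apply,
      Nat.factorization_eq_zero_of_not_dvd k, hn, ← pow_mul, hp.out.factorization_pow]
    simp
  rw [mul_comm, pow_mul, ← c]
  obtain rfl | rfl | ⟨l, rfl⟩ : m = 0 ∨ m = 1 ∨ ∃ l, m = l + 2 := by
    by_cases c : 2 ≤ m; exacts [.inr (.inr ⟨m - 2, by omega⟩), by omega]
  · rw [c]
    exact Nat.card_eq_one_iff_exists.2 ⟨⟨1, 0, by simp⟩, fun _ => Subsingleton.elim _ _⟩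
  · let e : Matrix.symplecticGroup (Fin 1) F ≃* Matrix.SpecialLinearGroup (Fin 1 ⊕ Fin 1) F :=
      { toFun := fun g => ⟨g.1, (Cfsg.Agent.S0244.result _).1 g.2⟩
        invFun := fun g => ⟨g.1, (Cfsg.Agent.S0244.result _).2 g.2⟩
        left_inv := fun _ => rfl, right_inv := fun _ => rfl, map_mul' := fun _ _ => rfl }
    exact unip_chev (St.sysSL F 1) (((MulEquiv.subgroupCongr (St.sysSL_top 1)).trans topEquiv).trans
      (e.trans (slCongr (finSumFinEquiv (m := 1) (n := 1)))).symm)
  · exact unip_chev ((TC.sysC F l).pull TC.rk2C (TC.stC F l) (θ := QuotientGroup.mk' _) fun _ _ => rfl)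
      ((((TC.stC F l).grp.equivMapOfInjective _ TC.ta_inj).trans (MulEquiv.subgroupCongr TC.map_grp)).trans (spEquiv _).symm)

end H6.SC
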