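import Cfsg.Agent.H6.Mult5

/-! The rank one Steinberg presentation. -/

set_option autoImplicit false
set_option linter.unusedSectionVars false

namespace H6.SC
open Subgroup Cfsg H6.CA StSys Matrix

variable {K G : Type*} [Field K] [Group G]

/-- the two root subgroups of `SL₂` -/
def X2 (b : Bool) (t : K) : SpecialLinearGroup (Fin 2) K :=
  if b then ⟨!![1, t; 0, 1], by simp⟩ else ⟨!![1, 0; t, 1], by simp⟩

lemma X2_coe (b : Bool) (t : K) : (X2 b t).1 = if b then !![1, t; 0, 1] else !![1, 0; t, 1] := by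
  cases b <;> rfl

lemma X2_add (b : Bool) (t u : K) : X2 b t * X2 b u = X2 b (t + u) := by
  refine Subtype.ext (show (X2 b t).1 * (X2 b u).1 = (X2 b _).1 from ?_)
  rw [X2_coe, X2_coe, X2_coe]
  cases b <;> simp [add_comm]

lemma X2_conj (b : Bool) {t : K} (ht : t ≠ 0) (u : K) : X2 b t * X2 (!b) (-t⁻¹) * X2 b t * X2 b u =
    X2 (!b) (-(t⁻¹ ^ 2 * u)) * (X2 b t * X2 (!b) (-t⁻¹) * X2 b t) := by
  refine Subtype.ext (show (X2 b t).1 * (X2 _ _).1 * (X2 b t).1 * (X2 b u).1 =
    (X2 _ _).1 * ((X2 b t).1 * (X2 _ _).1 * (X2 b t).1) from ?_)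
  rw [X2_coe, X2_coe, X2_coe, X2_coe]
  cases b <;> simp [ht] <;> field_simp <;> ring

lemma rt1 (r : Rt 1) : r = ⟨(0, 1), by decide⟩ ∨ r = ⟨(1, 0), by decide⟩ := by revert r; decide

theorem sl2_pres [Finite K] (x : Bool → K → G) (add : ∀ b t u, x b (t + u) = x b t * x b u)
    (conj : ∀ b t u, t ≠ 0 → x b t * x (!b) (-t⁻¹) * x b t * x b u * (x b t * x (!b) (-t⁻¹) * x b t)⁻¹ = x (!b) (-(t⁻¹ ^ 2 * u)))
    (gen : ∀ H : Subgroup G, (∀ b t, x b t ∈ H) → H = ⊤) {θ : G →* SpecialLinearGroup (Fin 2) K}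
    (hθ : ∀ b t, θ (x b t) = X2 b t) : Function.Bijective θ := by
  let Y : StSys (rsA 1) K G := ⟨fun r => x (decide (r.1.1 = 0)), fun _ => add _, fun r s h1 h2 => by
    rcases rt1 r with rfl | rfl <;> rcases rt1 s with rfl | rfl <;> first | exact absurd rfl h1 | exact absurd rfl h2⟩
  refine injA (Y := Y) (gen _ fun b t => ?_) (fun i c hc s u => ?_) fun r t => ?_
  · cases b
    exacts [Y.x_mem_grp ⟨(1, 0), by decide⟩ t, Y.x_mem_grp ⟨(0, 1), by decide⟩ t]
  · obtain rfl : i = 0 := Subsingleton.elim _ _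
    rcases rt1 s with rfl | rfl
    · refine (conj true c u hc).trans (congrArg (x false) ?_)
      change _ = ((-1 : ℤ) : K) * c ^ (-(2 : ℤ)) * u
      simp [zpow_two, sq]
    · have a := conj true c c hc
      have b := conj false (-c⁻¹) u (by simpa using hc)
      rw [show -(c⁻¹ ^ 2 * c) = -c⁻¹ by field_simp, mul_inv_eq_iff_eq_mul, ← mul_assoc, ← mul_assoc, mul_left_inj] at a
      simp only [Bool.not_true, Bool.not_false, inv_neg, inv_inv, neg_neg] at a b
      rw [← a] at b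
      refine b.trans (congrArg (x true) ?_)
      change _ = ((-1 : ℤ) : K) * c ^ (-(-2 : ℤ)) * u
      simp [zpow_two, sq]
  · refine (hθ _ t).trans ?_
    rcases rt1 r with rfl | rfl <;> ext i j <;> fin_cases i <;> fin_cases j <;>
      simp [X2, stA, SpecialLinearGroup.transvection_coe]

end H6.SC
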