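import Cfsg.Agent.H6.Suz4
import Cfsg.Agent.H6.Mult1

/-!
# Suzuki groups VI: the Schur multiplier
-/

noncomputable section

namespace H6.Suz

open Pointwise MulAction Mult
open scoped commutatorElement IsMulCommutative

universe u
variable {F : Type*} [Field F] [Fintype F] {G : Type u} [Group G] {P : Par F}

namespace SzS

variable (X : SzS P G) {Δ : Type*} [Group Δ] {τ : Δ →* G} (h : CE τ)

lemma c_UZ (hm : 2 ≤ P.m) {u z : G} (hu : u ∈ X.U) (hz : z ∈ X.Z) : h.c u z = 1 := by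
  have hZ : ∀ b, ∀ z ∈ X.Z, h.c (X.T 0 b) z = 1 := fun b z hz => by
    obtain ⟨a, c, rfl⟩ := P.exists_comm b
    rw [← X.T_comm a 0 c 0]
    exact h.c_comm (comm_of_mem_Z hz (X.T_mem ..)) (comm_of_mem_Z hz (X.T_mem ..))
  have h0 : ∀ a b, ∀ z ∈ X.Z, h.c (X.T a b) z = h.c (X.T a 0) z := fun a b z hz => by
    rw [show X.T a b = X.T a 0 * X.T 0 b by simp [X.T_mul],
      h.c_mul_left' (comm_of_mem_Z hz (X.T_mem ..)), hZ b z hz, one_mul]
  obtain ⟨a, b, rfl⟩ := hu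
  rw [h0 a b z hz]
  obtain ⟨b, rfl⟩ := hz
  refine form_eq_one (fun a b => h.c (X.T a 0) (X.T 0 b)) (fun k => k * P.θ k) (fun a a' b => ?_)
    (fun a b b' => ?_) (fun k hk => by simpa) (fun k hk b => ?_) ?_ a b
  · rw [← h.c_mul_left' (comm_of_mem_Z (X.T_mem_Z b) (X.T_mem ..)), X.T_mul, h0 _ (_ + _) _ (X.T_mem_Z b),
      add_comm]
  · rw [← h.c_mul_right' (comm_of_mem_Z (X.T_mem_Z b') (X.T_mem ..)), X.T_mul]; simp
  · rw [← h.c_conj' (comm_of_mem_Z (X.T_mem_Z b) (X.T_mem ..)) (X.D (Units.mk0 k hk)), X.D_T, X.D_T]; simp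
  · obtain ⟨x, h0, h1⟩ := exists_pow_ne (F := F) (n := 7) (by omega) (by
      rw [P.hF]; exact lt_of_lt_of_le (by norm_num) (Nat.pow_le_pow_right two_pos (show 5 ≤ _ by omega)))
    have h2 := P.two
    have h3 : x + 1 ≠ 0 := fun e => h1 (by rw [show x = 1 by grind, one_pow])
    refine ⟨x, 1, h0, one_ne_zero, h3, fun e => h1 ?_⟩
    have h4 : P.θ x ≠ 0 := by simpa
    have h5 : P.θ (x + 1) ≠ 0 := P.θ.map_ne_zero_iff.2 h3
    have e1 : x * P.θ x = (x + 1) * (P.θ x + 1) * (1 + x * P.θ x) := by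
      rw [map_add, map_one] at h5 e
      field_simp at e
      linear_combination e
    have e2 := congrArg P.θ e1
    simp only [map_mul, map_add, map_one, P.θθ] at e2
    generalize P.θ x = y at *
    have e3 : y * (x ^ 2 + x + 1) = (x + 1) ^ 3 := by grind
    have e4 : (x + 1) ^ 2 * x * (x ^ 7 - 1) = 0 := by grind
    simpa [h0, h3, sub_eq_zero] using e4

include h in
lemma comm_U (hm : 2 ≤ P.m) {z : Δ} (hz : z ∈ ⁅X.U.comap τ, X.U.comap τ⁆) (h1 : τ z = 1) : z = 1 := by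
  have cj : ∀ g z : Δ, τ g ∈ X.U → τ z ∈ X.Z → g * z * g⁻¹ = z := fun g z hg hz =>
    h.conj_of_c (X.c_UZ h hm hg hz)
  have : IsMulCommutative (X.Z.comap τ) :=
    ⟨⟨fun a b => Subtype.ext (mul_inv_eq_iff_eq_mul.1 (cj _ _ (X.Z_le_U a.2) b.2))⟩⟩
  obtain ⟨k, hk⟩ := P.exists_unit_ne
  have h2 := P.two
  have hl : k * P.θ k + 1 ≠ 0 := fun e => P.mul_θ_ne_one hk (by grind)
  have e0 : ∀ b, τ (h.c (X.D k) (X.T 0 (b / (k * P.θ k + 1)))) = X.T 0 b := fun b => by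
    rw [h.τ_c, commutatorElement_def, X.D_T, X.T_inv, X.T_mul]
    congr 1
    · simp
    · field_simp; simp; ring
  let ζ : Multiplicative F →* X.Z.comap τ := MonoidHom.mk' (fun b => ⟨_, b.toAdd, e0 b.toAdd⟩) fun a b =>
    Subtype.ext (by
      have := h.c_mul_right (h.s (X.T 0 (a.toAdd / (k * P.θ k + 1)))) (X.D k)
        (X.T 0 (b.toAdd / (k * P.θ k + 1)))
      rw [cj _ _ (by simpa using X.T_mem ..) ⟨_, e0 _⟩, h.τ_s, X.T_mul] at this
      simpa [add_div] using this)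
  have e1 : ∀ u ∈ X.U, ∀ v ∈ X.U, τ (h.c u v) ∈ X.Z := by
    rintro _ ⟨a, b, rfl⟩ _ ⟨c, d, rfl⟩
    exact ⟨_, (h.τ_c ..).trans (X.T_comm ..)⟩
  have e2 : ∀ u ∈ X.U, ∀ u' ∈ X.U, ∀ v ∈ X.U, h.c (u * u') v = h.c u' v * h.c u v :=
    fun u hu u' hu' v hv => by
      simpa [cj (h.s u) _ (by simpa) (e1 _ hu' _ hv)] using h.c_mul_left (h.s u) u' v
  have e3 : ∀ a b, ∀ v ∈ X.U, h.c (X.T a b) v = h.c (X.T a 0) v := fun a b v hv => by
    rw [show X.T a b = X.T a 0 * X.T 0 b by simp [X.T_mul], e2 _ (X.T_mem ..) _ (X.T_mem ..) _ hv,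
      ← h.c_inv v, X.c_UZ h hm hv (X.T_mem_Z b), inv_one, one_mul]
  have e4 : ∀ a b c d, h.c (X.T a b) (X.T c d) = h.c (X.T a 0) (X.T c 0) := fun a b c d => by
    rw [e3 _ _ _ (X.T_mem ..), ← h.c_inv, e3 _ _ _ (X.T_mem ..), h.c_inv]
  let c : F → F → X.Z.comap τ := fun a c => ⟨_, e1 _ (X.T_mem a 0) _ (X.T_mem c 0)⟩
  have c1 : ∀ a a' b, c (a + a') b = c a b * c a' b := fun a a' b => Subtype.ext (by
    have := e2 _ (X.T_mem a' 0) _ (X.T_mem a 0) _ (X.T_mem b 0)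
    rwa [X.T_mul, e4, add_comm] at this)
  have c2 : ∀ a b, c a b = (c b a)⁻¹ := fun a b => Subtype.ext (h.c_inv ..).symm
  have key := form_eq_one (fun a b => c a b / ζ (.ofAdd (P.θ a * b + P.θ b * a))) id
    (fun a a' b => by
      rw [div_mul_div_comm, c1, ← map_mul, ← ofAdd_add, map_add P.θ]; congr 3; ring)
    (fun a b b' => by
      rw [div_mul_div_comm, c2, c1, mul_inv, ← c2, ← c2, ← map_mul, ← ofAdd_add, map_add P.θ]; congr 3; ring)
    (fun _ => id) (fun l hl b => Subtype.ext ?_) ?_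
  · have : ⁅X.U.comap τ, X.U.comap τ⁆ ≤ ((X.Z.comap τ).subtype.comp ζ).range :=
      Subgroup.commutator_le.2 fun x ⟨a, b, hx⟩ y ⟨c, d, hy⟩ => ⟨_, by
        rw [h.comm_eq, hx, hy, e4]; exact congrArg Subtype.val (div_eq_one.1 (key a c)).symm⟩
    obtain ⟨b, rfl⟩ := this hz
    rw [show b = 1 from (X.T_eq_one.1 ((e0 _).symm.trans h1)).2, map_one]
  · have e5 := h.c_conj (h.s (X.D (Units.mk0 l hl))) (X.T 1 0) (X.T b 0)
    have e6 := h.c_conj (h.s (X.D (Units.mk0 l hl))) (X.D k)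
      (X.T 0 ((P.θ 1 * b + P.θ b * 1) / (k * P.θ k + 1)))
    rw [h.τ_s, X.D_T] at e5 e6
    rw [X.D_T] at e5
    rw [← map_inv, ← map_mul, ← map_mul, mul_inv_cancel_comm] at e6
    simp only [Units.val_mk0, mul_one, mul_zero] at e5 e6
    have e7 := h.conj_eq (z := (c 1 b / ζ (.ofAdd (P.θ 1 * b + P.θ b * 1)) :)) (by
      rw [div_eq_mul_inv, Subgroup.coe_mul, map_mul, Subgroup.coe_inv, map_inv, mul_inv_eq_one]
      exact ((h.τ_c ..).trans (X.T_comm ..)).trans (e0 _).symm) (h.s (X.D (Units.mk0 l hl)))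
    rw [← e7, div_eq_mul_inv, div_eq_mul_inv]
    change h.c (X.T l 0) (X.T (l * b) 0) * (h.c _ (X.T 0 ((P.θ l * (l * b) + P.θ (l * b) * l) / _)))⁻¹ =
      _ * (h.c _ _ * (h.c _ _)⁻¹) * _
    rw [e5, show (P.θ l * (l * b) + P.θ (l * b) * l) / (k * P.θ k + 1) =
      l * P.θ l * ((P.θ 1 * b + P.θ b) / (k * P.θ k + 1)) by rw [map_mul, map_one]; ring, e6]
    simp [mul_assoc]
  · obtain ⟨x, h0, h1⟩ := exists_pow_ne (F := F) (n := 3) (by omega) (by have := P.eight_le; omega)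
    have h3 : x + 1 ≠ 0 := fun e => h1 (by rw [show x = 1 by grind, one_pow])
    refine ⟨x, 1, h0, one_ne_zero, h3, fun e => h1 ?_⟩
    simp only [id] at e
    field_simp at e
    grind

include X in
theorem schur (hm : 2 ≤ P.m) : Cfsg.HasCyclicSchurMultiplier G 1 := by
  have := X.finite
  refine L.hasSchur_one_of fun Δ _ _ τ hτ => ker_eq_bot hτ fun p hp => ?_
  have := Fact.mk hp
  by_cases h2 : p = 2
  · exact ⟨X.U, h2 ▸ X.sylow.not_dvd_index, fun z hz h1 _ => X.comm_U ⟨hτ.1, hτ.2.1⟩ hm hz h1⟩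
  · obtain ⟨S⟩ : Nonempty (Sylow p G) := inferInstance
    have := X.cyclic_of_odd h2 S.2
    exact ⟨S, S.not_dvd_index, fun z hz _ _ => by simpa [comm_bot_of_cyclic hτ.2.1] using hz⟩

end SzS

end H6.Suz
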