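import Cfsg.Agent.H6.DN5

/-! The root system of type `B`. -/

set_option autoImplicit false
set_option linter.unusedSectionVars false

namespace H6.TB
open H6.CA

variable {l : ℕ}

/-- indices of the natural basis -/
abbrev Jx (l : ℕ) := Fin (2 * l + 6 + 1)
/-- roots of type `B` -/
abbrev RB (l : ℕ) := {p : Jx l × Jx l // p.1 ≠ p.2 ∧ p.1.1 + p.2.1 < 2 * l + 6}
/-- inner products of the weights -/
def ip (l a c : ℕ) : ℤ := (if a = c then 1 else 0) - if a + c = 2 * l + 6 then 1 else 0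
/-- fundamental coweights -/
def uu (l k a : ℕ) : ℤ := if a ≤ k then 1 else if 2 * l + 6 ≤ a + k then -1 else 0
/-- lengths of the simple coroots -/
def dd (l k : ℕ) : ℤ := if k = l + 2 then 2 else 1
/-- simple roots -/
def w0 (l k a : ℕ) : ℤ := ip l k a - ip l (k + 1) a
/-- simple coroots -/
def wB (l k a : ℕ) : ℤ := dd l k * w0 l k a
/-- simple reflections -/
def sv (l k a : ℕ) : ℕ := if k = l + 2 then (if a = l + 2 then l + 4 else if a = l + 4 then l + 2 else a) else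
  if a = k then k + 1 else if a = k + 1 then k else
  if a + k = 2 * l + 6 then 2 * l + 5 - k else if a + k = 2 * l + 5 then 2 * l + 6 - k else a
/-- simple reflections -/
def sg (k : Fin (l + 3)) (a : Jx l) : Jx l := ⟨sv l k a, by simp only [sv]; split_ifs <;> omega⟩
/-- signs of the monomial elements -/
def sn (l k a : ℕ) : ℤ := if a = k ∨ a + k = 2 * l + 6 ∨ k = l + 2 ∧ a = l + 3 then -1 else 1
/-- admissible pairs -/
def Ok (a b : Jx l) : Prop := a ≠ b ∧ a.1 + b.1 ≠ 2 * l + 6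
/-- the root of a pair -/
def nm (a b : Jx l) : RB l := if c : a ≠ b ∧ a.1 + b.1 < 2 * l + 6 then ⟨(a, b), c⟩ else
  if c : b.rev ≠ a.rev ∧ b.rev.1 + a.rev.1 < 2 * l + 6 then ⟨(b.rev, a.rev), c⟩ else ⟨(0, 1), by simp⟩
/-- the sign of a pair -/
def ns (a b : Jx l) : ℤ := if a.1 + b.1 < 2 * l + 6 then 1 else -1
/-- lengths of the coroots -/
def ln (a b : Jx l) : ℤ := if a.1 = l + 3 ∨ b.1 = l + 3 then 2 else 1

instance (a b : Jx l) : Decidable (Ok a b) := by unfold Ok; infer_instance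

lemma rev_val (a : Jx l) : a.rev.1 = 2 * l + 6 - a := by rw [Fin.val_rev]; omega
lemma ok_iff {a b : Jx l} : Ok a b ↔ a.1 ≠ b.1 ∧ a.1 + b.1 ≠ 2 * l + 6 := by simp [Ok, Fin.ext_iff]
lemma ok (r : RB l) : Ok r.1.1 r.1.2 := ⟨r.2.1, r.2.2.ne⟩
lemma nm_self (r : RB l) : nm r.1.1 r.1.2 = r := dif_pos r.2
lemma ns_self (r : RB l) : ns r.1.1 r.1.2 = 1 := if_pos r.2.2

lemma Ok.nm {a b : Jx l} (h : Ok a b) : (a.1 + b.1 < 2 * l + 6 ∧ (nm a b).1 = (a, b) ∧ ns a b = 1) ∨
    (2 * l + 6 < a.1 + b.1 ∧ (nm a b).1 = (b.rev, a.rev) ∧ ns a b = -1) := by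
  by_cases c : a.1 + b.1 < 2 * l + 6
  · exact .inl ⟨c, by rw [TB.nm, dif_pos ⟨h.1, c⟩], if_pos c⟩
  · have := h.2
    exact .inr ⟨by omega, by
      rw [TB.nm, dif_neg fun e => c e.2, dif_pos ⟨Fin.rev_injective.ne h.1.symm, by simp only [rev_val]; omega⟩], if_neg c⟩

lemma Ok.diff {a b : Jx l} (h : Ok a b) {f : Jx l → ℤ} (hf : ∀ a, f a.rev = -f a) :
    f (TB.nm a b).1.1 - f (TB.nm a b).1.2 = f a - f b := by
  rcases h.nm with ⟨-, e, -⟩ | ⟨-, e, -⟩ <;> simp [e, hf]; ring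

lemma Ok.ln {a b : Jx l} (h : Ok a b) : ln (TB.nm a b).1.1 (TB.nm a b).1.2 = ln a b := by
  rcases h.nm with ⟨-, e, -⟩ | ⟨-, e, -⟩ <;> simp only [e, TB.ln, rev_val]; grind

lemma uu_rev (k : Fin (l + 3)) (a : Jx l) : uu l k a.rev = -uu l k a := by
  simp only [uu, rev_val]; split_ifs <;> omega
lemma ip_rev (c : ℕ) (a : Jx l) : ip l c a.rev = -ip l c a := by
  simp only [ip, rev_val]; split_ifs <;> omega
lemma ip_comm (a c : ℕ) : ip l a c = ip l c a := by simp only [ip, add_comm a, eq_comm (a := a)]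
lemma wB_rev (k : ℕ) (a : Jx l) : wB l k a.rev = -wB l k a := by simp only [wB, w0, ip_rev]; ring
lemma sg_rev (k : Fin (l + 3)) (a : Jx l) : sg k a.rev = (sg k a).rev := Fin.ext (by
  simp only [sg, sv, rev_val]; split_ifs <;> omega)
lemma sg_sg (k : Fin (l + 3)) (a : Jx l) : sg k (sg k a) = a := Fin.ext (by
  simp only [sg, sv]; split_ifs <;> omega)
lemma sn_rev (k : Fin (l + 3)) (a : Jx l) : sn l k a.rev = sn l k a := by
  simp only [sn, rev_val]; split_ifs <;> omega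
lemma uu_sg (k j : Fin (l + 3)) (a : Jx l) : uu l j (sg k a) = uu l j a - if j = k then wB l k a else 0 := by
  simp only [uu, sg, sv, wB, w0, dd, ip, Fin.ext_iff]; grind
lemma sg_mid (k : Fin (l + 3)) (a : Jx l) : (sg k a).1 = l + 3 ↔ a.1 = l + 3 := by
  simp only [sg, sv]; split_ifs <;> omega
lemma ln_sg (k : Fin (l + 3)) (a b : Jx l) : ln (sg k a) (sg k b) = ln a b := by simp only [ln, sg_mid]
lemma sn_sg (k : Fin (l + 3)) (a : Jx l) : sn l k a * sn l k (sg k a) = (-1) ^ (wB l k a).natAbs := by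
  simp only [sn, sg, sv, wB, w0, dd, ip]; split_ifs <;> first | omega | rfl
lemma ok_rev {a b : Jx l} : Ok a b ↔ a ≠ b ∧ a ≠ b.rev := by
  simp only [ok_iff, ne_eq, Fin.ext_iff, rev_val]; omega
lemma Ok.sg {a b : Jx l} (h : Ok a b) (k) : Ok (sg k a) (sg k b) := by
  have i := (show Function.Involutive (TB.sg k) from sg_sg k).injective
  rw [ok_rev, ← sg_rev] at *
  exact ⟨i.ne h.1, i.ne h.2⟩
lemma Ok.flip {a b : Jx l} (h : Ok a b) : Ok b.rev a.rev := by simp only [ok_iff, rev_val] at h ⊢; omega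
lemma Ok.symm {a b : Jx l} (h : Ok a b) : Ok b a := by simp only [ok_iff] at h ⊢; omega

lemma sum_uu (a c : Jx l) : ∑ k : Fin (l + 3), uu l k a * w0 l k c = ip l a c := by
  wlog h : c.1 ≤ l + 3 generalizing c
  · have := this c.rev (by rw [rev_val]; omega)
    simp only [w0, ip_rev, ← neg_sub', mul_neg, Finset.sum_neg_distrib, neg_inj] at this
    exact this
  have : ∀ k : Fin (l + 3), w0 l k c = (if k.1 = c then 1 else 0) - (if 0 < c.1 ∧ c.1 ≤ l + 2 then 1 else 0) *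
      (if k.1 = c - 1 then 1 else 0) :=
    fun k => by simp only [w0, ip]; split_ifs <;> omega
  simp only [this, mul_sub, mul_left_comm (uu _ _ _), Finset.sum_sub_distrib, ← Finset.mul_sum, DN.sum_ind (fun k => uu l k a)]
  have := a.2
  simp only [uu, ip, ite_mul, one_mul, zero_mul]; grind

/-- coordinates of a root -/
def vB (r : RB l) (k : Fin (l + 3)) : ℤ := uu l k r.1.1 - uu l k r.1.2
/-- coordinates of a coroot -/
def cB (r : RB l) (k : Fin (l + 3)) : ℤ := ln r.1.1 r.1.2 * vB r k / dd l k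
/-- inner product of two roots -/
def pr (r s : RB l) : ℤ := ip l r.1.1 s.1.1 - ip l r.1.1 s.1.2 - ip l r.1.2 s.1.1 + ip l r.1.2 s.1.2

lemma cB_mul (r : RB l) (k : Fin (l + 3)) : cB r k * dd l k = ln r.1.1 r.1.2 * vB r k := Int.ediv_mul_cancel (by
  simp only [ln, vB, uu, dd]; split_ifs <;> omega)

lemma sum_vB (r s : RB l) : ∑ k, vB r k * (w0 l k s.1.1 - w0 l k s.1.2) = pr r s := by
  simp only [vB, sub_mul, mul_sub, Finset.sum_sub_distrib, sum_uu, pr]; ring

lemma sum_cB (r s : RB l) : ∑ k, cB r k * (wB l k s.1.1 - wB l k s.1.2) = ln r.1.1 r.1.2 * pr r s := by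
  simp only [wB, ← mul_sub, ← mul_assoc, cB_mul, ← sum_vB, Finset.mul_sum]

lemma vB_pos {r : RB l} : 0 ≤ vB r ↔ r.1.1 < r.1.2 := by
  obtain ⟨⟨⟨i, hi⟩, j, hj⟩, h, h'⟩ := r
  simp only [ne_eq, Fin.mk.injEq, Fin.mk_lt_mk] at h h' ⊢
  refine ⟨fun e => by_contra fun c => ?_, fun e k => ?_⟩
  · have := e ⟨j, by omega⟩
    simp only [vB, uu, Pi.zero_apply] at this; split_ifs at this <;> omega
  · simp only [vB, uu, Pi.zero_apply]; split_ifs <;> omega

lemma vB_refl (k : Fin (l + 3)) (s : RB l) : vB (nm (sg k s.1.1) (sg k s.1.2)) =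
    vB s - (wB l k s.1.1 - wB l k s.1.2) • Pi.single k 1 := funext fun j => by
  refine (((ok s).sg k).diff (f := fun a => uu l j a) (uu_rev j)).trans ?_
  simp only [uu_sg, vB, Pi.sub_apply, Pi.smul_apply, Pi.single_apply]; split_ifs <;> simp; ring

/-- simple roots -/
def sB (k : Fin (l + 3)) : RB l := ⟨(⟨k, by omega⟩, ⟨k + 1, by omega⟩), by simp only [ne_eq, Fin.mk.injEq]; omega⟩

lemma A_pr (k : Fin (l + 3)) (s : RB l) : wB l k s.1.1 - wB l k s.1.2 = dd l k * pr (sB k) s := by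
  simp only [wB, w0, pr, sB]; ring
lemma pr_comm (r s : RB l) : pr r s = pr s r := by
  simp only [pr, ip_comm r.1.1, ip_comm r.1.2]; ring

lemma pr_two {r s : RB l} (h : pr s r = pr r r) (h' : pr s s = pr r r) : s = r := by
  have := Fin.val_ne_of_ne r.2.1
  have := Fin.val_ne_of_ne s.2.1
  have := r.2.2
  have := s.2.2
  simp only [pr, ip, Subtype.ext_iff, Prod.ext_iff, Fin.ext_iff] at h h' ⊢
  grind (splits := 30)

/-- commutator of composable pairs -/
def tm (a b d : Jx l) (ε δ : ℤ) : List (RB l × ℤ × ℕ × ℕ) :=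
  if b.1 = l + 3 then [(nm a d, ns a d * (2 * ε * δ), 1, 1)] else (nm a d, ns a d * (ε * δ), 1, 1) ::
    if d.1 = l + 3 then [(nm a b.rev, ns a b.rev * -ε, 1, 2)] else if a.1 = l + 3 then [(nm b.rev d, ns b.rev d * -δ, 2, 1)] else []

lemma tm_vec {a b d : Jx l} (h : Ok a b) (h' : Ok b d) (h'' : Ok a d) {ε δ k c i j} (e : (k, c, i, j) ∈ tm a b d ε δ) :
    0 < i ∧ 0 < j ∧ ∀ x : Fin (l + 3), vB k x = i * (uu l x a - uu l x b) + j * (uu l x b - uu l x d) := by
  have z : ∀ (x : Fin (l + 3)) (a : Jx l), a.1 = l + 3 → uu l x a = 0 := fun x a h => by simp only [uu]; split_ifs <;> omega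
  have k1 : Ok a b.rev := by simp only [ok_iff, rev_val] at *; omega
  have k2 : Ok b.rev d := by simp only [ok_iff, rev_val] at *; omega
  have q := fun {a b : Jx l} (h : Ok a b) (x : Fin (l + 3)) => h.diff (f := fun a => uu l x a) (uu_rev x)
  unfold tm at e
  have m : ∀ x : Fin (l + 3), vB (nm a d) x = (1 : ℕ) * (uu l x a - uu l x b) + (1 : ℕ) * (uu l x b - uu l x d) := fun x => by
    simp [vB, q h'']
  split_ifs at e with h1 h2 h3 <;> simp only [List.mem_cons, Prod.mk.injEq, List.not_mem_nil, or_false] at e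
  · obtain ⟨rfl, -, rfl, rfl⟩ := e; exact ⟨one_pos, one_pos, m⟩
  · obtain ⟨rfl, -, rfl, rfl⟩ | ⟨rfl, -, rfl, rfl⟩ := e
    exacts [⟨one_pos, one_pos, m⟩, ⟨one_pos, two_pos, fun x => by simp [vB, q k1, uu_rev, z x d h2, -Fin.val_rev]; ring⟩]
  · obtain ⟨rfl, -, rfl, rfl⟩ | ⟨rfl, -, rfl, rfl⟩ := e
    exacts [⟨one_pos, one_pos, m⟩, ⟨two_pos, one_pos, fun x => by simp [vB, q k2, uu_rev, z x a h3, -Fin.val_rev]; ring⟩]
  · obtain ⟨rfl, -, rfl, rfl⟩ := e; exact ⟨one_pos, one_pos, m⟩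

variable (l) in
/-- the root system of type `B_{l+3}` -/
def rsB : RS (RB l) (Fin (l + 3)) where
  vec := vB
  cor := cB
  A k r := wB l k r.1.1 - wB l k r.1.2
  neg r := ⟨(r.1.2, r.1.1), r.2.1.symm, add_comm r.1.1.1 _ ▸ r.2.2⟩
  simple := sB
  refl k r := nm (sg k r.1.1) (sg k r.1.2)
  eta k r := sn l k r.1.1 * sn l k r.1.2 * ns (sg k r.1.1) (sg k r.1.2)
  terms r s := if r.1.2 = s.1.1 ∧ Ok r.1.1 s.1.2 then tm r.1.1 r.1.2 s.1.2 1 1 else
    if s.1.2 = r.1.1 ∧ Ok s.1.1 r.1.2 then tm r.1.2.rev r.1.1.rev s.1.1.rev (-1) (-1) else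
    if r.1.2 = s.1.2.rev ∧ Ok r.1.1 s.1.1.rev then tm r.1.1 r.1.2 s.1.1.rev 1 (-1) else
    if s.1.1 = r.1.1.rev ∧ Ok r.1.2.rev s.1.2 then tm r.1.2.rev r.1.1.rev s.1.2 (-1) 1 else []
  vec_inj := fun r s e => (pr_two (by rw [← sum_vB, ← e, sum_vB]) (by rw [← sum_vB, ← e, sum_vB, pr_comm, ← sum_vB, ← e, sum_vB])).symm
  vec_neg r := by ext; simp [vB]
  vec_simple i := by
    ext k; simp only [vB, uu, sB, Pi.single_apply, Fin.ext_iff]; split_ifs <;> omega
  vec_refl := vB_refl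
  A_eq i s := by
    simp only [A_pr, pr_comm (sB i), mul_left_comm _ (dd l i), ← Finset.mul_sum]; rw [← sum_vB]; congr 2; ext k
    rw [pr_comm]; simp only [w0, pr, sB, ip_comm k.1, ip_comm (k.1 + 1)]; ring
  A_simple_self i := by simp only [wB, w0, dd, ip, sB]; split_ifs <;> omega
  pos_or_neg r := (lt_or_gt_of_ne r.2.1).imp vB_pos.2 fun h k => by
    have := (vB_pos (r := ⟨(r.1.2, r.1.1), r.2.1.symm, add_comm r.1.1.1 _ ▸ r.2.2⟩)).2 h k
    simp only [vB, Pi.zero_apply] at this ⊢; omega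
  neg_ne r h := r.2.1 (congrArg (·.1.2) h)
  refl_pos i r h h' := by
    have : sg i r.1.1 < sg i r.1.2 := by
      have := r.2.2
      rw [vB_pos, Fin.lt_def] at h
      simp only [sg, sv, sB, ne_eq, Subtype.ext_iff, Prod.ext_iff, Fin.ext_iff, Fin.lt_def] at h' ⊢
      split_ifs <;> omega
    rw [vB_pos]
    rcases ((ok r).sg i).nm with ⟨-, e, -⟩ | ⟨-, e, -⟩ <;> simpa [e]
  descent r h := by
    have := r.2.2
    rw [vB_pos, Fin.lt_def] at h
    refine ⟨⟨if r.1.1.1 + r.1.2 = 2 * l + 5 ∧ r.1.1.1 < l + 2 then r.1.1 + 1 else r.1.1, by split_ifs <;> omega⟩, ?_⟩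
    simp only [wB, w0, dd, ip]; grind
  cor_simple i := funext fun k => mul_right_cancel₀ (b := dd l k) (by simp only [dd]; split_ifs <;> simp) (by
    rw [cB_mul]; simp only [ln, dd, vB, uu, sB, Pi.single_apply, Fin.ext_iff, ite_mul, mul_ite]; grind)
  cor_neg r := funext fun k => mul_right_cancel₀ (b := dd l k) (by simp only [dd]; split_ifs <;> simp) (by
    simp only [Pi.neg_apply, neg_mul, cB_mul, vB, ln, or_comm (a := r.1.1.1 = _)]; ring)
  cor_refl i s := funext fun k => mul_right_cancel₀ (b := dd l k) (by simp only [dd]; split_ifs <;> simp) (by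
    rw [cB_mul, vB_refl, sum_cB, ((ok s).sg i).ln, ln_sg, A_pr, pr_comm]
    simp only [Pi.sub_apply, Pi.smul_apply, sub_mul, cB_mul, Pi.single_apply, smul_eq_mul]
    split_ifs with h <;> simp [h]; ring)
  eta_sq i s := by simp only [sn, ns]; split_ifs <;> simp
  eta_neg i s := by simp only [ns, add_comm (sg i s.1.1).1, mul_comm (sn l i s.1.1)]
  eta_simple i := by simp only [sn, ns, sB, sg, sv, ite_mul, mul_ite]; grind
  eta_refl i s := by
    have e : ((-1 : ℤ)) ^ (wB l i s.1.1 - wB l i s.1.2).natAbs = (-1) ^ (wB l i s.1.1).natAbs * (-1) ^ (wB l i s.1.2).natAbs := by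
      rw [← pow_add, neg_one_pow_eq_pow_mod_two, neg_one_pow_eq_pow_mod_two (n := _ + _)]; congr 1; omega
    rw [e, ← sn_sg, ← sn_sg]
    rcases ((ok s).sg i).nm with ⟨-, e, e'⟩ | ⟨-, e, e'⟩ <;> simp only [e, e', sg_rev, sg_sg, sn_rev, ns_self]
    · ring
    · have := s.2.2
      rw [show ns s.1.2.rev s.1.1.rev = -1 from if_neg (by simp only [rev_val]; omega)]; ring
  terms_vec r s k c a b h := by
    split_ifs at h with h1 h2 h3 h4
    · exact (tm_vec (ok r) (h1.1 ▸ ok s) h1.2 h).imp_right fun h => h.imp_right fun h => funext fun x =>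
        (h x).trans (by simp [vB, h1.1])
    · exact (tm_vec (ok r).flip (h2.1 ▸ (ok s).flip) h2.2.flip h).imp_right fun h => h.imp_right fun h => funext fun x =>
        (h x).trans (by simp only [vB, h2.1, uu_rev, Pi.add_apply, Pi.smul_apply, smul_eq_mul]; ring)
    · exact (tm_vec (ok r) (h3.1 ▸ (ok s).flip) h3.2 h).imp_right fun h => h.imp_right fun h => funext fun x =>
        (h x).trans (by simp only [vB, h3.1, uu_rev, Pi.add_apply, Pi.smul_apply, smul_eq_mul]; ring)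
    · exact (tm_vec (ok r).flip (h4.1 ▸ ok s) h4.2 h).imp_right fun h => h.imp_right fun h => funext fun x =>
        (h x).trans (by simp only [vB, h4.1, uu_rev, Pi.add_apply, Pi.smul_apply, smul_eq_mul]; ring)
    · simp at h

lemma pairB (r s : RB l) : (rsB l).pair r s = ln r.1.1 r.1.2 * pr r s := sum_cB r s

end H6.TB
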