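import Cfsg.Agent.H6.TB1

/-! Folding systems of type `D` to systems of type `B`. -/

set_option autoImplicit false
set_option linter.unusedSectionVars false

namespace H6.TB
open H5 H6.CA DN

variable {l : ℕ}

/-- commuting pairs -/
def C0 (N a b c d : ℕ) : Prop := (a ≠ b ∧ a + b ≠ N) ∧ (c ≠ d ∧ c + d ≠ N) ∧ (b = c → a + d = N) ∧ (d = a → b + c = N) ∧
  (b + d = N → c = a) ∧ (a + c = N → d = b)

variable (l) in
/-- root elements of type `D` indexed by pairs -/
structure PS (F G : Type*) [Field F] [Group G] where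
  X : Ix l → Ix l → F → G
  add : ∀ a b t u, X a b (t + u) = X a b t * X a b u
  flip : ∀ {a b}, DN.Ok a b → ∀ t, X b.rev a.rev t = X a b (-t)
  c1 : ∀ {a b d}, DN.Ok a b → DN.Ok b d → DN.Ok a d → ∀ t u, X b d u * X a b t = X a b t * X b d u * X a d (-t * u)
  c0 : ∀ {a b c d : Ix l}, C0 (2 * l + 7) a b c d → ∀ t u, X c d u * X a b t = X a b t * X c d u

/-- the middle index -/
def mu (l : ℕ) : Ix l := ⟨l + 3, by omega⟩
/-- embedding of the indices -/
def em (a : Jx l) : Ix l := ⟨if a.1 ≤ l + 3 then a else a + 1, by split_ifs <;> omega⟩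
/-- embedding of the indices -/
def em' (a : Jx l) : Ix l := ⟨if a.1 ≤ l + 2 then a else a + 1, by split_ifs <;> omega⟩

lemma em_rev (a : Jx l) : em a.rev = (em' a).rev := Fin.ext (by simp only [em, em', TB.rev_val, DN.rev_val]; split_ifs <;> omega)
lemma em_rev' (a : Jx l) : em' a.rev = (em a).rev := Fin.ext (by simp only [em, em', TB.rev_val, DN.rev_val]; split_ifs <;> omega)
lemma em_mid {a : Jx l} (h : a.1 = l + 3) : em a = mu l ∧ em' a = (mu l).rev := by
  simp only [em, em', mu, DN.rev_val, Fin.ext_iff]; split_ifs <;> omega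
lemma em_ne {a : Jx l} (h : a.1 ≠ l + 3) : em' a = em a ∧ DN.Ok (em a) (mu l) := by
  simp only [em, em', mu, DN.ok_iff, Fin.ext_iff]; split_ifs <;> omega
lemma Ok.em {a b : Jx l} (h : Ok a b) : DN.Ok (em a) (em b) ∧ DN.Ok (em' a) (em' b) := by
  simp only [TB.em, em', DN.ok_iff, ok_iff] at h ⊢; split_ifs <;> omega

lemma sub_mu : 2 * l + 7 - (l + 3) = l + 4 := by omega
lemma asc {G : Type*} [Group G] {a b c : G} (h : b * a = c) (x : G) : b * (a * x) = c * x := by rw [← mul_assoc, h]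

namespace PS
variable {F G : Type*} [Field F] [Group G] (P : PS l F G)

lemma zero (a b : Ix l) : P.X a b 0 = 1 := by simpa using P.add a b 0 0

section rel
variable {a b d : Ix l}

lemma ss (ha : DN.Ok a (mu l)) (hd : DN.Ok d (mu l)) (h : DN.Ok a d) (t u : F) :
    P.X (mu l) d u * P.X (mu l).rev d u * (P.X a (mu l) t * P.X a (mu l).rev t) = P.X a (mu l) t * P.X a (mu l).rev t *
      (P.X (mu l) d u * P.X (mu l).rev d u) * P.X a d (2 * -t * u) := by
  have h1 := P.c1 ha hd.symm h t u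
  have h2 := P.c1 (a := a) (b := (mu l).rev) (d := d) (by simp only [DN.ok_iff, C0, DN.rev_val, mu, sub_mu, implies_true, and_true, true_and] at *; omega) (by simp only [DN.ok_iff, C0, DN.rev_val, mu, sub_mu, implies_true, and_true, true_and] at *; omega) h t u
  have e1 := P.c0 (a := a) (b := mu l) (c := (mu l).rev) (d := d) (by simp only [DN.ok_iff, C0, DN.rev_val, mu, sub_mu, implies_true, and_true, true_and] at *; omega) t u
  have e2 := P.c0 (a := a) (b := (mu l).rev) (c := mu l) (d := d) (by simp only [DN.ok_iff, C0, DN.rev_val, mu, sub_mu, implies_true, and_true, true_and] at *; omega) t u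
  have e3 := P.c0 (a := a) (b := (mu l).rev) (c := a) (d := d) (by simp only [DN.ok_iff, C0, DN.rev_val, mu, sub_mu, implies_true, and_true, true_and] at *; omega) t (-t * u)
  have e4 := P.c0 (a := (mu l).rev) (b := d) (c := a) (d := d) (by simp only [DN.ok_iff, C0, DN.rev_val, mu, sub_mu, implies_true, and_true, true_and] at *; omega) u (-t * u)
  rw [show 2 * -t * u = -t * u + -t * u by ring, P.add]
  simp only [mul_assoc, asc e1, asc h1, h2, asc e2, asc e3, asc e4]

lemma ls (ha : DN.Ok a (mu l)) (hb : DN.Ok b (mu l)) (h : DN.Ok a b) (t u : F) :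
    P.X b (mu l) u * P.X b (mu l).rev u * P.X a b t = P.X a b t * (P.X b (mu l) u * P.X b (mu l).rev u) *
      (P.X a (mu l) (-t * u) * P.X a (mu l).rev (-t * u) * P.X a b.rev (t * u ^ 2)) := by
  have h1 := P.c1 h hb ha t u
  have h2 := P.c1 (a := a) (b := b) (d := (mu l).rev) h (by simp only [DN.ok_iff, C0, DN.rev_val, mu, sub_mu, implies_true, and_true, true_and] at *; omega) (by simp only [DN.ok_iff, C0, DN.rev_val, mu, sub_mu, implies_true, and_true, true_and] at *; omega) t u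
  have h3 := P.c1 (a := a) (b := mu l) (d := b.rev) ha (by simp only [DN.ok_iff, C0, DN.rev_val, mu, sub_mu, implies_true, and_true, true_and] at *; omega) (by simp only [DN.ok_iff, C0, DN.rev_val, mu, sub_mu, implies_true, and_true, true_and] at *; omega) (-t * u) (-u)
  have h4 := P.flip (a := b) (b := (mu l).rev) (by simp only [DN.ok_iff, C0, DN.rev_val, mu, sub_mu, implies_true, and_true, true_and] at *; omega) (-u)
  have e := P.c0 (a := a) (b := (mu l).rev) (c := a) (d := b.rev) (by simp only [DN.ok_iff, C0, DN.rev_val, mu, sub_mu, implies_true, and_true, true_and] at *; omega) (-t * u) (t * u ^ 2)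
  rw [Fin.rev_rev, neg_neg] at h4
  have h5 : P.X a (mu l) (-t * u) * P.X b (mu l).rev u = P.X b (mu l).rev u * P.X a (mu l) (-t * u) * P.X a b.rev (t * u ^ 2) := by
    rw [← h4, h3, mul_assoc, ← P.add, show -(-t * u) * -u + t * u ^ 2 = 0 by ring, P.zero, mul_one]
  simp only [mul_assoc, asc h1, h2, asc h5, e]

lemma sl (hb : DN.Ok b (mu l)) (hd : DN.Ok d (mu l)) (h : DN.Ok b d) (t u : F) :
    P.X b d u * (P.X (mu l) b t * P.X (mu l).rev b t) = P.X (mu l) b t * P.X (mu l).rev b t * P.X b d u *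
      (P.X (mu l) d (-t * u) * P.X (mu l).rev d (-t * u) * P.X b.rev d (-(t ^ 2 * u))) := by
  have h1 := P.c1 hb.symm h hd.symm t u
  have h2 := P.c1 (a := (mu l).rev) (b := b) (d := d) (by simp only [DN.ok_iff, C0, DN.rev_val, mu, sub_mu, implies_true, and_true, true_and] at *; omega) h (by simp only [DN.ok_iff, C0, DN.rev_val, mu, sub_mu, implies_true, and_true, true_and] at *; omega) t u
  have h3 := P.c1 (a := b.rev) (b := mu l) (d := d) (by simp only [DN.ok_iff, C0, DN.rev_val, mu, sub_mu, implies_true, and_true, true_and] at *; omega) hd.symm (by simp only [DN.ok_iff, C0, DN.rev_val, mu, sub_mu, implies_true, and_true, true_and] at *; omega) (-t) (-t * u)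
  have h4 := P.flip (a := (mu l).rev) (b := b) (by simp only [DN.ok_iff, C0, DN.rev_val, mu, sub_mu, implies_true, and_true, true_and] at *; omega) (-t)
  have e := P.c0 (a := mu l) (b := d) (c := (mu l).rev) (d := d) (by simp only [DN.ok_iff, C0, DN.rev_val, mu, sub_mu, implies_true, and_true, true_and] at *; omega) (-t * u) (-t * u)
  rw [Fin.rev_rev, neg_neg] at h4
  rw [h4, show - -t * (-t * u) = -(t ^ 2 * u) by ring] at h3
  simp only [mul_assoc, asc h1, asc h2, h3, asc e]
end rel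

/-- root elements of type `B` indexed by pairs -/
def Y (a b : Jx l) (t : F) : G := P.X (em a) (em b) t * if a.1 = l + 3 ∨ b.1 = l + 3 then P.X (em' a) (em' b) t else 1

variable {a b c d : Jx l}

lemma cm12 (h : Ok a b) (e : a.1 = l + 3 ∨ b.1 = l + 3) (t u : F) :
    P.X (em' a) (em' b) u * P.X (em a) (em b) t = P.X (em a) (em b) t * P.X (em' a) (em' b) u :=
  P.c0 (by simp only [ok_iff, C0, em, em'] at *; split_ifs <;> omega) t u

lemma Y_flip (h : Ok a b) (t : F) : P.Y b.rev a.rev t = P.Y a b (-t) := by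
  simp only [Y, em_rev, em_rev', P.flip h.em.1, P.flip h.em.2, TB.rev_val]
  by_cases e : a.1 = l + 3 ∨ b.1 = l + 3
  · rw [if_pos (by omega), if_pos e, P.cm12 h e]
  · rw [if_neg (by omega), if_neg e, (em_ne (mt .inl e)).1, (em_ne (mt .inr e)).1]

lemma Y_nm (h : Ok a b) (t : F) : P.Y (TB.nm a b).1.1 (TB.nm a b).1.2 (TB.ns a b * t) = P.Y a b t := by
  rcases h.nm with ⟨-, e, e'⟩ | ⟨-, e, e'⟩ <;> simp [e, e', P.Y_flip h]

lemma Y_tm (h : Ok a b) (h' : Ok b d) (h'' : Ok a d) {ε δ : ℤ} (hε : ε = 1 ∨ ε = -1) (hδ : δ = 1 ∨ δ = -1) (t u : F) :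
    P.Y b d (δ * u) * P.Y a b (ε * t) = P.Y a b (ε * t) * P.Y b d (δ * u) *
      ((tm a b d ε δ).map fun c => P.Y c.1.1.1 c.1.1.2 (c.2.1 * (-t) ^ c.2.2.1 * u ^ c.2.2.2)).prod := by
  have k1 : Ok a b.rev := by simp only [ok_iff, TB.rev_val] at *; omega
  have k2 : Ok b.rev d := by simp only [ok_iff, TB.rev_val] at *; omega
  have o := ok_iff.1 h; have o' := ok_iff.1 h'; have o'' := ok_iff.1 h''
  unfold tm
  split_ifs with h1 h2 h3 <;> simp only [List.map_cons, List.map_nil, List.prod_cons, List.prod_nil, mul_one, pow_one,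
    Int.cast_mul, mul_assoc (_ : F), P.Y_nm h'', P.Y_nm k1, P.Y_nm k2]
  · have ea := em_ne (a := a) (by omega); have ed := em_ne (a := d) (by omega)
    simp only [Y, h1, true_or, or_true, if_true, em_mid h1, ea, ed, if_neg (show ¬ (a.1 = l + 3 ∨ d.1 = l + 3) by omega), mul_one]
    rw [P.ss ea.2 ed.2 h''.em.1]; congr 2; push_cast; ring
  · have ea := em_ne (a := a) (by omega); have eb := em_ne h1
    simp only [Y, h2, true_or, or_true, if_true, em_mid h2, ea, eb, if_neg (show ¬ (a.1 = l + 3 ∨ b.1 = l + 3) by omega),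
      if_neg (show ¬ (a.1 = l + 3 ∨ b.rev.1 = l + 3) by rw [TB.rev_val]; omega), mul_one, em_rev]
    rw [P.ls ea.2 eb.2 h.em.1]; rcases hδ with rfl | rfl <;> simp [mul_left_comm, mul_assoc]
  · have ed := em_ne h2; have eb := em_ne h1
    simp only [Y, h3, true_or, or_true, if_true, em_mid h3, ed, eb, if_neg (show ¬ (b.1 = l + 3 ∨ d.1 = l + 3) by omega),
      if_neg (show ¬ (b.rev.1 = l + 3 ∨ d.1 = l + 3) by rw [TB.rev_val]; omega), mul_one, em_rev]
    rw [P.sl eb.2 ed.2 h'.em.1]; rcases hε with rfl | rfl <;> simp [mul_left_comm]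
  · simp only [Y, h1, h2, h3, or_self, if_false, mul_one]
    rw [P.c1 h.em.1 h'.em.1 h''.em.1]; congr 2; ring

/-- the folded system -/
def st : StSys (rsB l) F G where
  x r := P.Y r.1.1 r.1.2
  add r t u := by
    simp only [Y, P.add]; split_ifs with e
    · simp only [mul_assoc, asc (P.cm12 (ok r) e u t)]
    · simp
  comm := fun ⟨⟨a, b⟩, h⟩ ⟨⟨c, d⟩, h'⟩ h1 h2 t u => by
    have k : Ok a b := ⟨h.1, h.2.ne⟩
    have k' : Ok c d := ⟨h'.1, h'.2.ne⟩
    simp only [rsB, ne_eq, Subtype.mk.injEq, Prod.mk.injEq] at h1 h2 ⊢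
    split_ifs with e1 e2 e3 e4
    · obtain ⟨rfl, e⟩ := e1
      simpa using P.Y_tm k k' e (.inl rfl) (.inl rfl) t u
    · obtain ⟨rfl, e⟩ := e2
      simpa [P.Y_flip k, P.Y_flip k'] using P.Y_tm k.flip k'.flip e.flip (.inr rfl) (.inr rfl) t u
    · obtain ⟨rfl, e⟩ := e3
      simpa [P.Y_flip k'] using P.Y_tm k k'.flip e (.inl rfl) (.inr rfl) t u
    · obtain ⟨rfl, e⟩ := e4
      simpa [P.Y_flip k] using P.Y_tm k.flip k' e (.inr rfl) (.inl rfl) t u
    · have q : ∀ {a' b' c' d' : Ix l}, C0 (2 * l + 7) a' b' c' d' → Commute (P.X c' d' u) (P.X a' b' t) := fun h => P.c0 h t u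
      simp only [List.map_nil, List.prod_nil, mul_one, Y]
      simp only [ok_iff, Fin.ext_iff, TB.rev_val] at h h' h1 h2 e1 e2 e3 e4 k k'
      split_ifs
      · omega
      all_goals simp only [mul_one]
      exacts [(q (by simp only [C0, em]; split_ifs <;> omega)).mul_left (q (by simp only [C0, em, em']; split_ifs <;> omega)),
        (q (by simp only [C0, em]; split_ifs <;> omega)).mul_right (q (by simp only [C0, em, em']; split_ifs <;> omega)),
        q (by simp only [C0, em]; split_ifs <;> omega)]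

lemma X_nm {a b : Ix l} (h : DN.Ok a b) (t : F) : P.X (DN.nm a b).1.1 (DN.nm a b).1.2 (DN.ns a b * t) = P.X a b t := by
  rcases h.nm with ⟨-, e, e'⟩ | ⟨-, e, e'⟩ <;> simp [e, e', P.flip h]
end PS

/-- first root of type `D` -/
def r1 (r : RB l) : RD l := ⟨(em r.1.1, em r.1.2), (ok r).em.1.1, by have := r.2.2; simp only [em]; split_ifs <;> omega⟩
/-- second root of type `D` -/
def r2 (r : RB l) : RD l := ⟨(em' r.1.1, em' r.1.2), (ok r).em.2.1, by
  have := r.2.2; have := (ok_iff.1 (ok r)).1; simp only [em']; split_ifs <;> omega⟩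

lemma exists_fv (f : Fin (l + 3) → ℤ) : ∃ f', ∀ r, (rsD l).fv f' (r1 r) = (rsB l).fv f r ∧
    (rsD l).fv f' (r2 r) = (rsB l).fv f r := by
  refine ⟨fun k => f ⟨min k (l + 2), by omega⟩, fun r => ?_⟩
  have e : ∀ v : Fin (l + 4) → ℤ, (∀ k : Fin (l + 3), v k.castSucc + (if k = Fin.last _ then v (Fin.last _) else 0) = vB r k) →
      ∑ k, v k * f ⟨min k (l + 2), by omega⟩ = ∑ k, vB r k * f k := fun v hv => by
    simp only [← hv, add_mul, Finset.sum_add_distrib, ite_mul, zero_mul, Finset.sum_ite_eq', Finset.mem_univ, if_true]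
    rw [Fin.sum_univ_castSucc]
    congr 1
    · exact Finset.sum_congr rfl fun k _ => by congr 2; ext; simp; omega
    · congr 2; ext; simp
  have := r.2.2
  have := (ok_iff.1 (ok r)).1
  constructor <;> refine e _ fun k => ?_ <;>
    simp only [rsD, vD, vB, DN.uu, uu, r1, r2, em, em', Fin.ext_iff, Fin.val_castSucc, Fin.val_last] <;> grind (splits := 40)

section chev
variable {F G : Type*} [Field F] [Group G] {P : PS l F G} {S : StSys (rsD l) F G} (hS : ∀ r t, S.x r t = P.X r.1.1 r.1.2 t)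
include hS

lemma st_x (r : RB l) (t : F) : P.st.x r t = S.x (r1 r) t * if r.1.1.1 = l + 3 ∨ r.1.2.1 = l + 3 then S.x (r2 r) t else 1 := by
  rw [hS, hS]; rfl

lemma st_n (r : RB l) : (∀ t, P.st.n r t = S.n (r1 r) t * if r.1.1.1 = l + 3 ∨ r.1.2.1 = l + 3 then S.n (r2 r) t else 1) ∧
    ∀ t, P.st.h r t = S.h (r1 r) t * if r.1.1.1 = l + 3 ∨ r.1.2.1 = l + 3 then S.h (r2 r) t else 1 := by
  have o := ok_iff.1 (ok r)
  by_cases e : r.1.1.1 = l + 3 ∨ r.1.2.1 = l + 3
  swap; · simp [StSys.h, StSys.n, PS.st, PS.Y, rsB, rsD, hS, r1, e, mt Or.symm e]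
  have q : ∀ {a b c d : Ix l}, C0 (2 * l + 7) a b c d → ∀ t u, P.X c d u * P.X a b t = P.X a b t * P.X c d u := P.c0
  have q1 := P.cm12 (ok r) e
  have q2 := q (a := em r.1.2) (b := em r.1.1) (c := em' r.1.1) (d := em' r.1.2) (by simp only [C0, em, em']; split_ifs <;> omega)
  have q3 := q (a := em r.1.1) (b := em r.1.2) (c := em' r.1.2) (d := em' r.1.1) (by simp only [C0, em, em']; split_ifs <;> omega)
  have q4 := P.cm12 (ok r).symm e.symm
  constructor <;> intro t <;>
    simp only [StSys.h, StSys.n, PS.st, PS.Y, rsB, rsD, hS, r1, r2, e, e.symm, if_true, mul_assoc, asc (q1 _ _), asc (q2 _ _),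
      asc (q3 _ _), asc (q4 _ _), q1, q2, q3, q4]

lemma conjD (hN : S.NConj) (k : Fin (l + 4)) {c : F} (hc : c ≠ 0) {a b : Ix l} (h : DN.Ok a b) (u : F) :
    S.n (sD k) c * P.X a b u * (S.n (sD k) c)⁻¹ =
      P.X (DN.sg k a) (DN.sg k b) (DN.sn l k a * DN.sn l k b * c ^ (-(wD l k a - wD l k b)) * u) := by
  have := fun (a b : Ix l) (h : a ≠ b ∧ a.1 + b.1 < 2 * l + 7) u => (hN k c hc ⟨(a, b), h⟩ u).trans ((hS _ _).trans
    ((congrArg _ (by simp only [rsD]; push_cast; ring)).trans (P.X_nm ((DN.ok ⟨(a, b), h⟩).sg k)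
      (DN.sn l k a * DN.sn l k b * c ^ (-(wD l k a - wD l k b)) * u))))
  simp only [hS] at this
  by_cases e : a.1 + b.1 < 2 * l + 7
  · exact this a b ⟨h.1, e⟩ u
  have := this b.rev a.rev ⟨h.flip.1, by have := h.2; simp only [DN.rev_val]; omega⟩ (-u)
  rw [P.flip h, neg_neg, DN.sg_rev, DN.sg_rev, P.flip (h.sg k)] at this
  refine this.trans (congrArg _ ?_)
  simp only [DN.sn_rev, wD_rev, zero_sub, neg_sub_neg]; ring

lemma st_nconj (hN : S.NConj) : P.st.NConj := fun k c hc s u => by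
  have o := (ok s).em
  refine Eq.trans ?_ ((P.Y_nm ((ok s).sg k) (sn l k s.1.1 * sn l k s.1.2 * c ^ (-(wB l k s.1.1 - wB l k s.1.2)) * u)).symm.trans
    (congrArg _ (by simp only [rsB]; push_cast; ring)))
  have cj : ∀ g x y : G, g * (x * y) * g⁻¹ = g * x * g⁻¹ * (g * y * g⁻¹) := fun g x y => by group
  rw [(st_n hS _).1, show r1 ((rsB l).simple k) = sD k.castSucc from Subtype.ext (by
    simp only [r1, rsB, sB, sD, em, pp, Prod.mk.injEq, Fin.ext_iff, Fin.val_castSucc]; grind)]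
  simp only [PS.st, PS.Y, sg_mid]
  by_cases e : k.1 = l + 2
  · have a : ∀ a : Jx l, DN.sg k.castSucc (DN.sg (Fin.last _) (em a)) = em' (sg k a) ∧
        DN.sg k.castSucc (DN.sg (Fin.last _) (em' a)) = em (sg k a) := fun a => by
      simp only [DN.sg, DN.sv, sg, sv, em, em', pp, Fin.ext_iff, Fin.val_castSucc, Fin.val_last, e]; grind (splits := 40)
    have b : ∀ {a' : Ix l} {a : Jx l}, a' = em a ∨ a' = em' a → DN.sn l k (DN.sg (Fin.last _) a') * DN.sn l (l + 3) a' =
        sn l k a ∧ wD l k (DN.sg (Fin.last _) a') + wD l (l + 3) a' = wB l k a := by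
      rintro _ a (rfl | rfl) <;> simp only [DN.sg, DN.sv, DN.sn, sn, wD, wB, w0, dd, DN.ip, ip, em, em', pp, Fin.val_last, e,
        ite_mul, mul_ite] <;> grind (splits := 40)
    have d : ∀ {a' b' : Ix l} {a b : Jx l}, a' = em a ∨ a' = em' a → b' = em b ∨ b' = em' b → DN.Ok a' b' →
        S.n (sD k.castSucc) c * S.n (sD (Fin.last _)) c * P.X a' b' u * (S.n (sD k.castSucc) c * S.n (sD (Fin.last _)) c)⁻¹ =
        P.X (DN.sg k.castSucc (DN.sg (Fin.last _) a')) (DN.sg k.castSucc (DN.sg (Fin.last _) b'))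
          (sn l k a * sn l k b * c ^ (-(wB l k a - wB l k b)) * u) := fun ha hb h => by
      rw [← (b ha).1, ← (b hb).1, ← (b ha).2, ← (b hb).2, _root_.mul_inv_rev, mul_assoc (S.n _ c), mul_assoc (S.n _ c),
        ← mul_assoc _ _ (S.n _ c)⁻¹, ← mul_assoc (S.n _ c), conjD hS hN _ hc h, conjD hS hN _ hc (h.sg _)]
      simp only [Fin.val_castSucc, Fin.val_last, neg_sub, zpow_sub₀ hc, zpow_add₀ hc]
      congr 1; push_cast; field_simp
    rw [if_pos (by simp only [rsB, sB]; omega), show r2 ((rsB l).simple k) = sD (Fin.last _) from Subtype.ext (by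
      simp only [r2, rsB, sB, sD, em', pp, Prod.mk.injEq, Fin.ext_iff, Fin.val_last]; grind)]
    split_ifs with f
    · rw [cj, d (.inl rfl) (.inl rfl) o.1, d (.inr rfl) (.inr rfl) o.2, (a _).1, (a _).1, (a _).2, (a _).2,
        P.cm12 ((ok s).sg k) (by simpa only [sg_mid] using f)]
    · rw [mul_one, mul_one, d (.inl rfl) (.inl rfl) o.1, (a _).1, (a _).1, (em_ne (mt (sg_mid _ _).1 (mt .inl f))).1,
        (em_ne (mt (sg_mid _ _).1 (mt .inr f))).1]
  · have a : ∀ a : Jx l, DN.sg k.castSucc (em a) = em (sg k a) ∧ DN.sg k.castSucc (em' a) = em' (sg k a) := fun a => by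
      simp only [DN.sg, DN.sv, sg, sv, em, em', pp, Fin.ext_iff, Fin.val_castSucc]; grind (splits := 40)
    have b : ∀ a : Jx l, (DN.sn l k (em a) = sn l k a ∧ wD l k (em a) = wB l k a) ∧ DN.sn l k (em' a) = sn l k a ∧
        wD l k (em' a) = wB l k a := fun a => by
      simp only [DN.sn, sn, wD, wB, w0, dd, DN.ip, ip, em, em', pp, ite_mul]; grind (splits := 40)
    rw [if_neg (by simp only [rsB, sB]; omega), mul_one]
    split_ifs with f
    · simp only [cj, conjD hS hN _ hc o.1, conjD hS hN _ hc o.2, a, b, Fin.val_castSucc]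
    · simp only [mul_one, conjD hS hN _ hc o.1, a, b, Fin.val_castSucc]
end chev

/-- the folded Chevalley system -/
def PS.chev {F G : Type*} [Field F] [Group G] (P : PS l F G) (S : ChevSys (rsD l) F G)
    (hS : ∀ r t, S.x r t = P.X r.1.1 r.1.2 t) : ChevSys (rsB l) F G :=
  have hU : ∀ {T T'}, (∀ r ∈ T, r1 r ∈ T' ∧ r2 r ∈ T') → P.st.U T ≤ S.U T' := fun h => P.st.U_le_iff.2 fun r hr t => by
    rw [st_x hS]; split_ifs
    exacts [mul_mem (S.x_mem_U (h r hr).1 t) (S.x_mem_U (h r hr).2 t), mul_mem (S.x_mem_U (h r hr).1 t) (one_mem _)]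
  { P.st with
    nconj := st_nconj hS S.nconj
    nd := fun f => by
      obtain ⟨f', h⟩ := exists_fv f
      refine le_bot_iff.1 (le_trans (inf_le_inf (hU ?_) (sup_le_sup (hU ?_) (P.st.H_le_iff.2 fun r t ht => ?_))) (S.nd f').le)
      · simp [h]
      · simp [h]
      rw [(st_n hS r).2]; split_ifs
      exacts [mul_mem (S.h_mem_H _ ht) (S.h_mem_H _ ht), mul_mem (S.h_mem_H _ ht) (one_mem _)]
    inj := fun f k d hk hd => by
      obtain ⟨f', h⟩ := exists_fv f
      have n : ∀ r, r ≠ k → r1 r ≠ r1 k ∧ r2 r ≠ r1 k := fun r e => by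
        simp only [r1, r2, em, em', ne_eq, Subtype.ext_iff, Prod.ext_iff, Fin.ext_iff] at e ⊢; split_ifs <;> omega
      refine S.inj f' (r1 k) d ((h k).1 ▸ hk) ?_
      have := hU (T' := {r | r ≠ r1 k ∧ (rsD _).fv f' (r1 k) ≤ (rsD _).fv f' r}) (fun r hr =>
        ⟨⟨(n r hr.1).1, by simpa [h] using hr.2⟩, (n r hr.1).2, by simpa [h] using hr.2⟩) hd
      rw [st_x hS] at this
      split_ifs at this with e
      · refine (mul_mem_cancel_right (S.x_mem_U (And.intro ?_ (by simp [h])) d)).1 this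
        simp only [r1, r2, em, em', ne_eq, Subtype.ext_iff, Prod.ext_iff, Fin.ext_iff]; split_ifs <;> omega
      · simpa using this }

end H6.TB
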