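import Cfsg.Agent.H6.TB2

/-! The Chevalley system of type `B` in the odd dimensional orthogonal group. -/

set_option autoImplicit false
set_option linter.unusedSectionVars false

namespace H6.TB
open H5 H6.CA DN Matrix

variable {l : ℕ} {F G G' : Type*} [Field F] [Group G] [Group G']

/-- pair systems from partially defined families -/
def PS.of (X : ∀ {a b : Ix l}, DN.Ok a b → F → G) (add : ∀ {a b} (h : DN.Ok a b) t u, X h (t + u) = X h t * X h u)
    (flip : ∀ {a b} (h : DN.Ok a b) t, X h.flip t = X h (-t))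
    (c1 : ∀ {a b d} (h : DN.Ok a b) (h' : DN.Ok b d) (k : DN.Ok a d) t u, X h' u * X h t = X h t * X h' u * X k (-t * u))
    (c0 : ∀ {a b c d} (h : DN.Ok a b) (h' : DN.Ok c d), (b = c → d = a.rev) → (d = a → c = b.rev) → (d = b.rev → c = a) →
      (c = a.rev → d = b) → ∀ t u, X h' u * X h t = X h t * X h' u) : PS l F G where
  X a b t := if h : DN.Ok a b then X h t else 1
  add a b t u := by split_ifs <;> simp [add]
  flip h t := by rw [dif_pos h, dif_pos h.flip, flip]
  c1 h h' k t u := by rw [dif_pos h, dif_pos h', dif_pos k, c1]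
  c0 h t u := by
    rw [dif_pos (DN.ok_iff.2 h.1), dif_pos (DN.ok_iff.2 h.2.1)]
    refine c0 _ _ ?_ ?_ ?_ ?_ t u <;> simp only [C0, Fin.ext_iff, DN.rev_val] at h ⊢ <;> omega

/-- images of pair systems -/
def PS.map (P : PS l F G) (φ : G →* G') : PS l F G' where
  X a b t := φ (P.X a b t)
  add a b t u := by rw [P.add, map_mul]
  flip h t := by rw [P.flip h]
  c1 h h' k t u := by simp only [← map_mul, P.c1 h h' k]
  c0 h t u := by simp only [← map_mul, P.c0 h]

lemma PS.map_Y (P : PS l F G) (φ : G →* G') (a b t) : (P.map φ).Y a b t = φ (P.Y a b t) := by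
  simp only [PS.Y, PS.map]; split_ifs <;> simp

variable (F l) in
/-- the pair system in `SL` -/
def psL : PS l F (SpecialLinearGroup (Ix l) F) := .of XD XD_add XD_flip c1 c0

variable (F l) in
/-- the Chevalley system of type `B` in `PSL` -/
def sysB : ChevSys (rsB l) F (ProjectiveSpecialLinearGroup (Ix l) F) :=
  ((psL l F).map (QuotientGroup.mk' _)).chev (sysD F l) fun r _ => by
    simp only [PS.map, psL, PS.of, dif_pos (DN.ok r)]; rfl

variable (l) in
/-- the natural basis -/
def kb : Jx l ≃ Unit ⊕ (Fin (l + 3) ⊕ Fin (l + 3)) where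
  toFun a := if h : a.1 < l + 3 then .inr (.inl ⟨a, h⟩) else if h' : a.1 = l + 3 then .inl () else .inr (.inr ⟨2 * l + 6 - a, by omega⟩)
  invFun := Sum.elim (fun _ => ⟨l + 3, by omega⟩) (Sum.elim (fun i => ⟨i, by omega⟩) fun i => ⟨2 * l + 6 - i, by omega⟩)
  left_inv a := by dsimp only; split_ifs <;> simp only [Sum.elim_inl, Sum.elim_inr, Fin.ext_iff] <;> omega
  right_inv := by
    rintro (i | i | i)
    · simp
    · exact dif_pos i.2
    · exact (dif_neg (by simp; omega)).trans ((dif_neg (by simp; omega)).trans (by simp [Fin.ext_iff]; omega))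

lemma kb_rev (a : Jx l) : kb l a.rev = (kb l a).map id Sum.swap := by
  simp only [kb, Equiv.coe_fn_mk, TB.rev_val]
  split_ifs <;> first | omega | (simp [Fin.ext_iff]; try omega)
lemma kb_mid (a : Jx l) : a.1 = l + 3 ↔ kb l a = .inl () := by
  simp only [kb, Equiv.coe_fn_mk]; split_ifs <;> simp <;> omega

/-- the natural basis -/
def ee (a : Jx l) : Unit ⊕ (Fin (l + 3) ⊕ Fin (l + 3)) → F := Pi.single (kb l a) 1

lemma B_ee (x) (a : Jx l) : (oddF F (l + 3)).B x (ee a) = (if a.1 = l + 3 then 2 else 1) * x (kb l a.rev) := by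
  rw [kb_rev, ee]; simp only [kb_mid]; rcases kb l a with i | i | i <;> simp [oddF_B, Pi.single_apply]
lemma ee_apply (a b : Jx l) : (ee a : _ → F) (kb l b) = if b = a then 1 else 0 := by simp [ee, Pi.single_apply]
lemma Q_ee {a : Jx l} (h : a.1 ≠ l + 3) : (oddF F (l + 3)).Q (ee a) = 0 := by
  rw [ee]; simp only [ne_eq, kb_mid] at h; revert h; rcases kb l a with i | i | i <;> simp [Cfsg.quadFormOdd]
lemma Q_ee' (a : Jx l) (t : F) : (oddF F (l + 3)).Q (t • ee a) = if a.1 = l + 3 then t ^ 2 else 0 := by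
  rw [ee]; simp only [kb_mid]; rcases kb l a with i | i | i <;> simp [Cfsg.quadFormOdd, Pi.single_apply]

/-- collapsing the indices -/
def pj (a : Ix l) : Jx l := ⟨if a.1 ≤ l + 3 then a else a - 1, by split_ifs <;> omega⟩
/-- the embedding of the odd dimensional space -/
def jj (w : Unit ⊕ (Fin (l + 3) ⊕ Fin (l + 3)) → F) (a : Ix l) : F := w (kb l (pj a))
variable (F l) in
/-- the fixed vector -/
def w₀ : Ix l → F := Pi.single (mu l) 1 - Pi.single (mu l).rev 1

lemma pj_em (a : Jx l) : pj (em a) = a ∧ pj (em' a) = a := by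
  simp only [pj, em, em', Fin.ext_iff]; split_ifs <;> omega

variable (F l) in
/-- the graph of the restriction to the odd dimensional space -/
def Gr : Subgroup (SpecialLinearGroup (Ix l) F × ((Unit ⊕ (Fin (l + 3) ⊕ Fin (l + 3)) → F) ≃ₗ[F]
    (Unit ⊕ (Fin (l + 3) ⊕ Fin (l + 3)) → F))) where
  carrier := {p | (∀ w, p.1.1 *ᵥ jj w = jj (p.2 w)) ∧ p.1.1 *ᵥ w₀ l F = w₀ l F}
  one_mem' := by simp
  mul_mem' ha hb := by simp [← mulVec_mulVec, ha.1, ha.2, hb.1, hb.2]
  inv_mem' {p} h := by
    have k : ∀ v, (p⁻¹).1.1 *ᵥ p.1.1 *ᵥ v = v := fun v => by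
      rw [mulVec_mulVec, ← Matrix.SpecialLinearGroup.coe_mul, Prod.fst_inv, inv_mul_cancel]; simp
    exact ⟨fun w => by rw [← k (jj (p⁻¹.2 w)), h.1]; simp, by simpa only [h.2] using k (w₀ l F)⟩

lemma mem_Gr {a b : Jx l} (h : Ok a b) (ha : a.1 ≠ l + 3) (t : F) (c p q r) :
    ((psL l F).Y a b t, (oddF F _).eich (ee a) ((-t) • ee b.rev) c p q r) ∈ Gr l F := by
  obtain rfl : c = if b.rev.1 = l + 3 then (-t) ^ 2 else 0 := Eq.trans r (Q_ee' _ _)
  have e : ∀ x : Ix l, (pj x = a ↔ x = em a) ∧ (pj x = b.rev ↔ x = (em b).rev ∨ x = (em' b).rev) := fun x => by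
    simp only [pj, em, em', Fin.ext_iff, TB.rev_val, DN.rev_val]; split_ifs <;> omega
  have o := h.em
  have n := o.1.ne
  have n' := o.2.ne
  rw [(em_ne ha).1] at o n'
  have m := (em_ne ha).2.ne
  simp only [Gr, PS.Y, psL, PS.of, (em_ne ha).1, dif_pos o.1, dif_pos o.2, ha, false_or]
  by_cases hb : b.1 = l + 3
  · have hb' : b.rev = b := Fin.ext (by rw [TB.rev_val]; omega)
    simp only [em_mid hb, Fin.rev_rev, hb'] at e n n' ⊢
    refine ⟨fun w => funext fun x => ?_, ?_⟩
    · have := pj_em b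
      have k := (pj_em a.rev).1
      simp only [em_mid hb, em_rev, (em_ne ha).1] at this k
      simp [hb, ← mulVec_mulVec, XD_vec, em_mid hb, jj, Form.eich_apply, B_ee, ee_apply, e, ha, hb', Pi.single_apply, this, k,
        m, rev_ne, (rev_ne _).symm]
      clear r
      split_ifs <;> simp_all [rev_ne] <;> ring
    · simp [hb, ← mulVec_mulVec, XD_vec, em_mid hb, w₀, m, rev_ne, (rev_ne _).symm]
  · have hb' : b.rev.1 ≠ l + 3 := by rw [TB.rev_val]; omega
    have m' := (em_ne hb).2.ne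
    refine ⟨fun w => funext fun x => ?_, ?_⟩
    · have k := (pj_em a.rev).1
      simp only [em_rev, (em_ne ha).1] at k
      simp [hb, hb', XD_vec, jj, Form.eich_apply, B_ee, ee_apply, e, ha, Pi.single_apply, k, pj_em, (em_ne hb).1, -Fin.val_rev]
      split_ifs <;> ring
    · simp [hb, XD_vec, w₀, m, m']

theorem isoB [Finite F] (h2 : (2 : F) ≠ 0) : Nonempty ((sysB l F).grp ≃* Cfsg.POmega F (Cfsg.quadFormOdd (l + 3) F)) := by
  let f := (QuotientGroup.mk' (Subgroup.center _)).comp ((MonoidHom.fst _ _).comp (Gr l F).subtype)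
  let g := (MonoidHom.snd _ _).comp (Gr l F).subtype
  have j0 : ∀ {w w' : _ → F}, jj (l := l) w = jj w' → w = w' := fun e => funext fun i => by
    simpa [jj, pj_em] using congrFun e (em ((kb l).symm i))
  have hf : Function.Injective f := (injective_iff_map_eq_one _).2 fun ⟨⟨A, B⟩, h⟩ e => by
    obtain ⟨c, -, hc⟩ := Matrix.SpecialLinearGroup.mem_center_iff.1 ((QuotientGroup.eq_one_iff A).1 e)
    have := congrFun h.2 (mu l)
    simp [← hc, w₀, (rev_ne _).symm] at this
    obtain rfl : A = 1 := Subtype.ext (by simp [← hc, this])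
    exact Subtype.ext (Prod.ext rfl (LinearEquiv.ext fun w => j0 (by simpa using (h.1 w).symm)))
  have hg : Function.Injective g := (injective_iff_map_eq_one _).2 fun ⟨⟨A, B⟩, h⟩ e => by
    obtain rfl : B = 1 := e
    refine Subtype.ext (Prod.ext (sl_ext fun v => ?_) rfl)
    have : v = jj (fun i => (v (em ((kb l).symm i)) + v (em' ((kb l).symm i))) / 2) + ((v (mu l) - v (mu l).rev) / 2) • w₀ l F := by
      ext x
      by_cases c : (pj x).1 = l + 3
      · obtain rfl | rfl : x = mu l ∨ x = (mu l).rev := by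
          simp only [pj, mu, Fin.ext_iff, DN.rev_val] at c ⊢; split_ifs at c <;> omega
        all_goals simp [jj, w₀, em_mid c, rev_ne, (rev_ne _).symm]; field_simp; ring
      · have e : em (pj x) = x := by simp only [pj, em, Fin.ext_iff] at c ⊢; split_ifs at c ⊢ <;> omega
        have := (em_ne c).2.ne
        simp [jj, w₀, em_ne c, e, e ▸ this]; field_simp; ring
    rw [this, mulVec_add, mulVec_smul, h.1, h.2]; simp
  have hγ : ∀ {a b : Jx l}, Ok a b → a.1 ≠ l + 3 → ∀ t c p q r, ∃ γ, f γ = ((psL l F).map (QuotientGroup.mk' _)).Y a b t ∧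
      g γ = (oddF F _).eich (ee a) ((-t) • ee b.rev) c p q r := fun h ha t c p q r =>
    ⟨⟨_, mem_Gr h ha t c p q r⟩, by rw [PS.map_Y]; rfl, rfl⟩
  have k0 : ∀ {a b : Jx l}, Ok a b → a.1 ≠ l + 3 → ∀ t, ((psL l F).map (QuotientGroup.mk' _)).Y a b t ∈
      ((oddF F _).EG.comap g).map f := fun {a b} h ha t => by
    obtain ⟨γ, e, e'⟩ := hγ h ha t _ (Q_ee ha) (by simp [B_ee, ee_apply, h.1]) rfl
    exact ⟨γ, show g γ ∈ _ from e' ▸ Form.eich_mem_EG _ _ _, e⟩
  have k1 : (sysB l F).grp ≤ ((oddF F _).EG.comap g).map f := (sysB l F).U_le_iff.2 fun r _ t => by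
    by_cases c : r.1.1.1 = l + 3
    · have := k0 (ok r).flip (by have := ok_iff.1 (ok r); rw [TB.rev_val]; omega) (-t)
      rwa [PS.Y_flip _ (ok r), neg_neg] at this
    · exact k0 (ok r) c t
  have k : ((sysB l F).grp.comap f).map g ≤ (oddF F _).EG := Subgroup.map_le_iff_le_comap.2
    ((Subgroup.comap_mono k1).trans (Subgroup.comap_map_eq_self_of_injective hf _).le)
  have s : ∀ a : Jx l, a.1 ≠ l + 3 → (oddF F _).SIn (((sysB l F).grp.comap f).map g) ⊤ (ee a) := fun a ha => by
    have ha' : a.rev.1 ≠ l + 3 := by rw [TB.rev_val]; omega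
    exact ⟨trivial, Q_ee ha, fun v _ =>
    Form.Hyp.EIn_of_perp (f := ee a.rev) ⟨Q_ee ha, Q_ee ha', by simp [B_ee, ee_apply, ha', -Fin.val_rev]⟩ (Form.EIn_orth_zero _ _)
      (fun w p q => (Form.EIn_orth_zero _ _).span (S := {x | ∃ b, Ok a b ∧ x = ee b.rev}) (by
        rintro _ ⟨b, h, rfl⟩
        refine ⟨by simp [B_ee, ee_apply, h.1], fun c d p q r => ?_⟩
        obtain ⟨γ, e, e'⟩ := hγ h ha (-c) d p (by simpa using q) (by simpa using r)
        exact ⟨γ, show f γ ∈ (sysB l F).grp by rw [e, ← PS.Y_nm _ h]; exact (sysB l F).x_mem_grp _ _, by simpa using e'⟩) (by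
        rw [pi_eq_sum_univ' w, ← (kb l).sum_comp]
        refine Submodule.sum_mem _ fun b _ => ?_
        by_cases c : Ok a b.rev
        · exact Submodule.smul_mem _ _ (Submodule.subset_span ⟨_, c, by simp [ee]⟩)
        · rw [B_ee, if_neg (by assumption), one_mul] at p q
          rw [ok_rev, Fin.rev_rev, not_and_or, not_not, not_not] at c
          rcases c with rfl | rfl <;> simp_all)) v⟩
  have nd := oddF_nondeg h2 (l + 3)
  have e0 : ((sysB l F).grp.comap f).map g = (oddF F _).Om := (le_antisymm k (Form.Good.top nd (k.trans Form.EG_le_isom)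
    ⟨_, _, s 0 (by simp), s (Fin.rev 0) (by simp; omega), by simp [B_ee, ee_apply]; split_ifs <;> simp [h2]⟩)).trans
      (nd.Om_eq_EG (by simp; omega) (.inr (by simp; omega))).symm
  have e1 := (MulEquiv.subgroupCongr (Subgroup.map_comap_eq_self (k1.trans (Subgroup.map_le_range _ _))).symm).trans
    ((Subgroup.equivMapOfInjective _ _ hf).symm.trans ((Subgroup.equivMapOfInjective _ _ hg).trans (MulEquiv.subgroupCongr e0)))
  have c : Subgroup.center (oddF F (l + 3)).Om = ⊥ := by
    classical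
    exact Subgroup.card_eq_one.1 ((nd.card_center_Om (by simp; omega)).trans (if_neg fun h =>
      Form.neg_notMem_Om_odd nd (by simp [Nat.odd_iff]) h.2))
  exact ⟨e1.trans (QuotientGroup.quotientBot.symm.trans ((QuotientGroup.quotientMulEquivOfEq c.symm).trans
    (quotCenterCongr (omegaEquiv (oddF F _)).symm)))⟩

end H6.TB
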