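import Cfsg.Agent.H6.TB3
import Cfsg.Agent.S0295

/-! The Schur multipliers of the odd dimensional orthogonal groups. -/

set_option autoImplicit false
set_option linter.unusedSectionVars false

namespace H6.TB
open Subgroup Cfsg H5 H6.CA StSys Mult Mult.CE Chev
open scoped commutatorElement

section gen
variable {Φ ι : Type} [Fintype ι] [DecidableEq ι] {R : RS Φ ι} {F : Type*} [Field F] {G E : Type*} [Group G] [Group E]
  {S : StSys R F G}

lemma n_acts (hN : S.NConj) (γ : Φ) : ∃ w c, S.ActsC (S.n γ 1) w c ∧ ∀ s, R.vec (R.act w s) = R.vec s - R.pair γ s • R.vec γ := by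
  obtain ⟨L, i, c, hc, rfl, e⟩ := hN.exists_n_eq γ one_ne_zero
  obtain ⟨d, hd⟩ := hN.acts_nw L
  refine ⟨_, _, e ▸ (hd.mul (hN.actsC i hc)).mul hd.inv, fun s => ?_⟩
  obtain ⟨s, rfl⟩ : ∃ s', s = R.act (R.gen.wp L) s' := ⟨_, (R.act_act_inv _ s).symm⟩
  rw [R.act_mul, R.act_mul, R.act_inv_act, R.pair_act, R.pair_simple, R.vec_act_comb _ (k := R.act (R.s i) s) (r := s)
    (s := R.simple i) (a := 1) (b := -R.A i s) (by simp [R.vec_refl, R.vec_simple, sub_eq_add_neg])]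
  simp [sub_eq_add_neg]

lemma cm_of_refl {τ : E →* G} (h : CE τ) (hN : S.NConj) (hI : S.Inj) (hF : ∀ t : F, t = 0 ∨ t = 1 ∨ t = -1) (h3 : (3 : F) = 0)
    {r s γ : Φ} (e : ∀ t u, S.x r t * S.x s u = S.x s u * S.x r t) (h1 : R.vec s = R.vec r - R.pair γ r • R.vec γ)
    (h2 : R.vec r = R.vec s - R.pair γ s • R.vec γ) (h4 : Even (R.pair γ r)) : h.Cm S r s := by
  obtain ⟨w, c, a, b⟩ := n_acts hN γ
  have a1 := a.conj r
  have a2 := a.conj s
  rw [R.vec_inj ((b r).trans h1.symm)] at a1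
  rw [R.vec_inj ((b s).trans h2.symm)] at a2
  have k := hN.h_conj γ (t := -1) (by simp) r (c s * (c r * 1))
  rw [← a2, ← a1, StSys.h, S.n_neg, h4.neg_one_zpow, one_mul] at k
  have k' := hI.x_injective r (Eq.trans (by group) k : S.x r 1 = S.x r (c s * (c r * 1)))
  refine h.cm_of_swap hF h3 e (ε := c r) ((hF _).resolve_left (a.ne r)) (by simpa using a1 1) ?_
  rw [a2]; congr 1
  rcases (hF _).resolve_left (a.ne r) with p | p <;> rw [p] at k' ⊢
  exacts [by linear_combination -k', by linear_combination k']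

lemma tk_par (h2 : (2 : F) ≠ 0) {r s : Φ} (γ : Φ) (h : (R.pair γ r + R.pair γ s) % 2 = 1) : R.TK F r s := by
  have n : (-1 : F) ≠ 1 := fun e => h2 (by linear_combination -e)
  refine ⟨γ, -1, by simp, ?_⟩
  rcases Int.even_or_odd (R.pair γ r) with a | a <;> rcases Int.even_or_odd (R.pair γ s) with b | b <;>
    simp only [a.neg_one_zpow, b.neg_one_zpow, n, ne_eq, not_false_eq_true, and_self, true_or, or_true] <;>
    simp only [Int.even_iff, Int.odd_iff] at a b <;> omega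

lemma perfect_one (hN : S.NConj) (hS : S.grp = ⊤) (h2 : (2 : F) ≠ 0) (h : ∀ r, ∃ γ, R.pair γ r = 1) : commutator G = ⊤ :=
  hN.eq_top_of_normal hS fun i t => by
    obtain ⟨γ, e⟩ := h (R.simple i)
    have := commutator_mem_commutator (mem_top (S.h γ (-1))) (mem_top (S.x (R.simple i) (-(2⁻¹ * t))))
    rwa [commutatorElement_def, hN.h_conj γ (by simp), ← S.x_neg, ← S.add, e, show (-1) ^ (1 : ℤ) * -(2⁻¹ * t) + - -(2⁻¹ * t) = t by
      field_simp; ring] at this

variable {M : Type*} [CommGroup M] {n : ℕ}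

/-- shifted coordinates -/
def DG (c : Fin n → M) (m : ℕ) : M := if h : 0 < m ∧ m ≤ n then c ⟨m - 1, by omega⟩ else 1

lemma DG_succ (c : Fin n → M) (j : Fin n) : DG c (j + 1) = c j := dif_pos ⟨by omega, by omega⟩
lemma DG_zero (c : Fin n → M) : DG c 0 = 1 := by simp [DG]

lemma prod_DG (c : Fin n → M) (m : ℕ) : ∏ i : Fin n, c i ^ (if i.1 + 1 = m then (1 : ℤ) else 0) = DG c m := by
  unfold DG
  split_ifs with h
  · rw [Finset.prod_eq_single ⟨m - 1, by omega⟩ (fun k _ hk => by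
      rw [if_neg fun e => hk (Fin.ext (by simp only; omega)), zpow_zero]) (by simp), if_pos (by simp only; omega), zpow_one]
  · exact Finset.prod_eq_one fun k _ => by rw [if_neg (by omega), zpow_zero]

lemma DG_pow (c : Fin n → M) {N : ℕ} (h : ∀ j, j + 2 ≤ N → DG c (j + 1) * DG c (j + 1) = DG c j * DG c (j + 2)) :
    ∀ m ≤ N, DG c m = DG c 1 ^ m := fun m => by
  induction m using Nat.twoStepInduction with
  | zero => simp [DG_zero]
  | one => simp
  | more m i1 i2 =>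
    intro hm
    have := h m hm
    rw [i1 (by omega), i2 (by omega), ← pow_add, show m + 1 + (m + 1) = m + (m + 2) by ring, pow_add] at this
    exact (mul_left_cancel this).symm
end gen

variable {l : ℕ} {a b c d : Jx l}

lemma kerB {M : Type*} [CommGroup M] :
    ((rsB l).cm M).ker = (powMonoidHom 2).ker.map (MonoidHom.mulSingle (fun _ => M) (Fin.last _)) := by
  have : ∀ i j : Fin (l + 3), (rsB l).A i ((rsB l).simple j) = (if i.1 + 1 = j + 1 then 1 else 0) + (if i.1 + 1 = j + 1 then 1 else 0) -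
      ((if i.1 + 1 = j.1 then 1 else 0) + (if i.1 + 1 = if j.1 ≤ l + 1 then j.1 + 2 else 0 then 1 else 0) +
        if i.1 + 1 = if j.1 = l + 1 then l + 3 else 0 then 1 else 0) := fun i j => by
    simp only [rsB, wB, w0, dd, ip, sB]; grind (splits := 30)
  ext c
  simp only [MonoidHom.mem_ker, RS.cm, MonoidHom.mk'_apply, funext_iff, this, zpow_sub, zpow_add, Finset.prod_mul_distrib,
    Finset.prod_inv_distrib, prod_DG, Pi.one_apply, mul_inv_eq_one, Fin.forall_iff]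
  constructor
  · intro h
    have k := DG_pow c (N := l + 2) fun j hj => by
      simpa [DG_zero, show j ≤ l + 1 by omega, show j ≠ l + 1 by omega] using h j (by omega)
    have h1 := h (l + 1) (by omega)
    have h2 := h (l + 2) (by omega)
    rw [if_neg (by omega), if_neg (by omega), DG_zero, mul_one, mul_one, k (l + 2) le_rfl] at h2
    rw [if_pos le_rfl, if_pos rfl, mul_assoc, h2, k (l + 2) le_rfl, k (l + 1) (by omega), mul_left_inj, pow_succ,
      mul_eq_left] at h1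
    refine ⟨DG c (l + 3), show DG c (l + 3) ^ 2 = 1 by rw [sq, h2, h1, one_pow], funext fun j => ?_⟩
    rw [← DG_succ c j]
    by_cases e : j = Fin.last _
    · simp [e]
    · rw [k (j + 1) (by have := Fin.val_ne_of_ne e; simp at this; omega), h1]; simp [e]
  · rintro ⟨y, hy, rfl⟩ j hj
    have hy : y * y = 1 := by rw [← sq]; exact hy
    simp only [DG, MonoidHom.mulSingle_apply, Pi.mulSingle_apply, Fin.ext_iff, Fin.val_last]
    split_ifs <;> first | omega | simp [hy]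

lemma pair_nm (h : Ok a b) (s : RB l) :
    (rsB l).pair (nm a b) s = ln a b * (ip l a s.1.1 - ip l a s.1.2 - (ip l b s.1.1 - ip l b s.1.2)) := by
  rw [pairB, h.ln, ← h.diff (f := fun a => ip l a s.1.1 - ip l a s.1.2) fun a => by
    simp only [ip_comm a.rev.1, ip_rev, ip_comm a.1]; ring]
  simp only [pr]; ring

lemma exists_free (L : List (Jx l)) (h : L.length ≤ l + 2) : ∃ k : Jx l, k.1 ≠ l + 3 ∧ ∀ x ∈ L, Ok x k := by
  obtain ⟨k, hk⟩ := exists_notMem (l := l + 3) (Fin.last _ :: L.map fun x : Jx l => ⟨min x.1 (2 * l + 6 - x.1), by omega⟩)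
    (by simpa using h)
  refine ⟨⟨k, by omega⟩, fun e => hk (by simp [Fin.ext_iff, show k.1 = l + 3 from e]), fun x hx => ?_⟩
  have := Fin.val_ne_of_ne fun e : k = _ => hk (e ▸ List.mem_cons_of_mem _ (List.mem_map_of_mem hx))
  simp only [ok_iff] at this ⊢; omega

lemma oneB (r : RB l) : ∃ γ, (rsB l).pair γ r = 1 := by
  obtain ⟨k, hk, e⟩ := exists_free [r.1.1, r.1.2] (by simp)
  simp only [List.mem_cons, List.not_mem_nil, or_false, forall_eq_or_imp, forall_eq] at e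
  have := ok_iff.1 (ok r)
  by_cases c : r.1.1.1 = l + 3
  · exact ⟨nm k r.1.2, by rw [pair_nm e.2.symm]; simp only [ln, ip, ok_iff] at *; grind⟩
  · exact ⟨nm r.1.1 k, by rw [pair_nm e.1]; simp only [ln, ip, ok_iff] at *; grind⟩

lemma nm_eq (h : Ok a b) (h' : Ok c d) : nm a b = nm c d ↔ a.1 = c ∧ b.1 = d ∨ a.1 + d = 2 * l + 6 ∧ b.1 + c = 2 * l + 6 := by
  rcases h.nm with ⟨p, e, -⟩ | ⟨p, e, -⟩ <;> rcases h'.nm with ⟨p', e', -⟩ | ⟨p', e', -⟩ <;>
    simp only [Subtype.ext_iff, e, e', Prod.mk.injEq, Fin.ext_iff, rev_val] <;> omega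

lemma neg_nm (h : Ok a b) : (rsB l).neg (nm a b) = nm b a := by
  rcases h.nm with ⟨p, e, -⟩ | ⟨p, e, -⟩ <;> rcases h.symm.nm with ⟨p', e', -⟩ | ⟨p', e', -⟩ <;>
    simp only [rsB, Subtype.ext_iff, e, e'] <;> omega

lemma terms_nm (h : Ok a b) (h' : Ok b d) (h'' : Ok a d) : (rsB l).terms (nm a b) (nm b d) = tm a b d (ns a b) (ns b d) := by
  have := h''.flip
  rcases h.nm with ⟨p, e, f⟩ | ⟨p, e, f⟩ <;> rcases h'.nm with ⟨p', e', f'⟩ | ⟨p', e', f'⟩ <;>
    simp only [rsB, e, e', f, f', Fin.rev_rev, h'', this, and_self, if_true] <;>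
    simp only [ok_iff, Fin.ext_iff, rev_val] at * <;> split_ifs <;> first | rfl | omega

lemma terms_nil {r s : RB l} (h : 0 ≤ pr r s) (e : ln r.1.1 r.1.2 = 1 ∨ ln s.1.1 s.1.2 = 1) : (rsB l).terms r s = [] := by
  have := ok_iff.1 (ok r); have := ok_iff.1 (ok s)
  simp only [rsB]
  split_ifs with e1 e2 e3 e4
  all_goals first | rfl | (exfalso; simp only [pr, ip, ln, ok_iff, Fin.ext_iff, rev_val] at *; grind (splits := 30))

lemma ns_pm (a b : Jx l) : ns a b = 1 ∨ ns a b = -1 := by unfold ns; split_ifs <;> simp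

lemma rk2B : (rsB l).Rk2 := fun i => by
  have o := ok (sB i)
  obtain ⟨k, hk, e⟩ := exists_free [(sB i).1.1, (sB i).1.2] (by simp)
  simp only [List.mem_cons, List.not_mem_nil, or_false, forall_eq_or_imp, forall_eq] at e
  have s : (rsB l).simple i = nm (sB i).1.1 (sB i).1.2 := (nm_self _).symm
  have n : (sB i).1.1.1 ≠ l + 3 := by simp only [sB]; omega
  rw [s]
  generalize (sB i).1.1 = a at *
  generalize (sB i).1.2 = d at *
  have k1 : Ok a k.rev := by simp only [ok_iff, rev_val] at *; omega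
  refine ⟨nm a k, nm k d, ns a d * (ns a k * ns k d), 1, 1, ?_, ?_, ?_, .inl rfl, ?_⟩
  rotate_left 2
  · rcases ns_pm a d with p | p <;> rcases ns_pm a k with q | q <;> rcases ns_pm k d with r | r <;> simp [p, q, r]
  · simp only [terms_nm e.1 e.2.symm o, tm, hk, n, if_false, neg_nm o]
    split_ifs <;> simp [nm_eq, e, e.2.symm, o, o.symm, k1] <;> simp only [ok_iff, rev_val] at * <;> omega
  all_goals simp only [neg_nm e.1, ne_eq, nm_eq, e, e.1.symm, e.2.symm]; simp only [ok_iff] at *; omega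

lemma typeB {r s : RB l} (e : pr r s = 0) (hr : ln r.1.1 r.1.2 = 1) (hs : ln s.1.1 s.1.2 = 1)
    (c : ¬ (Ok r.1.1 s.1.1 ∧ Ok r.1.1 s.1.2 ∧ Ok r.1.2 s.1.1 ∧ Ok r.1.2 s.1.2)) :
    ∃ x y, Ok x y ∧ x.1 ≠ l + 3 ∧ y.1 ≠ l + 3 ∧ r = nm x y ∧ s = nm x y.rev := by
  have p := ok r
  have q := ok s
  have p1 : Ok r.1.1 r.1.2.rev := by simp only [ok_iff, rev_val] at p ⊢; omega
  have p2 : Ok r.1.2.rev r.1.1.rev.rev := by simp only [ok_iff, rev_val] at p ⊢; omega
  by_cases d : s.1.1 = r.1.1 ∨ s.1.2 = r.1.1.rev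
  · refine ⟨_, _, p, ?_, ?_, (nm_self r).symm, (nm_self s).symm.trans ((nm_eq q p1).2 ?_)⟩ <;>
    simp only [pr, ip, ln, ok_iff, rev_val, Fin.ext_iff] at * <;> grind (splits := 30)
  · refine ⟨_, _, p.flip, ?_, ?_, (nm_self r).symm.trans ((nm_eq p p.flip).2 ?_), (nm_self s).symm.trans ((nm_eq q p2).2 ?_)⟩ <;>
    simp only [pr, ip, ln, ok_iff, rev_val, Fin.ext_iff] at * <;> grind (splits := 30)

lemma sh_par (hl : l ≠ 0) (r s : RB l) (e : pr r s = 0) (c : ln s.1.1 s.1.2 ≠ 1) :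
    ∃ γ, ((rsB l).pair γ r + (rsB l).pair γ s) % 2 = 1 := by
  have p := ok r
  have q := ok s
  obtain ⟨k, hk, f⟩ := exists_free [r.1.1, r.1.2, if s.1.1.1 = l + 3 then s.1.2 else s.1.1] (by simp; omega)
  simp only [List.mem_cons, List.not_mem_nil, or_false, forall_eq_or_imp, forall_eq] at f
  refine ⟨nm (if s.1.1.1 = l + 3 then s.1.2 else s.1.1) k, ?_⟩
  simp only [pair_nm f.2.2, pr, ip, ln, ok_iff, apply_ite Fin.val] at *
  grind (splits := 40)

lemma nz_par {r s : RB l} (h1 : s ≠ r) (h2 : s ≠ (rsB l).neg r) (e : pr r s ≠ 0) :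
    ∃ γ, ((rsB l).pair γ r + (rsB l).pair γ s) % 2 = 1 := by
  have : ln r.1.1 r.1.2 = 1 ∧ pr r r = 2 ∧ pr r s % 2 = 1 ∨ ln s.1.1 s.1.2 = 1 ∧ pr s s = 2 ∧ pr r s % 2 = 1 := by
    have := r.2.2; have := s.2.2; have := ok r; have := ok s
    simp only [rsB, pr, ip, ln, ok_iff, ne_eq, Subtype.ext_iff, Prod.ext_iff, Fin.ext_iff] at *
    grind (splits := 40)
  rcases this with c | c
  exacts [⟨r, by simp only [pairB, c]; omega⟩, ⟨s, by simp only [pairB, c, pr_comm s r]; omega⟩]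

lemma refl_data {x y m : Jx l} (o : Ok x y) (hx : x.1 ≠ l + 3) (hy : y.1 ≠ l + 3) (hm : m.1 = l + 3) :
    (rsB l).pair (nm y m) (nm x y) = -2 ∧ (rsB l).pair (nm y m) (nm x y.rev) = 2 ∧
      vB (nm x y.rev) = vB (nm x y) + (2 : ℤ) • vB (nm y m) := by
  have o' : Ok x y.rev := by simp only [ok_iff, rev_val] at o ⊢; omega
  have a : Ok y m := by simp only [ok_iff]; omega
  have k := fun {x z : Jx l} (o : Ok x z) => o.diff (f := fun c => ip l y c - ip l m c) fun c => by simp only [ip_rev]; ring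
  have v := fun {a b : Jx l} (h : Ok a b) (x : Fin (l + 3)) => h.diff (f := fun a => uu l x a) (uu_rev x)
  have z : ∀ x : Fin (l + 3), uu l x m = 0 := fun x => by simp only [uu]; split_ifs <;> omega
  refine ⟨?_, ?_, funext fun j => by simp [vB, v o, v o', v a, uu_rev, z, -Fin.val_rev]; ring⟩
  · have := k o
    rw [pair_nm a, show ∀ a b c d : ℤ, a - b - (c - d) = a - c - (b - d) from fun _ _ _ _ => by ring, this]
    simp only [ln, ip, ok_iff, hm, or_true, if_true] at o ⊢; split_ifs <;> omega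
  · have := k o'
    rw [pair_nm a, show ∀ a b c d : ℤ, a - b - (c - d) = a - c - (b - d) from fun _ _ _ _ => by ring, this]
    simp only [ln, ip, ok_iff, rev_val, hm, or_true, if_true] at o ⊢; split_ifs <;> omega

lemma dis_data {s : RB l} (o : Ok a b) (f : (Ok a s.1.1 ∧ Ok a s.1.2) ∧ Ok b s.1.1 ∧ Ok b s.1.2) :
    s ≠ nm a b ∧ s ≠ (rsB l).neg (nm a b) ∧ 0 ≤ pr (nm a b) s := by
  have q := ok s
  refine ⟨?_, ?_, ?_⟩
  · rw [← nm_self s, ne_eq, nm_eq q o]; simp only [ok_iff] at *; omega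
  · rw [← nm_self s, neg_nm o, ne_eq, nm_eq q o.symm]; simp only [ok_iff] at *; omega
  · have := (pairB _ s).symm.trans (pair_nm o s)
    rw [o.ln] at this
    simp only [ip, ln, ok_iff] at *; grind

variable {F G E : Type*} [Field F] [Group G] [Group E]

theorem lfB {S : ChevSys (rsB l) F G} (h3 : S.R3) (h2 : (2 : F) ≠ 0) (hF : (∃ s : Finset F, 4 < s.card) ∨
    l ≠ 0 ∧ (∀ t : F, t = 0 ∨ t = 1 ∨ t = -1) ∧ (3 : F) = 0) {τ : E →* G} (h : CE τ) :
    ∃ Y : StSys (rsB l) F E, ∀ r t, τ (Y.x r t) = S.x r t := by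
  obtain ⟨m, hm⟩ : ∃ m : Jx l, m.1 = l + 3 := ⟨⟨l + 3, by omega⟩, rfl⟩
  refine h.exists_lift_of S.inj (fun r => ?_) fun r s h1 h1' => ?_
  · obtain ⟨γ, e⟩ := oneB r
    exact h.exists_liftR S.nconj h3 (γ := γ) (l := -1) (by simp) (by rw [e, zpow_one]; exact fun e => h2 (by linear_combination -e))
      (hF.elim (fun c => h.cm_of_one S.nconj c e) fun c => h.cm_self c.2.1 r)
  have p := ok r
  by_cases e : pr r s = 0
  swap; · exact (nz_par h1 h1' e).elim fun γ k => .inl (kill_of_TK (tk_par h2 γ k))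
  rcases hF with hF | ⟨hl, hF, h4⟩
  · obtain ⟨v, h0, hv⟩ := exists_zpow_ne (m := 2) (four_of_five hF) (k := 2) (by simp) (by simp)
    exact .inl (kill_of_TK ⟨r, v, h0, .inl ⟨by simp [pairB, e], by rwa [RS.pair_self]⟩⟩)
  by_cases c : ln s.1.1 s.1.2 = 1
  swap; · exact (sh_par hl r s e c).elim fun γ k => .inl (kill_of_TK (tk_par h2 γ k))
  by_cases c' : ln r.1.1 r.1.2 = 1
  swap; · exact (sh_par hl s r (pr_comm r s ▸ e) c').elim fun γ k => .inl (kill_of_TK (tk_par h2 γ (by omega)))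
  refine .inr ⟨?_, terms_nil e.ge (.inr c)⟩
  have cm : ∀ {r : RB l}, s ≠ r ∧ s ≠ (rsB l).neg r ∧ 0 ≤ pr r s → ∀ t u, S.x r t * S.x s u = S.x s u * S.x r t :=
    fun a t u => (S.commute_of_terms a.1 a.2.1 (by simp [terms_nil a.2.2 (.inr c)]) t u).symm
  by_cases d : Ok r.1.1 s.1.1 ∧ Ok r.1.1 s.1.2 ∧ Ok r.1.2 s.1.1 ∧ Ok r.1.2 s.1.2
  · obtain ⟨a1, a2⟩ : Ok r.1.1 m ∧ Ok m r.1.2 := by simp only [ln, ok_iff] at c' ⊢; split_ifs at c' <;> omega
    have a3 : Ok m s.1.1 ∧ Ok m s.1.2 := by simp only [ln, ok_iff] at c ⊢; split_ifs at c <;> omega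
    refine h.cm_of_terms (a := nm r.1.1 m) (b := nm m r.1.2) (L₁ := []) (L₂ := []) (N := 2 * ns r.1.1 m * ns m r.1.2) (j := 1)
      ?_ ?_ (by simp [terms_nm a1 a2 p, tm, hm, nm_self, ns_self]) ?_ (cm (dis_data a1 ⟨⟨d.1, d.2.1⟩, a3⟩))
      (cm (dis_data a2 ⟨a3, d.2.2⟩)) (by simp)
    · rw [ne_eq, nm_eq a2 a1]; simp only [ok_iff] at a1 a2 p; omega
    · rw [neg_nm a1, ne_eq, nm_eq a2 a1.symm]; simp only [ok_iff] at a1 a2 p; omega
    · rcases ns_pm r.1.1 m with a | a <;> rcases ns_pm m r.1.2 with b | b <;> simp [a, b, h2]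
  have cm := cm ⟨h1, h1', e.ge⟩
  obtain ⟨x, y, o, hx, hy, rfl, rfl⟩ := typeB e c' c d
  obtain ⟨k1, k2, k3⟩ := refl_data o hx hy hm
  exact cm_of_refl h S.nconj S.inj hF h4 (γ := nm y m) cm (by rw [k1]; simpa [rsB] using k3) (by rw [k2]; simp [rsB, k3])
    (by simp [k1])

universe u in
lemma injB {F : Type u} {G : Type*} [Field F] [Group G] {S : StSys (rsB l) F G}
    (hS : ∀ {A : Type u} [Ring A] [Algebra F A] (Y : StSys (rsB l) F Aˣ), ∃ φ : G →* Aˣ, ∀ r t, φ (S.x r t) = Y.x r t)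
    (hN : S.NConj) (h3 : S.R3) (c) (hc : c ∈ ((rsB l).cm Fˣ).ker) (h : hN.Theta h3 c = 1) : c = 1 := by
  obtain ⟨Q, v, _, hv⟩ := DN.exists_Cl F (2 * l + 7 + 1) fun a => (DN.rev_ne a).symm
  let P : PS l F _ := .of (DN.XS hv) (fun h t u => Units.ext (by
    simp [DN.XS, DN.un, mul_add, add_mul, DN.NN hv h]; module)) (DN.XS_flip hv) (DN.s1 hv) (DN.s0 hv)
  obtain ⟨φ, hφ⟩ := hS P.st
  obtain ⟨y, -, rfl⟩ := kerB.le hc
  obtain ⟨p, hp, k⟩ := hv.vacuum (Finset.univ.filter fun a => a.1 ≤ l + 3) (by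
    simp only [Finset.mem_filter, ne_eq, Fin.ext_iff, DN.rev_val]; omega)
  simp only [Finset.mem_filter, Finset.mem_univ, true_and] at k
  have := DN.vac hN h3 hφ hp (j := Fin.last _) (fun i c hc => ?_) h
  · simp only [MonoidHom.mulSingle_apply, Pi.mulSingle_eq_same] at this
    rw [this, map_one]
  rw [(st_n (S := DN.stS F hv) (fun r _ => by simp only [P, PS.of, dif_pos (DN.ok r)]; rfl) _).2]
  have a := (DN.stS_h hv (r1 ((rsB l).simple i)) (k _ (by simp only [r1, rsB, sB, em]; grind)) hc).1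
    (k _ (by simp only [r1, rsB, sB, em]; grind))
  by_cases e : i = Fin.last _
  · subst e
    rw [if_pos (by simp [rsB, sB]), if_pos rfl, Units.val_mul, mul_assoc, (DN.stS_h hv _ (k _ (by simp [r2, rsB, sB, em'])) hc).2
      (k _ (by simp [r2, rsB, sB, em']; omega)), mul_smul_comm, a]
  · have := Fin.val_ne_of_ne e
    rw [if_neg (by simp only [rsB, sB, Fin.val_last] at this ⊢; omega), if_neg e, mul_one, a, one_smul]

theorem schurB {F : Type*} [Field F] [Fintype F] (hq : Odd (Fintype.card F)) (hF : l = 0 → Fintype.card F ≠ 3) :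
    HasCyclicSchurMultiplier (POmega F (quadFormOdd (l + 3) F)) 2 := by
  have h2 : (2 : F) ≠ 0 := fun e => by
    obtain ⟨k, hk⟩ := hq
    simpa [hk, e] using FiniteField.cast_card_eq_zero F
  obtain ⟨i⟩ := isoB (F := F) (l := l) h2
  obtain ⟨e⟩ := DN.mu_equiv F 2
  rw [show Nat.gcd 2 (Fintype.card F - 1) = 2 from Nat.gcd_eq_left (by obtain ⟨k, hk⟩ := hq; omega)] at e
  have := Cfsg.Agent.S0295.result (F := F) hq (l + 3) (by omega)
  have hS := DN.tr_grp (S := (sysB l F).restrict) StSys.restrict_grp i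
  have : Finite (POmega F (quadFormOdd (l + 3) F)) := Finite.of_equiv _ i.toEquiv
  set S := DN.tr (sysB l F).restrict i
  have hZ : center (POmega F (quadFormOdd (l + 3) F)) = ⊥ :=
    (IsSimpleGroup.eq_bot_or_eq_top_of_normal _ inferInstance).resolve_right fun h => by
      have := perfect_one S.nconj hS h2 oneB
      rw [(commutator_eq_bot_iff_center_eq_top _).2 h] at this
      exact bot_ne_top this
  have r3 : S.R3 := S.nconj.r3 fun y _ hy => mem_bot.1 (hZ.le (mem_center_iff.2 fun a => by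
    have : S.grp ≤ centralizer {y} := S.U_le_iff.2 fun r _ t => mem_centralizer_singleton_iff.2
      (mul_inv_eq_iff_eq_mul.1 (hy r t)).symm
    exact mem_centralizer_singleton_iff.1 (this (hS.ge (mem_top a)))))
  refine DN.schur_sys S rk2B hS hZ (perfect_one (S.pull rk2B _ S.lift_x).nconj (cover_grp _ _) h2 oneB)
    (injB fun Y => ⟨Y.lift, Y.lift_x⟩) ((MulEquiv.subgroupCongr kerB).trans ((equivMapOfInjective _ _
      (Pi.mulSingle_injective (M := fun _ => Fˣ) _)).symm.trans e)) fun _ _ _ h => lfB r3 h2 ?_ h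
  by_cases c : 4 < Fintype.card F
  · exact .inl ⟨Finset.univ, c⟩
  have c3 : Fintype.card F = 3 := by have := Fintype.one_lt_card (α := F); obtain ⟨k, hk⟩ := hq; omega
  exact .inr ⟨fun e => hF e c3, (four_or_three (exists_ne_of_card (by omega))).resolve_left fun ⟨s, hs⟩ => by
    have := s.card_le_univ; omega⟩

end H6.TB
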