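import Cfsg.Agent.H6.TB4

/-! The root system of type `C`. -/

set_option autoImplicit false
set_option linter.unusedSectionVars false

namespace H6.TC
open H6.CA

variable {l : ℕ}

/-- indices of the natural basis -/
abbrev Kx (l : ℕ) := Fin (2 * l + 3 + 1)
/-- roots of type `C` -/
abbrev RC (l : ℕ) := {p : Kx l × Kx l // p.1 ≠ p.2 ∧ p.1.1 + p.2.1 ≤ 2 * l + 3}
/-- inner products of the weights -/
def ip (l a c : ℕ) : ℤ := (if a = c then 1 else 0) - if a + c = 2 * l + 3 then 1 else 0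
/-- fundamental coweights -/
def uu (l k a : ℕ) : ℤ := if a ≤ k then 1 else if k ≤ l ∧ 2 * l + 3 ≤ a + k then -1 else 0
/-- lengths of the simple roots -/
def dd (l k : ℕ) : ℤ := if k = l + 1 then 2 else 1
/-- simple coroots -/
def wC (l k a : ℕ) : ℤ := ip l k a - if k = l + 1 then 0 else ip l (k + 1) a
/-- simple reflections -/
def sv (l k a : ℕ) : ℕ := if a = k then k + 1 else if a = k + 1 then k else
  if a + k = 2 * l + 3 then 2 * l + 2 - k else if a + k = 2 * l + 2 then 2 * l + 3 - k else a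
/-- simple reflections -/
def sg (k : Fin (l + 2)) (a : Kx l) : Kx l := ⟨sv l k a, by simp only [sv]; split_ifs <;> omega⟩
/-- signs of the monomial elements -/
def sn (l k a : ℕ) : ℤ := if a = k ∨ a + k = 2 * l + 3 ∧ k ≤ l then -1 else 1
/-- signs of the form -/
def sf (a : Kx l) : ℤ := if a.1 ≤ l + 1 then 1 else -1
/-- signs of the flips -/
def fl (a b : Kx l) : ℤ := -(sf a * sf b)
/-- the root of a pair -/
def nm (a b : Kx l) : RC l := if c : a ≠ b ∧ a.1 + b.1 ≤ 2 * l + 3 then ⟨(a, b), c⟩ else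
  if c : b.rev ≠ a.rev ∧ b.rev.1 + a.rev.1 ≤ 2 * l + 3 then ⟨(b.rev, a.rev), c⟩ else ⟨(0, 1), by simp⟩
/-- the sign of a pair -/
def ns (a b : Kx l) : ℤ := if a.1 + b.1 ≤ 2 * l + 3 then 1 else fl a b
/-- lengths of the roots -/
def ln (a b : Kx l) : ℤ := if a.1 + b.1 = 2 * l + 3 then 2 else 1

variable {a b c d : Kx l}

lemma rev_val (a : Kx l) : a.rev.1 = 2 * l + 3 - a := by rw [Fin.val_rev]; omega
lemma rev_ne (a : Kx l) : a.rev ≠ a := fun e => by have := congrArg Fin.val e; rw [rev_val] at this; omega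
lemma nm_self (r : RC l) : nm r.1.1 r.1.2 = r := dif_pos r.2
lemma ns_self (r : RC l) : ns r.1.1 r.1.2 = 1 := if_pos r.2.2
lemma flip (h : a ≠ b) : b.rev ≠ a.rev := Fin.rev_injective.ne h.symm
lemma sf_rev (a : Kx l) : sf a.rev = -sf a := by simp only [sf, rev_val]; split_ifs <;> omega
lemma sf_pm (a : Kx l) : sf a = 1 ∨ sf a = -1 := by unfold sf; split_ifs <;> simp
lemma fl_pm (a b : Kx l) : fl a b = 1 ∨ fl a b = -1 := by simp only [fl, sf]; split_ifs <;> simp
lemma ns_pm (a b : Kx l) : ns a b = 1 ∨ ns a b = -1 := by unfold ns; split_ifs <;> simp [fl_pm]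
lemma fl_rev (a b : Kx l) : fl b.rev a.rev = fl a b := by simp [fl, sf_rev, mul_comm]

lemma nm_cases (h : a ≠ b) : (a.1 + b.1 ≤ 2 * l + 3 ∧ (nm a b).1 = (a, b) ∧ ns a b = 1) ∨
    (2 * l + 3 < a.1 + b.1 ∧ (nm a b).1 = (b.rev, a.rev) ∧ ns a b = fl a b) := by
  by_cases c : a.1 + b.1 ≤ 2 * l + 3
  · exact .inl ⟨c, by rw [nm, dif_pos ⟨h, c⟩], if_pos c⟩
  · exact .inr ⟨by omega, by rw [nm, dif_neg fun e => c e.2, dif_pos ⟨flip h, by simp only [rev_val]; omega⟩], if_neg c⟩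

lemma diff (h : a ≠ b) {f : Kx l → ℤ} {c : ℤ} (hf : ∀ a, f a.rev = c - f a) : f (nm a b).1.1 - f (nm a b).1.2 = f a - f b := by
  rcases nm_cases h with ⟨-, e, -⟩ | ⟨-, e, -⟩ <;> simp [e, hf]

lemma ln_nm (h : a ≠ b) : ln (nm a b).1.1 (nm a b).1.2 = ln a b := by
  rcases nm_cases h with ⟨-, e, -⟩ | ⟨-, e, -⟩ <;> simp only [e, ln, rev_val]; grind

lemma uu_rev (k : Fin (l + 2)) (a : Kx l) : uu l k a.rev = (if k.1 ≤ l then 0 else 1) - uu l k a := by
  simp only [uu, rev_val]; split_ifs <;> omega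
lemma ip_rev (c : ℕ) (a : Kx l) : ip l c a.rev = 0 - ip l c a := by
  simp only [ip, rev_val]; split_ifs <;> omega
lemma ip_comm (a c : ℕ) : ip l a c = ip l c a := by simp only [ip, add_comm a, eq_comm (a := a)]
lemma wC_rev (k : ℕ) (a : Kx l) : wC l k a.rev = 0 - wC l k a := by simp only [wC, ip_rev]; split_ifs <;> ring
lemma dd_wC (k : Fin (l + 2)) (a : ℕ) : dd l k * wC l k a = ip l k a - ip l (k + 1) a := by
  simp only [dd, wC, ip]; split_ifs <;> omega
lemma sg_rev (k : Fin (l + 2)) (a : Kx l) : sg k a.rev = (sg k a).rev := Fin.ext (by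
  simp only [sg, sv, rev_val]; split_ifs <;> omega)
lemma sg_sg (k : Fin (l + 2)) (a : Kx l) : sg k (sg k a) = a := Fin.ext (by
  simp only [sg, sv]; split_ifs <;> omega)
lemma sn_rev (k : Fin (l + 2)) (a : Kx l) : sn l k a.rev = sn l k a * (sf a * sf (sg k a)) := by
  simp only [sn, sf, sg, sv, rev_val]; split_ifs <;> omega
lemma uu_sg (k j : Fin (l + 2)) (a : Kx l) : uu l j (sg k a) = uu l j a - if j = k then wC l k a else 0 := by
  simp only [uu, sg, sv, wC, ip, Fin.ext_iff]; grind (splits := 40)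
lemma sg_ne (h : a ≠ b) (k) : sg k a ≠ sg k b := (show Function.Involutive (sg k) from sg_sg k).injective.ne h
lemma long_iff : a.1 + b.1 = 2 * l + 3 ↔ b = a.rev := by rw [Fin.ext_iff, rev_val]; omega
lemma long_sg (k : Fin (l + 2)) (a b : Kx l) : (sg k a).1 + (sg k b).1 = 2 * l + 3 ↔ a.1 + b.1 = 2 * l + 3 := by
  rw [long_iff, long_iff, ← sg_rev, (show Function.Involutive (sg k) from sg_sg k).injective.eq_iff]
lemma sn_sg (k : Fin (l + 2)) (a : Kx l) : sn l k a * sn l k (sg k a) = (-1) ^ (wC l k a).natAbs := by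
  simp only [sn, sg, sv, wC, ip]; split_ifs <;> first | omega | rfl

lemma sum_uu (a c : Kx l) : ∑ k : Fin (l + 2), uu l k a * (dd l k * wC l k c) = ip l a c + ip l (l + 1) c := by
  wlog h : c.1 ≤ l + 1 generalizing c
  · have := this c.rev (by rw [rev_val]; omega)
    simp only [wC_rev, ip_rev, zero_sub, mul_neg, Finset.sum_neg_distrib] at this
    omega
  have : ∀ k : Fin (l + 2), dd l k * wC l k c = (if c.1 = l + 1 then 2 else 1) * (if k.1 = c then 1 else 0) -
      (if 0 < c.1 then 1 else 0) * (if k.1 = c - 1 then 1 else 0) := fun k => by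
    simp only [dd, wC, ip]; split_ifs <;> omega
  simp only [this, mul_sub, mul_left_comm (uu _ _ _), Finset.sum_sub_distrib, ← Finset.mul_sum, DN.sum_ind (fun k => uu l k a)]
  have := a.2
  simp only [uu, ip, ite_mul, one_mul, zero_mul]; grind

/-- coordinates of a root -/
def vC (r : RC l) (k : Fin (l + 2)) : ℤ := uu l k r.1.1 - uu l k r.1.2
/-- coordinates of a coroot -/
def cC (r : RC l) (k : Fin (l + 2)) : ℤ := vC r k * dd l k / ln r.1.1 r.1.2
/-- inner product of two roots -/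
def pr (r s : RC l) : ℤ := ip l r.1.1 s.1.1 - ip l r.1.1 s.1.2 - ip l r.1.2 s.1.1 + ip l r.1.2 s.1.2

lemma cC_mul (r : RC l) (k : Fin (l + 2)) : ln r.1.1 r.1.2 * cC r k = vC r k * dd l k := Int.mul_ediv_cancel' (by
  simp only [ln, vC, uu, dd]; split_ifs <;> omega)

lemma sum_vC (r s : RC l) : ∑ k, vC r k * (dd l k * (wC l k s.1.1 - wC l k s.1.2)) = pr r s := by
  simp only [vC, sub_mul, mul_sub, Finset.sum_sub_distrib, sum_uu, pr]; ring

lemma sum_cC (r s : RC l) : ln r.1.1 r.1.2 * ∑ k, cC r k * (wC l k s.1.1 - wC l k s.1.2) = pr r s := by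
  simp only [Finset.mul_sum, ← mul_assoc, cC_mul, ← sum_vC]

lemma vC_pos {r : RC l} : 0 ≤ vC r ↔ r.1.1 < r.1.2 := by
  obtain ⟨⟨⟨i, hi⟩, j, hj⟩, h, h'⟩ := r
  simp only [ne_eq, Fin.mk.injEq, Fin.mk_lt_mk] at h h' ⊢
  refine ⟨fun e => by_contra fun c => ?_, fun e k => ?_⟩
  · have := e ⟨j, by omega⟩
    simp only [vC, uu, Pi.zero_apply] at this; split_ifs at this <;> omega
  · simp only [vC, uu, Pi.zero_apply]; split_ifs <;> omega

lemma vC_refl (k : Fin (l + 2)) (s : RC l) : vC (nm (sg k s.1.1) (sg k s.1.2)) =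
    vC s - (wC l k s.1.1 - wC l k s.1.2) • Pi.single k 1 := funext fun j => by
  refine (diff (sg_ne s.2.1 k) (f := fun a => uu l j a) (uu_rev j)).trans ?_
  simp only [uu_sg, vC, Pi.sub_apply, Pi.smul_apply, Pi.single_apply]; split_ifs <;> simp; ring

/-- simple roots -/
def sC (k : Fin (l + 2)) : RC l := ⟨(⟨k, by omega⟩, ⟨k + 1, by omega⟩), by simp only [ne_eq, Fin.mk.injEq]; omega⟩

lemma A_pr (k : Fin (l + 2)) (s : RC l) : dd l k * (wC l k s.1.1 - wC l k s.1.2) = pr (sC k) s := by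
  simp only [mul_sub, dd_wC, pr, sC]; ring
lemma pr_comm (r s : RC l) : pr r s = pr s r := by
  simp only [pr, ip_comm r.1.1, ip_comm r.1.2]; ring
lemma dd_ne (k : ℕ) : dd l k ≠ 0 := by simp only [dd]; split_ifs <;> simp
lemma ln_ne (a b : Kx l) : ln a b ≠ 0 := by simp only [ln]; split_ifs <;> simp

lemma pr_two {r s : RC l} (h : pr s r = pr r r) (h' : pr s s = pr r r) : s = r := by
  have := Fin.val_ne_of_ne r.2.1
  have := Fin.val_ne_of_ne s.2.1
  have := r.2.2
  have := s.2.2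
  simp only [pr, ip, Subtype.ext_iff, Prod.ext_iff, Fin.ext_iff] at h h' ⊢
  grind (splits := 30)

/-- commutator of composable pairs -/
def tm (a b d : Kx l) (ε δ : ℤ) : List (RC l × ℤ × ℕ × ℕ) :=
  if d = a.rev then [(nm a d, ns a d * (2 * ε * δ), 1, 1)] else (nm a d, ns a d * (ε * δ), 1, 1) ::
    if b = a.rev then [(nm d.rev d, ns d.rev d * (fl a d * ε), 1, 2)] else
      if d = b.rev then [(nm a a.rev, ns a a.rev * -(fl a b * δ), 2, 1)] else []

lemma tm_vec (h : a ≠ d) {ε δ k c i j} (e : (k, c, i, j) ∈ tm a b d ε δ) :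
    0 < i ∧ 0 < j ∧ ∀ x : Fin (l + 2), vC k x = i * (uu l x a - uu l x b) + j * (uu l x b - uu l x d) := by
  have q := fun {a b : Kx l} (h : a ≠ b) (x : Fin (l + 2)) => diff h (f := fun a => uu l x a) (uu_rev x)
  unfold tm at e
  have m : ∀ x : Fin (l + 2), vC (nm a d) x = (1 : ℕ) * (uu l x a - uu l x b) + (1 : ℕ) * (uu l x b - uu l x d) := fun x => by
    simp [vC, q h]
  split_ifs at e with h1 h2 h3 <;> simp only [List.mem_cons, Prod.mk.injEq, List.not_mem_nil, or_false] at e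
  · obtain ⟨rfl, -, rfl, rfl⟩ := e; exact ⟨one_pos, one_pos, m⟩
  · obtain ⟨rfl, -, rfl, rfl⟩ | ⟨rfl, -, rfl, rfl⟩ := e
    exacts [⟨one_pos, one_pos, m⟩, ⟨one_pos, two_pos, fun x => by simp only [vC, q (rev_ne d), uu_rev, h2]; push_cast; ring⟩]
  · obtain ⟨rfl, -, rfl, rfl⟩ | ⟨rfl, -, rfl, rfl⟩ := e
    exacts [⟨one_pos, one_pos, m⟩, ⟨two_pos, one_pos, fun x => by simp only [vC, q (rev_ne a).symm, uu_rev, h3]; push_cast; ring⟩]
  · obtain ⟨rfl, -, rfl, rfl⟩ := e; exact ⟨one_pos, one_pos, m⟩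

variable (l) in
/-- the root system of type `C_{l+2}` -/
def rsC : RS (RC l) (Fin (l + 2)) where
  vec := vC
  cor := cC
  A k r := wC l k r.1.1 - wC l k r.1.2
  neg r := ⟨(r.1.2, r.1.1), r.2.1.symm, add_comm r.1.1.1 _ ▸ r.2.2⟩
  simple := sC
  refl k r := nm (sg k r.1.1) (sg k r.1.2)
  eta k r := sn l k r.1.1 * sn l k r.1.2 * ns (sg k r.1.1) (sg k r.1.2)
  terms r s := if r.1.2 = s.1.1 ∧ r.1.1 ≠ s.1.2 then tm r.1.1 r.1.2 s.1.2 1 1 else
    if s.1.2 = r.1.1 ∧ s.1.1 ≠ r.1.2 then tm r.1.2.rev r.1.1.rev s.1.1.rev (fl r.1.1 r.1.2) (fl s.1.1 s.1.2) else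
    if r.1.2 = s.1.2.rev ∧ r.1.1 ≠ s.1.1.rev then tm r.1.1 r.1.2 s.1.1.rev 1 (fl s.1.1 s.1.2) else
    if s.1.1 = r.1.1.rev ∧ r.1.2.rev ≠ s.1.2 then tm r.1.2.rev r.1.1.rev s.1.2 (fl r.1.1 r.1.2) 1 else []
  vec_inj := fun r s e => (pr_two (by rw [← sum_vC, ← e, sum_vC]) (by rw [← sum_vC, ← e, sum_vC, pr_comm, ← sum_vC, ← e, sum_vC])).symm
  vec_neg r := by ext; simp [vC]
  vec_simple i := by
    ext k; simp only [vC, uu, sC, Pi.single_apply, Fin.ext_iff]; split_ifs <;> omega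
  vec_refl := vC_refl
  A_eq i s := mul_left_cancel₀ (dd_ne (l := l) i) (by
    simp only [Finset.mul_sum, mul_left_comm (dd l i), A_pr, pr_comm (sC i)]; rw [← sum_vC]; simp only [A_pr])
  A_simple_self i := by simp only [wC, ip, sC]; split_ifs <;> omega
  pos_or_neg r := (lt_or_gt_of_ne r.2.1).imp vC_pos.2 fun h k => by
    have := (vC_pos (r := ⟨(r.1.2, r.1.1), r.2.1.symm, add_comm r.1.1.1 _ ▸ r.2.2⟩)).2 h k
    simp only [vC, Pi.zero_apply] at this ⊢; omega
  neg_ne r h := r.2.1 (congrArg (·.1.2) h)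
  refl_pos i r h h' := by
    have : sg i r.1.1 < sg i r.1.2 := by
      have := r.2.2
      rw [vC_pos, Fin.lt_def] at h
      simp only [sg, sv, sC, ne_eq, Subtype.ext_iff, Prod.ext_iff, Fin.ext_iff, Fin.lt_def] at h' ⊢
      split_ifs <;> omega
    rw [vC_pos]
    rcases nm_cases (sg_ne r.2.1 i) with ⟨-, e, -⟩ | ⟨-, e, -⟩ <;> simpa [e]
  descent r h := by
    have := r.2.2
    rw [vC_pos, Fin.lt_def] at h
    refine ⟨⟨if r.1.1.1 + r.1.2 = 2 * l + 2 then r.1.1 + 1 else r.1.1, by split_ifs <;> omega⟩, ?_⟩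
    simp only [wC, ip]; grind
  cor_simple i := funext fun k => mul_left_cancel₀ (ln_ne (sC i).1.1 (sC i).1.2) (by
    rw [cC_mul]; simp only [ln, dd, vC, uu, sC, Pi.single_apply, Fin.ext_iff, ite_mul, mul_ite]; grind)
  cor_neg r := funext fun k => by
    have := cC_mul ⟨(r.1.2, r.1.1), r.2.1.symm, add_comm r.1.1.1 _ ▸ r.2.2⟩ k
    refine mul_left_cancel₀ (ln_ne r.1.2 r.1.1) (this.trans ?_)
    rw [show ln r.1.2 r.1.1 = ln r.1.1 r.1.2 by simp only [ln, add_comm], Pi.neg_apply, mul_neg, cC_mul]; simp only [vC]; ring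
  cor_refl i s := funext fun k => mul_left_cancel₀ (ln_ne s.1.1 s.1.2) (by
    have := cC_mul (nm (sg i s.1.1) (sg i s.1.2)) k
    rw [ln_nm (sg_ne s.2.1 i), show ln (sg i s.1.1) (sg i s.1.2) = ln s.1.1 s.1.2 by simp only [ln, long_sg]] at this
    rw [this, vC_refl]
    simp only [Pi.sub_apply, Pi.smul_apply, mul_sub (ln _ _), cC_mul, Pi.single_apply, smul_eq_mul, ← mul_assoc (ln _ _), sum_cC,
      pr_comm s, ← A_pr]
    split_ifs with h <;> simp [h]; ring)
  eta_sq i s := by rcases ns_pm (sg i s.1.1) (sg i s.1.2) with e | e <;> simp only [sn, e] <;> split_ifs <;> simp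
  eta_neg i s := by simp only [ns, fl, add_comm (sg i s.1.1).1, mul_comm (sn l i s.1.1), mul_comm (sf (sg i s.1.1))]
  eta_simple i := by simp only [sn, ns, sC, sg, sv, ite_mul, mul_ite]; grind
  eta_refl i s := by
    have e : ((-1 : ℤ)) ^ (wC l i s.1.1 - wC l i s.1.2).natAbs = (-1) ^ (wC l i s.1.1).natAbs * (-1) ^ (wC l i s.1.2).natAbs := by
      rw [← pow_add, neg_one_pow_eq_pow_mod_two, neg_one_pow_eq_pow_mod_two (n := _ + _)]; congr 1; omega
    rw [e, ← sn_sg, ← sn_sg]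
    rcases nm_cases (sg_ne s.2.1 i) with ⟨-, e, e'⟩ | ⟨p, e, e'⟩ <;> simp only [e, e', sg_rev, sg_sg, sn_rev, ns_self]
    · ring
    · have := s.2.2
      have := long_sg i s.1.1 s.1.2
      rw [show ns s.1.2.rev s.1.1.rev = fl s.1.1 s.1.2 from (if_neg (by simp only [rev_val]; omega)).trans (fl_rev _ _)]
      rcases sf_pm s.1.1 with a | a <;> rcases sf_pm s.1.2 with b | b <;> rcases sf_pm (sg i s.1.1) with c | c <;>
        rcases sf_pm (sg i s.1.2) with d | d <;> simp only [fl, a, b, c, d] <;> ring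
  terms_vec r s k c a b h := by
    split_ifs at h with h1 h2 h3 h4
    · exact (tm_vec h1.2 h).imp_right fun h => h.imp_right fun h => funext fun x => (h x).trans (by simp [vC, h1.1])
    · exact (tm_vec (flip h2.2) h).imp_right fun h => h.imp_right fun h => funext fun x =>
        (h x).trans (by simp only [vC, h2.1, uu_rev, Pi.add_apply, Pi.smul_apply, smul_eq_mul]; ring)
    · exact (tm_vec h3.2 h).imp_right fun h => h.imp_right fun h => funext fun x =>
        (h x).trans (by simp only [vC, h3.1, uu_rev, Pi.add_apply, Pi.smul_apply, smul_eq_mul]; ring)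
    · exact (tm_vec h4.2 h).imp_right fun h => h.imp_right fun h => funext fun x =>
        (h x).trans (by simp only [vC, h4.1, uu_rev, Pi.add_apply, Pi.smul_apply, smul_eq_mul]; ring)
    · simp at h

lemma pairC (r s : RC l) : ln r.1.1 r.1.2 * (rsC l).pair r s = pr r s := sum_cC r s

end H6.TC
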