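import Cfsg.Agent.H6.TC1

/-! The Chevalley system of type `C` in the projective special linear group. -/

set_option autoImplicit false
set_option linter.unusedSectionVars false

namespace H6.TC
open H5 H6.CA Matrix Matrix.SpecialLinearGroup

variable {F : Type*} [Field F] {l : ℕ} {a b c d : Kx l}

/-- root elements -/
def XC (h : a ≠ b) (t : F) : SpecialLinearGroup (Kx l) F :=
  transvection h t * if b = a.rev then 1 else transvection (flip h) (fl a b * t)

lemma XC_s (h : a ≠ b) (h' : b ≠ a.rev) (t : F) (v : Kx l → F) :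
    (XC h t).1 *ᵥ v = v + (t * v b) • Pi.single a 1 + (fl a b * t * v a.rev) • Pi.single b.rev 1 := by
  simp only [XC, if_neg h', coe_mul, ← mulVec_mulVec, tv_vec]
  simp [(rev_ne b).symm]; module
lemma XC_l (h : a ≠ a.rev) (t : F) (v : Kx l → F) : (XC h t).1 *ᵥ v = v + (t * v a.rev) • Pi.single a 1 := by
  simp only [XC, if_true, mul_one, tv_vec]

lemma sl_ext {g g' : SpecialLinearGroup (Kx l) F} (h : ∀ v, g.1 *ᵥ v = g'.1 *ᵥ v) : g = g' := SL_ext (mat_ext fun _ => h _)

lemma nes (h : a ≠ b) (h' : b ≠ a.rev) : a ≠ b ∧ b ≠ a ∧ a ≠ b.rev ∧ b.rev ≠ a ∧ a.rev ≠ b ∧ b ≠ a.rev := by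
  simp only [ne_eq, Fin.ext_iff, rev_val] at *; omega

lemma XC_flip (h : a ≠ b) (t : F) : XC (flip h) (fl a b * t) = XC h t := sl_ext fun v => by
  by_cases e : b = a.rev
  · subst e; simp [XC, fl, sf_rev, ← Int.cast_mul, show sf a * sf a = 1 by rcases sf_pm a with e | e <;> simp [e]]
  · rw [XC_s h e, XC_s _ (by simp [nes h e]), fl_rev]
    rcases fl_pm a b with e | e <;> simp [e] <;> module

lemma XC_nm (h : a ≠ b) (t : F) : XC (nm a b).2.1 (ns a b * t) = XC h t := by
  rcases nm_cases h with ⟨-, e, e'⟩ | ⟨-, e, e'⟩ <;> simp only [e, e']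
  · simp
  · exact XC_flip h _

lemma XC_add (h : a ≠ b) (t u : F) : XC h (t + u) = XC h t * XC h u := sl_ext fun v => by
  by_cases e : b = a.rev
  · subst e; simp only [coe_mul, ← mulVec_mulVec, XC_l]; simp [rev_ne]; module
  · simp only [coe_mul, ← mulVec_mulVec, XC_s h e]
    simp [nes h e, rev_ne, (rev_ne b).symm]; module

lemma XC_tm (h : a ≠ b) (h' : b ≠ d) (h'' : a ≠ d) {ε δ : ℤ} (hε : ε = 1 ∨ ε = -1) (hδ : δ = 1 ∨ δ = -1) (t u : F) :
    XC h' (δ * u) * XC h (ε * t) = XC h (ε * t) * XC h' (δ * u) *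
      ((tm a b d ε δ).map fun c => XC c.1.2.1 (c.2.1 * (-t) ^ c.2.2.1 * u ^ c.2.2.2)).prod := by
  unfold tm
  split_ifs with h1 h2 h3 <;> simp only [List.map_cons, List.map_nil, List.prod_cons, List.prod_nil, mul_one, pow_one,
    Int.cast_mul, mul_assoc (_ : F), XC_nm h'', XC_nm (rev_ne d), XC_nm (rev_ne a).symm] <;> refine sl_ext fun v => ?_
  · subst h1
    have n := nes h h'
    simp only [coe_mul, ← mulVec_mulVec, XC_s h h', XC_s h' (by simp [n]), XC_l]
    rcases sf_pm a with p | p <;> rcases sf_pm b with q | q <;>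
      simp [fl, sf_rev, p, q, n, rev_ne, (rev_ne _).symm] <;> module
  · subst h2
    have n := nes h'' h1
    have := XC_l (F := F) (a := d.rev) (by simp [rev_ne])
    simp only [Fin.rev_rev] at this
    simp only [coe_mul, ← mulVec_mulVec, XC_s h'' h1, XC_s h' (by simp [n]), XC_l, this]
    rcases sf_pm a with p | p <;> rcases sf_pm d with q | q <;> rcases hδ with rfl | rfl <;>
      simp [fl, sf_rev, p, q, n, rev_ne, (rev_ne _).symm] <;> module
  · subst h3
    have n := nes h h2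
    simp only [coe_mul, ← mulVec_mulVec, XC_s h h2, XC_s h'' h1, XC_l]
    rcases sf_pm a with p | p <;> rcases sf_pm b with q | q <;> rcases hε with rfl | rfl <;>
      simp [fl, sf_rev, p, q, n, rev_ne, (rev_ne _).symm] <;> module
  · simp only [coe_mul, ← mulVec_mulVec, XC_s h h2, XC_s h' h3, XC_s h'' h1]
    rcases sf_pm a with p | p <;> rcases sf_pm b with q | q <;> rcases sf_pm d with r | r <;>
      simp [fl, p, q, r, nes h h2, nes h' h3, nes h'' h1, rev_ne, (rev_ne _).symm] <;> module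

lemma XC_c0 (h : a ≠ b) (h' : c ≠ d) (h1 : b ≠ c) (h2 : d ≠ a) (h3 : b ≠ d.rev) (h4 : c ≠ a.rev) (t u : F) :
    XC h' u * XC h t = XC h t * XC h' u := sl_ext fun v => by
  have : d ≠ b.rev := fun e => h3 (by simp [e])
  have : c.rev ≠ a := fun e => h4 (by simp [← e])
  by_cases e : b = a.rev <;> by_cases e' : d = c.rev
  · subst e e'; simp only [coe_mul, ← mulVec_mulVec, XC_l]; simp [*]; module
  · subst e; simp only [coe_mul, ← mulVec_mulVec, XC_l, XC_s h' e']; simp [*, Ne.symm h2]; module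
  · subst e'; simp only [coe_mul, ← mulVec_mulVec, XC_l, XC_s h e]; simp [*, Ne.symm h1, Ne.symm h4]; module
  · simp only [coe_mul, ← mulVec_mulVec, XC_s h e, XC_s h' e']; simp [*, Ne.symm h1, Ne.symm h2, Ne.symm h4]; module

variable (F l) in
/-- the root elements of type `C` -/
def stC : StSys (rsC l) F (SpecialLinearGroup (Kx l) F) where
  x r := XC r.2.1
  add r := XC_add _
  comm := fun ⟨⟨a, b⟩, h⟩ ⟨⟨c, d⟩, h'⟩ h1 h2 t u => by
    have k : a ≠ b := h.1
    have k' : c ≠ d := h'.1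
    simp only [rsC, ne_eq, Subtype.mk.injEq, Prod.mk.injEq] at h1 h2 ⊢
    split_ifs with e1 e2 e3 e4
    · obtain ⟨rfl, e⟩ := e1
      simpa using XC_tm k k' e (.inl rfl) (.inl rfl) t u
    · obtain ⟨rfl, e⟩ := e2
      simpa only [XC_flip k, XC_flip k'] using XC_tm (flip k) (flip k') (flip e) (fl_pm d b) (fl_pm c d) t u
    · obtain ⟨rfl, e⟩ := e3
      simpa [XC_flip k'] using XC_tm k (flip k') e (.inl rfl) (fl_pm c d) t u
    · obtain ⟨rfl, e⟩ := e4
      simpa [XC_flip k] using XC_tm (flip k) k' e (fl_pm a b) (.inl rfl) t u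
    · refine (XC_c0 k k' ?_ ?_ ?_ ?_ t u).trans (mul_one _).symm <;>
        simp only [ne_eq, Fin.ext_iff, rev_val] at h h' h1 h2 e1 e2 e3 e4 k k' ⊢ <;> omega

lemma stC_mon (k : Fin (l + 2)) {c : F} (hc : c ≠ 0) (a) : ((stC F l).n ((rsC l).simple k) c).1 *ᵥ Pi.single a 1 =
    (sn l k a * c ^ (-wC l k a)) • Pi.single ((show Function.Involutive (sg k) from sg_sg k).toPerm _ a) 1 := by
  have e : sg k (sC k).1.1 = (sC k).1.2 := Fin.ext (by simp [sg, sv, sC])
  have e' : sg k (sC k).1.2 = (sC k).1.1 := e ▸ sg_sg _ _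
  have w : wC l k (sC k).1.1 = 1 ∧ wC l k (sC k).1.2 = -1 ∧ sn l k (sC k).1.1 = -1 ∧ sn l k (sC k).1.2 = 1 := by
    simp only [wC, ip, sn, sC]; grind
  have z : a ≠ (sC k).1.1 → a ≠ (sC k).1.2 → a ≠ (sC k).1.1.rev → a ≠ (sC k).1.2.rev →
      wC l k a = 0 ∧ sn l k a = 1 ∧ sg k a = a := by
    simp only [wC, ip, sn, sC, sg, sv, ne_eq, Fin.ext_iff, rev_val]; grind
  have f : (sC k).1.2 ≠ (sC k).1.1.rev → sf (sC k).1.1 = 1 ∧ sf (sC k).1.2 = 1 := by
    simp only [sf, sC, ne_eq, Fin.ext_iff, rev_val]; grind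
  have h := (sC k).2.1
  simp only [StSys.n, stC, rsC, coe_mul, ← mulVec_mulVec, Function.Involutive.coe_toPerm]
  change (XC h c).1 *ᵥ (XC h.symm (-c⁻¹)).1 *ᵥ (XC h c).1 *ᵥ _ = _
  generalize (sC k).1.1 = p at *
  generalize (sC k).1.2 = q at *
  by_cases g : q = p.rev
  · subst g
    have := XC_l (F := F) (a := p.rev) (by simp [rev_ne])
    simp only [Fin.rev_rev] at this
    simp only [XC_l, this]
    by_cases h1 : a = p
    · subst h1; simp [rev_ne, (rev_ne _).symm, e, w, hc]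
    by_cases h2 : a = p.rev
    · subst h2; simp [rev_ne, (rev_ne _).symm, e', w, hc, -Fin.val_rev]
    simp [Ne.symm h1, Ne.symm h2, z h1 h2 h2 (by simpa using h1)]
  have n := nes h g
  simp only [XC_s h g, XC_s h.symm n.2.2.1, fl, f g]
  by_cases h1 : a = p
  · subst h1; simp [n, rev_ne, (rev_ne _).symm, e, w, hc]
  by_cases h2 : a = q
  · subst h2; simp [n, rev_ne, (rev_ne _).symm, e', w, hc]
  by_cases h3 : a = p.rev
  · subst h3; simp [n, rev_ne, (rev_ne _).symm, e, w, hc, wC_rev, sn_rev, sg_rev, f g, -Fin.val_rev]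
  by_cases h4 : a = q.rev
  · subst h4; simp [n, rev_ne, (rev_ne _).symm, e', w, hc, wC_rev, sn_rev, sg_rev, f g, -Fin.val_rev]
  simp [Ne.symm h1, Ne.symm h2, Ne.symm h3, Ne.symm h4, z h1 h2 h3 h4]

lemma stC_nconj : (stC F l).NConj := fun k c hc s u => by
  have hg := stC_mon k hc
  have k' := sg_ne s.2.1 k
  have m : ∀ a b : Kx l, (sn l k a * sn l k b * (c ^ (-(wC l k a - wC l k b)) * u)) * (sn l k b * c ^ (-wC l k b)) =
      u * (sn l k a * c ^ (-wC l k a)) := fun a b => by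
    have := zpow_ne_zero (wC l k a) hc
    have := zpow_ne_zero (wC l k b) hc
    simp only [neg_sub, zpow_sub₀ hc, _root_.zpow_neg, sn]
    split_ifs <;> simp <;> field_simp
  rw [mul_inv_eq_iff_eq_mul]
  refine Eq.trans ?_ (congrArg (· * _) ((XC_nm k' (sn l k s.1.1 * sn l k s.1.2 *
    (c ^ (-(wC l k s.1.1 - wC l k s.1.2)) * u))).symm.trans (congrArg _ (by simp only [rsC]; push_cast; ring))))
  generalize (stC F l).n ((rsC l).simple k) c = g at hg ⊢
  refine SL_ext ?_
  simp only [stC, XC, coe_mul, ← long_iff, long_sg]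
  rw [← mul_assoc, mon_conj hg _ k' (m _ _), Matrix.mul_assoc, Matrix.mul_assoc]
  congr 1
  split_ifs
  · simp
  refine Eq.trans (mon_conj hg (flip s.2.1) (sg_ne (flip s.2.1) k) (u := fl (sg k s.1.1) (sg k s.1.2) * (sn l k s.1.1 * sn l k s.1.2 *
    (c ^ (-(wC l k s.1.1 - wC l k s.1.2)) * u))) ?_) ?_
  swap; · simp only [Function.Involutive.coe_toPerm, sg_rev]
  have := zpow_ne_zero (wC l k s.1.1) hc
  have := zpow_ne_zero (wC l k s.1.2) hc
  simp only [wC_rev, sn_rev, zero_sub, neg_neg, neg_sub, zpow_sub₀ hc, fl]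
  have p : sn l k s.1.1 = 1 ∨ sn l k s.1.1 = -1 := by unfold sn; split_ifs <;> simp
  rcases sf_pm s.1.1 with a | a <;> rcases sf_pm s.1.2 with b | b <;> rcases sf_pm (sg k s.1.1) with c | c <;>
    rcases sf_pm (sg k s.1.2) with d | d <;> rcases p with p | p <;> simp [a, b, c, d, p] <;> field_simp

/-- the first root of type `A` in a root of type `C` -/
def r1 (r : RC l) : Rt (2 * l + 3) := ⟨r.1, r.2.1⟩
/-- the second root of type `A` in a root of type `C` -/
def r2 (r : RC l) : Rt (2 * l + 3) := ⟨(r.1.2.rev, r.1.1.rev), flip r.2.1⟩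

lemma stC_x (r : RC l) (t : F) : (stC F l).x r t = (stA F _).x (r1 r) t *
    if r.1.2 = r.1.1.rev then 1 else (stA F _).x (r2 r) (fl r.1.1 r.1.2 * t) := rfl

lemma stC_h (r : RC l) (t : F) : (stC F l).h r t = (stA F _).h (r1 r) t * if r.1.2 = r.1.1.rev then 1 else
    ((stA F _).h (r2 r) (fl r.1.1 r.1.2 * t) * ((stA F _).h (r2 r) (fl r.1.1 r.1.2))⁻¹) := by
  split_ifs with e
  · simp [StSys.h, StSys.n, stC, XC, stA, rsA, rsC, r1, e]
  have h := nes r.2.1 e
  have a : ∀ t : F, (stC F l).n r t = (stA F _).n (r1 r) t * (stA F _).n (r2 r) (fl r.1.1 r.1.2 * t) := fun t => sl_ext fun v => by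
    simp only [StSys.n, stC, stA, rsA, rsC, r1, r2, coe_mul, ← mulVec_mulVec, XC_s _ e, XC_s _ h.2.2.1, tv_vec]
    rcases sf_pm r.1.1 with p | p <;> rcases sf_pm r.1.2 with q | q <;> simp [fl, p, q, h, rev_ne, (rev_ne _).symm] <;> module
  have b : ∀ t u : F, (stA F _).n (r2 r) u * (stA F _).n (r1 r) t = (stA F _).n (r1 r) t * (stA F _).n (r2 r) u :=
    fun t u => sl_ext fun v => by
    simp only [StSys.n, stA, rsA, r1, r2, coe_mul, ← mulVec_mulVec, tv_vec]
    simp [h, rev_ne, (rev_ne _).symm]; module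
  simp only [StSys.h, a, mul_neg, mul_one]
  rw [mul_assoc, ← mul_assoc ((stA F _).n (r2 r) _), b, (stA F _).n_neg (r2 r) (fl _ _)]; group

lemma exists_fv (f : Fin (l + 2) → ℤ) : ∃ f', ∀ r, (rsA _).fv f' (r1 r) = (rsC l).fv f r ∧
    (rsA _).fv f' (r2 r) = (rsC l).fv f r := by
  let w : ℕ → ℤ := fun a => ∑ k : Fin (l + 2), uu l k a * f k
  refine ⟨fun j => w j - w (j + 1), fun r => ?_⟩
  simp only [fv_A, tel w (Fin.is_le _), r1, r2]
  simp only [w, RS.fv, rsC, vC, uu_rev, sub_mul, Finset.sum_sub_distrib]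
  constructor <;> ring

variable (F l) in
/-- the Chevalley system of type `C` in `PSL` -/
def sysC : ChevSys (rsC l) F (ProjectiveSpecialLinearGroup (Kx l) F) :=
  let S : StSys (rsC l) F (ProjectiveSpecialLinearGroup (Kx l) F) :=
    ⟨fun r t => ((stC F l).x r t : _), fun r t u => by rw [StSys.add]; rfl, fun r s a b t u => by
      have := congrArg (QuotientGroup.mk' (Subgroup.center _)) ((stC F l).comm r s a b t u)
      rwa [map_mul, map_mul, map_mul, map_list_prod, List.map_map] at this⟩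
  have hθ : ∀ r t, QuotientGroup.mk' _ ((stC F l).x r t) = S.x r t := fun _ _ => rfl
  have hA : ∀ r t, QuotientGroup.mk' _ ((stA F (2 * l + 3)).x r t) = (sysA F _).x r t := fun _ _ => rfl
  have hx : ∀ r t, S.x r t = (sysA F _).x (r1 r) t * if r.1.2 = r.1.1.rev then 1 else
      (sysA F _).x (r2 r) (fl r.1.1 r.1.2 * t) := fun r t => by
    rw [← hθ, stC_x, map_mul, hA]; split_ifs <;> rfl
  have hU : ∀ {T T'}, (∀ r ∈ T, r1 r ∈ T' ∧ r2 r ∈ T') → S.U T ≤ (sysA F _).U T' := fun h => S.U_le_iff.2 fun r hr t => by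
    rw [hx]; refine mul_mem ((sysA F _).x_mem_U (h r hr).1 t) ?_
    split_ifs; exacts [one_mem _, (sysA F _).x_mem_U (h r hr).2 _]
  { S with
    nconj := fun i c hc s u => by rw [← StSys.map_n hθ, ← hθ, ← hθ, ← stC_nconj i c hc]; rfl
    nd := fun f => by
      obtain ⟨f', h⟩ := exists_fv f
      refine le_bot_iff.1 (le_trans (inf_le_inf (hU ?_) (sup_le_sup (hU ?_) (S.H_le_iff.2 fun r t ht => ?_)))
        ((sysA F _).nd f').le)
      · simp [h]
      · simp [h]
      have : (fl r.1.1 r.1.2 : F) ≠ 0 := by rcases fl_pm r.1.1 r.1.2 with e | e <;> simp [e]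
      rw [← StSys.map_h hθ, stC_h, map_mul, StSys.map_h hA]
      refine mul_mem (StSys.h_mem_H _ _ ht) ?_
      split_ifs
      · exact one_mem _
      rw [map_mul, map_inv, StSys.map_h hA, StSys.map_h hA]
      exact mul_mem (StSys.h_mem_H _ _ (mul_ne_zero this ht)) (inv_mem (StSys.h_mem_H _ _ this))
    inj := fun f k d hk hd => by
      obtain ⟨f', h⟩ := exists_fv f
      have n : ∀ r, r ≠ k ∨ r.1.2 ≠ r.1.1.rev → r2 r ≠ r1 k := fun r c e => by
        have := k.2.2; have := r.2.2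
        simp only [r1, r2, ne_eq, Subtype.ext_iff, Prod.ext_iff, Fin.ext_iff, rev_val] at c e; omega
      refine (sysA F _).inj f' (r1 k) d ((h k).1 ▸ hk) ?_
      have := hU (T' := {r | r ≠ r1 k ∧ (rsA _).fv f' (r1 k) ≤ (rsA _).fv f' r}) (fun r hr =>
        ⟨⟨fun e => hr.1 (Subtype.ext (congrArg (fun x : Rt _ => x.1) e)), by simpa [h] using hr.2⟩, n r (.inl hr.1),
          by simpa [h] using hr.2⟩) hd
      rw [hx] at this
      split_ifs at this with e
      · simpa using this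
      · exact (mul_mem_cancel_right ((sysA F _).x_mem_U (And.intro (n k (.inr e)) (by simp [h])) _)).1 this }

/-! ### the symplectic group -/

variable (l) in
/-- the natural basis -/
def ka : Kx l ≃ Fin (l + 2) ⊕ Fin (l + 2) where
  toFun a := if h : a.1 < l + 2 then .inl ⟨a, h⟩ else .inr ⟨2 * l + 3 - a, by omega⟩
  invFun := Sum.elim (fun i => ⟨i, by omega⟩) fun i => ⟨2 * l + 3 - i, by omega⟩
  left_inv a := by dsimp only; split_ifs <;> simp only [Sum.elim_inl, Sum.elim_inr, Fin.ext_iff]; omega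
  right_inv := by
    rintro (i | i)
    · exact dif_pos i.2
    · exact (dif_neg (by simp; omega)).trans (by simp [Fin.ext_iff]; omega)

lemma ka_rev (a : Kx l) : ka l a.rev = (ka l a).swap := by
  simp only [ka, Equiv.coe_fn_mk, rev_val]
  split_ifs <;> first | omega | (simp [Fin.ext_iff]; try omega)

/-- the natural basis -/
def ee (a : Kx l) : Fin (l + 2) ⊕ Fin (l + 2) → F := Pi.single (ka l a) 1

lemma B_ee (x) (a : Kx l) : (sympF F (l + 2)).B x (ee a) = sf a * x (ka l a.rev) := by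
  have : sf a = Sum.elim (fun _ => 1) (fun _ => -1) (ka l a) := by
    simp only [sf, ka, Equiv.coe_fn_mk]; split_ifs <;> first | omega | rfl
  rw [ka_rev, ee, this]; rcases ka l a with i | i <;> simp [sympForm_eq, Pi.single_apply]
lemma ee_apply (a b : Kx l) : (ee a : _ → F) (ka l b) = if b = a then 1 else 0 := by simp [ee, Pi.single_apply]

variable (F l) in
/-- the natural representation -/
noncomputable def ta : SpecialLinearGroup (Kx l) F →* ((Fin (l + 2) ⊕ Fin (l + 2) → F) ≃ₗ[F] (Fin (l + 2) ⊕ Fin (l + 2) → F)) :=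
  MonoidHom.mk' (fun A => (LinearEquiv.funCongrLeft F F (ka l)).trans ((toLin' A).trans
    (LinearEquiv.funCongrLeft F F (ka l)).symm)) fun A B => LinearEquiv.ext fun x => by
    simp only [map_mul, LinearEquiv.mul_apply, LinearEquiv.trans_apply, LinearEquiv.apply_symm_apply]

lemma ta_apply (A) (x) (a) : ta F l A x (ka l a) = (A.1 *ᵥ fun b => x (ka l b)) a := by
  simp [ta, Matrix.SpecialLinearGroup.toLin'_apply]; rfl

lemma ta_s (h : a ≠ b) (h' : b ≠ a.rev) (t : F) (p q r) :
    ta F l (XC h (-(sf b * t))) = (sympF F _).eich (ee a) (t • ee b.rev) 0 p q r :=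
  LinearEquiv.ext fun x => funext fun i => by
    obtain ⟨i, rfl⟩ := (ka l).surjective i
    rcases sf_pm b with e | e <;>
    simp [ta_apply, XC_s h h', Form.eich_apply, B_ee, ee_apply, Pi.single_apply, fl, sf_rev, e, -sympF_B] <;> split_ifs <;> ring

lemma ta_l (a : Kx l) (t : F) (p q r) : ta F l (XC (rev_ne a).symm (sf a * t)) = (sympF F _).eich (ee a) 0 t p q r :=
  LinearEquiv.ext fun x => funext fun i => by
    obtain ⟨i, rfl⟩ := (ka l).surjective i
    simp [ta_apply, XC_l, Form.eich_apply, B_ee, ee_apply, Pi.single_apply, -sympF_B]; split_ifs <;> ring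

lemma map_grp : (stC F l).grp.map (ta F l) = (sympF F _).isom := by
  have sq : ∀ (a : Kx l) (t : F), t = sf a * (sf a * t) := fun a t => by rcases sf_pm a with e | e <;> simp [e]
  have k : (stC F l).grp.map (ta F l) ≤ (sympF F _).isom := Subgroup.map_le_iff_le_comap.2 ((stC F l).U_le_iff.2
    fun ⟨⟨a, b⟩, h⟩ _ t => by
      show ta F l (XC h.1 t) ∈ (sympF F _).isom
      by_cases e : b = a.rev
      · subst e; rw [sq a t, ta_l a _ (Form.symp_Q _ _) (by simp) (by simp)]; exact Form.eich_mem _ _ _ _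
      · rw [← neg_neg t, sq b (-t), ta_s h.1 e _ (Form.symp_Q _ _) (by simp [B_ee, ee_apply, nes h.1 e, -sympF_B])
          (by simp [Form.symp_Q])]
        exact Form.eich_mem _ _ _ _)
  have m : ∀ {a b : Kx l} (h : a ≠ b) (t : F), XC h t ∈ (stC F l).grp := fun h t => XC_nm h t ▸ (stC F l).x_mem_grp _ _
  have s : ∀ a : Kx l, (sympF F _).SIn ((stC F l).grp.map (ta F l)) ⊤ (ee a) := fun a => by
    have z : (sympF F _).EIn ((stC F l).grp.map (ta F l)) (ee a) 0 := fun c p q r => ⟨_, m _ _, ta_l a c p q r⟩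
    exact ⟨trivial, Form.symp_Q _ _, fun v _ => Form.Hyp.EIn_of_perp (f := (-sf a : F) • ee a.rev) ⟨Form.symp_Q _ _, Form.symp_Q _ _,
      by rcases sf_pm a with e | e <;> simp [B_ee, ee_apply, sf_rev, e, -sympF_B]⟩ z (fun w p q =>
      z.span (S := {x | ∃ b, (a ≠ b ∧ b ≠ a.rev) ∧ x = ee b.rev}) (by
        rintro _ ⟨b, h, rfl⟩
        have : (sympF F _).B (ee b.rev) (ee a) = 0 := by simp [B_ee, ee_apply, nes h.1 h.2, -sympF_B]
        exact ⟨this, fun c => z.of_one (a := 0) (hu := Form.symp_Q _ _) (hv := by simp [this, -sympF_B]) (ha := by simp [Form.symp_Q])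
          ⟨_, m _ _, ta_s h.1 h.2 c _ _ _⟩⟩) (by
        rw [pi_eq_sum_univ' w, ← (ka l).sum_comp]
        refine Submodule.sum_mem _ fun b _ => ?_
        by_cases c : a ≠ b.rev ∧ b.rev ≠ a.rev
        · exact Submodule.smul_mem _ _ (Submodule.subset_span ⟨_, c, by simp [ee]⟩)
        · have : ∀ a : Kx l, (sf a : F) ≠ 0 := fun a => by rcases sf_pm a with e | e <;> simp [e]
          simp only [map_smulₛₗ, B_ee, Kind.symp_σ, smul_eq_mul, mul_eq_zero, this, neg_eq_zero, false_or, Fin.rev_rev] at p q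
          rw [not_and_or, not_not, not_not, Fin.rev_inj] at c
          rcases c with rfl | rfl <;> simp_all)) v⟩
  exact le_antisymm k ((sympF_nondeg _).symp_EG.ge.trans (Form.Good.top (sympF_nondeg _) k ⟨_, _, s 0, s (Fin.rev 0), by
    rcases sf_pm (Fin.rev 0 : Kx l) with e | e <;> simp [B_ee, ee_apply, e, -sympF_B, -Fin.rev_zero]⟩))

lemma ta_inj : Function.Injective (ta F l) := fun A B e => sl_ext fun v => funext fun a => by
  have := ta_apply A (fun i => v ((ka l).symm i)) a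
  rw [e, ta_apply] at this
  simpa using this.symm

lemma cen_C {g : (stC F l).grp} (h : g ∈ Subgroup.center (stC F l).grp) :
    g.1 ∈ Subgroup.center (SpecialLinearGroup (Kx l) F) := by
  have b : ∀ t ∈ (sympF F (l + 2)).isom, ta F l g.1 * t = t * ta F l g.1 := fun t ht => by
    rw [← map_grp] at ht
    obtain ⟨x, hx, rfl⟩ := ht
    rw [← map_mul, ← map_mul]
    exact congrArg _ (congrArg Subtype.val (Subgroup.mem_center_iff.1 h ⟨x, hx⟩)).symm
  obtain ⟨c, hc⟩ := Form.symp_center (sympF_nondeg (l + 2)) (by simp) b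
  refine Subgroup.mem_center_iff.2 fun x => ta_inj ?_
  rw [map_mul, map_mul, hc]
  generalize ta F l x = y
  ext; simp

theorem isoC : Nonempty ((sysC F l).grp ≃* Cfsg.PSp (l + 2) F) := by
  have m : (stC F l).grp.map (QuotientGroup.mk' _) = (sysC F l).grp := StSys.map_U (fun _ _ => rfl) _
  let π := (QuotientGroup.mk' (Subgroup.center (SpecialLinearGroup (Kx l) F))).subgroupMap (stC F l).grp
  have k : π.ker = Subgroup.center _ := Subgroup.ext fun g => ⟨fun h => Subgroup.mem_center_iff.2 fun x =>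
    Subtype.ext (Subgroup.mem_center_iff.1 ((QuotientGroup.eq_one_iff _).1 (congrArg Subtype.val h)) x.1), fun h =>
      Subtype.ext ((QuotientGroup.eq_one_iff _).2 (cen_C h))⟩
  have e1 : (stC F l).grp ≃* (sympF F (l + 2)).isom := ((stC F l).grp.equivMapOfInjective _ ta_inj).trans
    (MulEquiv.subgroupCongr map_grp)
  have e2 := quotCenterCongr (e1.trans (spEquiv _).symm)
  have e3 := (QuotientGroup.quotientKerEquivOfSurjective π (MonoidHom.subgroupMap_surjective _ _)).symm.trans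
    (QuotientGroup.quotientMulEquivOfEq k)
  exact ⟨(MulEquiv.subgroupCongr m.symm).trans (e3.trans e2)⟩

end H6.TC
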