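import Cfsg.Agent.H6.TC2
import Cfsg.Agent.S0270

/-! Lifting the relations of type `C` over fields with at least three elements. -/

set_option autoImplicit false
set_option linter.unusedSectionVars false

namespace H6.TC
open Subgroup Cfsg H5 H6.CA StSys Mult Mult.CE Chev TB
open scoped commutatorElement

variable {l : ℕ} {a b c d : Kx l}

lemma kerC {M : Type*} [CommGroup M] :
    ((rsC l).cm M).ker = (powMonoidHom 2).ker.map (MonoidHom.pi fun k : Fin (l + 2) => powMonoidHom (k + 1)) := by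
  have : ∀ i j : Fin (l + 2), (rsC l).A i ((rsC l).simple j) = (if i.1 + 1 = j + 1 then 1 else 0) + (if i.1 + 1 = j + 1 then 1 else 0) -
      ((if i.1 + 1 = j.1 then 1 else 0) + (if i.1 + 1 = if j.1 ≤ l then j.1 + 2 else l + 1 then 1 else 0)) := fun i j => by
    simp only [rsC, wC, ip, sC]; grind (splits := 30)
  ext c
  simp only [MonoidHom.mem_ker, RS.cm, MonoidHom.mk'_apply, funext_iff, this, zpow_sub, zpow_add, Finset.prod_mul_distrib,
    Finset.prod_inv_distrib, prod_DG, Pi.one_apply, mul_inv_eq_one, Fin.forall_iff]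
  constructor
  · intro h
    have k := DG_pow c (N := l + 2) fun j hj => by simpa [show j ≤ l by omega] using h j (by omega)
    have h1 := h (l + 1) (by omega)
    rw [if_neg (by omega), k (l + 2) le_rfl, k (l + 1) (by omega), pow_succ, mul_mul_mul_comm, mul_eq_left] at h1
    exact ⟨DG c 1, show DG c 1 ^ 2 = 1 by rw [sq, h1], funext fun j => (k (j + 1) (by omega)).symm.trans (DG_succ c j)⟩
  · rintro ⟨y, hy, rfl⟩ j hj
    have hy : y * y = 1 := by rw [← sq]; exact hy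
    have k : ∀ m ≤ l + 2, DG ((MonoidHom.pi fun k : Fin (l + 2) => powMonoidHom (k + 1)) y) m = y ^ m := fun m hm => by
      simp only [DG, MonoidHom.pi_apply, powMonoidHom_apply]
      split_ifs <;> first | (congr 1; omega) | simp [show m = 0 by omega]
    rw [k _ (by omega), k _ (by omega), k _ (by split_ifs <;> omega), ← mul_pow, hy, one_pow, ← pow_add]
    split_ifs
    · rw [show j + (j + 2) = 2 * (j + 1) by ring, pow_mul, sq, hy, one_pow]
    · rw [show j + (l + 1) = 2 * (l + 1) by omega, pow_mul, sq, hy, one_pow]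

lemma injC {F G : Type*} [Field F] [Group G] {S : StSys (rsC l) F G} {φ : G →* Matrix.SpecialLinearGroup (Kx l) F}
    (hφ : ∀ r t, φ (S.x r t) = (stC F l).x r t) (hN : S.NConj) (h3 : S.R3) (c) (hc : c ∈ ((rsC l).cm Fˣ).ker)
    (h : hN.Theta h3 c = 1) : c = 1 := by
  have : ∀ c, (φ (hN.Theta h3 c)).1.mulVec (Pi.single 0 1) = (c 0 : F) • Pi.single 0 1 := fun c => by
    induction c using Pi.mulSingle_induction with
    | one => simp [-Matrix.mulVec_single]
    | mul c d ih ih' => simp [← Matrix.mulVec_mulVec, ih, ih', Matrix.mulVec_smul, smul_smul, mul_comm, -Matrix.mulVec_single]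
    | mulSingle i c =>
      rw [hN.Theta_single, map_h hφ, StSys.h, Matrix.SpecialLinearGroup.coe_mul, ← Matrix.mulVec_mulVec, stC_mon _ (by simp),
        Matrix.mulVec_smul, stC_mon _ c.ne_zero, smul_smul]
      simp only [Function.Involutive.coe_toPerm, sg_sg]
      congr 1
      by_cases e : i = 0
      · subst e; simp [sn, wC, ip, sg, sv]
      · have e' := Fin.val_ne_of_ne e
        have : sn l i (0 : Kx l) = 1 ∧ wC l i (0 : Kx l) = 0 ∧ sg i (0 : Kx l) = 0 := by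
          simp only [sn, wC, ip, sg, sv, Fin.ext_iff, Fin.val_zero] at e' ⊢; grind
        simp [this, Ne.symm e, -Fin.val_zero, -Fin.coe_ofNat_eq_mod]
  obtain ⟨y, -, rfl⟩ := kerC.le hc
  have k := congrFun ((this _).symm.trans (by rw [h])) 0
  obtain rfl : y = 1 := Units.ext (by simpa using k)
  exact map_one _

/-- different axes -/
def Ok (a b : Kx l) : Prop := a.1 ≠ b.1 ∧ a.1 + b.1 ≠ 2 * l + 3
lemma Ok.ne (h : Ok a b) : a ≠ b := Fin.ne_of_val_ne h.1
lemma Ok.nes (h : Ok a b) : a ≠ b ∧ b ≠ a ∧ a ≠ b.rev ∧ b.rev ≠ a ∧ a.rev ≠ b ∧ b ≠ a.rev ∧ a.rev ≠ b.rev ∧ b.rev ≠ a.rev := by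
  simp only [Ok, ne_eq, Fin.ext_iff, rev_val] at *; omega
lemma Ok.symm (h : Ok a b) : Ok b a := by simp only [Ok] at *; omega
lemma Ok.rev (h : Ok a b) : Ok a b.rev := by simp only [Ok, rev_val] at *; omega
lemma rv (a : Kx l) : a ≠ a.rev := (rev_ne a).symm

/-- coordinates in the natural basis -/
def co (x : ℕ) (r : RC l) : ℤ := ip l x r.1.1 - ip l x r.1.2

lemma co_nm (x : ℕ) (h : a ≠ b) : co x (nm a b) = ip l x a - ip l x b := diff h (f := fun c => ip l x c) (ip_rev x)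

lemma pr_nm (h : a ≠ b) (s : RC l) : pr (nm a b) s = co a s - co b s :=
  Eq.trans (by simp only [pr, co]; ring) (diff h (f := fun a => co a s) (c := 0) fun a => by
    simp only [co, ip_comm a.rev.1, ip_rev, ip_comm a.1]; ring)

lemma pair_s (h : Ok a b) (s : RC l) : (rsC l).pair (nm a b) s = co a s - co b s := by
  rw [← pr_nm h.ne, ← pairC, ln_nm h.ne, ln, if_neg h.2, one_mul]

lemma pair_l (a : Kx l) (s : RC l) : (rsC l).pair (nm a a.rev) s = co a s := by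
  have := pairC (nm a a.rev) s
  rw [pr_nm (rv a), ln_nm (rv a), ln, if_pos (long_iff.2 rfl)] at this
  simp only [co, ip_comm a.rev.1, ip_rev, ip_comm a.1] at this ⊢; omega

lemma exists_free (L : List (Kx l)) (h : L.length ≤ l + 1) : ∃ k : Kx l, ∀ x ∈ L, Ok x k := by
  obtain ⟨k, hk⟩ := exists_notMem (l := l + 1) (L.map fun x : Kx l => ⟨min x.1 (2 * l + 3 - x.1), by omega⟩) (by simpa using h)
  refine ⟨⟨k, by omega⟩, fun x hx => ?_⟩
  have := Fin.val_ne_of_ne fun e : k = _ => hk (e ▸ List.mem_map_of_mem hx)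
  simp only [Ok] at this ⊢; omega

lemma nm_eq (h : a ≠ b) (h' : c ≠ d) : nm a b = nm c d ↔ a.1 = c ∧ b.1 = d ∨ a.1 + d = 2 * l + 3 ∧ b.1 + c = 2 * l + 3 := by
  rcases nm_cases h with ⟨p, e, -⟩ | ⟨p, e, -⟩ <;> rcases nm_cases h' with ⟨p', e', -⟩ | ⟨p', e', -⟩ <;>
    simp only [Subtype.ext_iff, e, e', Prod.mk.injEq, Fin.ext_iff, rev_val] <;> omega

lemma neg_nm (h : a ≠ b) : (rsC l).neg (nm a b) = nm b a := by
  rcases nm_cases h with ⟨p, e, -⟩ | ⟨p, e, -⟩ <;> rcases nm_cases h.symm with ⟨p', e', -⟩ | ⟨p', e', -⟩ <;>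
    simp only [rsC, Subtype.ext_iff, e, e'] <;> omega

lemma fl_self (a : Kx l) : fl a a.rev = 1 := by rcases sf_pm a with e | e <;> simp [fl, sf_rev, e]

lemma terms_nm (h : a ≠ b) (h' : b ≠ d) (h'' : a ≠ d) : (rsC l).terms (nm a b) (nm b d) = tm a b d (ns a b) (ns b d) := by
  rcases nm_cases h with ⟨p, e, f⟩ | ⟨p, e, f⟩ <;> rcases nm_cases h' with ⟨p', e', f'⟩ | ⟨p', e', f'⟩ <;>
    simp only [rsC, e, e', f, f', Fin.rev_rev, fl_rev, true_and] <;> split_ifs with c1 c2 c3 c4 <;>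
    first | rfl | (exfalso; simp only [ne_eq, Fin.ext_iff, rev_val] at *; omega) |
      (obtain rfl : a = b.rev := by simp only [ne_eq, Fin.ext_iff, rev_val] at *; omega
       rw [show fl b.rev b = 1 by simpa using fl_self b.rev, Fin.rev_rev]) |
      (obtain rfl : d = b.rev := by simp only [ne_eq, Fin.ext_iff, rev_val] at *; omega
       simp only [fl_self, Fin.rev_rev])

lemma terms_two {r s : RC l} (h : 0 ≤ pr r s) : ∀ c ∈ (rsC l).terms r s, 2 ∣ c.2.1 := by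
  have := Fin.val_ne_of_ne r.2.1; have := Fin.val_ne_of_ne s.2.1
  simp only [rsC, tm]
  split_ifs
  all_goals first | (simp [Dvd.dvd.mul_left, Dvd.dvd.mul_right]; done) |
    (exfalso; simp only [pr, ip, ne_eq, Fin.ext_iff, rev_val] at *; grind (splits := 30))

lemma terms_nil {r s : RC l} (h : 0 ≤ pr r s) (e : pr r s = 0 → co r.1.1 s = 0 ∨ co s.1.1 r = 0) : (rsC l).terms r s = [] := by
  have := Fin.val_ne_of_ne r.2.1; have := Fin.val_ne_of_ne s.2.1
  simp only [rsC]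
  split_ifs
  all_goals first | rfl | (exfalso; simp only [pr, co, ip, ne_eq, Fin.ext_iff, rev_val] at *; grind (splits := 30))

lemma tm_l (h : Ok a d) : (rsC l).terms (nm a a.rev) (nm a.rev d) = [(nm a d, ns a d * ns a.rev d, 1, 1),
    (nm d.rev d, fl a d, 1, 2)] := by
  simp [terms_nm (rv a) h.nes.2.2.2.2.1 h.ne, tm, h.nes, show ns a a.rev = 1 from if_pos (long_iff.2 rfl).le,
    show ns d.rev d = 1 from if_pos (long_iff.2 (by simp)).le, -Fin.val_rev]

lemma tm_2 (h : Ok a b) : (rsC l).terms (nm a b) (nm b a.rev) = [(nm a a.rev, 2 * ns a b * ns b a.rev, 1, 1)] := by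
  simp [terms_nm h.ne h.nes.2.2.2.2.2.1 (rv a), tm, show ns a a.rev = 1 from if_pos (long_iff.2 rfl).le, -Fin.val_rev]

lemma tm_s (h : Ok a b) (h' : Ok b d) (h'' : Ok a d) :
    (rsC l).terms (nm a b) (nm b d) = [(nm a d, ns a d * (ns a b * ns b d), 1, 1)] := by
  simp [terms_nm h.ne h'.ne h''.ne, tm, h.nes, h'.nes, h''.nes]

lemma ne_nm (h : a ≠ b) (h' : c ≠ d) (e : (a.1 ≠ c ∧ a.1 ≠ d ∨ b.1 ≠ c ∧ b.1 ≠ d) ∧
    (a.1 + c ≠ 2 * l + 3 ∧ a.1 + d ≠ 2 * l + 3 ∨ b.1 + c ≠ 2 * l + 3 ∧ b.1 + d ≠ 2 * l + 3)) :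
    nm a b ≠ nm c d ∧ nm a b ≠ (rsC l).neg (nm c d) := by
  rw [neg_nm h', ne_eq, ne_eq, nm_eq h h', nm_eq h h'.symm]; omega

lemma root_cases (r : RC l) : (∃ a b, Ok a b ∧ r = nm a b) ∨ ∃ d : Kx l, r = nm d.rev d := by
  by_cases c : r.1.1.1 + r.1.2.1 = 2 * l + 3
  · exact .inr ⟨r.1.2, by rw [long_iff.1 c, Fin.rev_rev, ← long_iff.1 c, nm_self]⟩
  · exact .inl ⟨_, _, ⟨Fin.val_ne_of_ne r.2.1, c⟩, (nm_self r).symm⟩

lemma rk2C : (rsC l).Rk2 := fun i => by
  have n : ∀ {a d : Kx l}, Ok a d → ns a d * ns a.rev d = 1 ∨ ns a d * ns a.rev d = -1 := fun {a d} _ => by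
    rcases ns_pm a d with p | p <;> rcases ns_pm a.rev d with q | q <;> simp [p, q]
  obtain ⟨a, d, o, e⟩ : ∃ a d, Ok a d ∧ ((rsC l).simple i = nm a d ∨ (rsC l).simple i = nm d.rev d) := by
    rcases root_cases ((rsC l).simple i) with ⟨a, d, o, e⟩ | ⟨d, e⟩
    exacts [⟨a, d, o, .inl e⟩, (exists_free [d] (by simp)).elim fun a o => ⟨a, d, (o d (by simp)).symm, .inr e⟩]
  have k := o.nes
  rcases e with e | e
  on_goal 1 => refine ⟨nm a a.rev, nm a.rev d, ns a d * ns a.rev d, 1, 1, ?_, ?_, n o, .inl rfl, ?_⟩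
  on_goal 4 => refine ⟨nm a a.rev, nm a.rev d, fl a d, 1, 2, ?_, ?_, fl_pm _ _, .inl rfl, ?_⟩
  all_goals simp [e, tm_l o, neg_nm, nm_eq, k, rv, rev_ne, rev_val, -Fin.val_rev]; simp only [Ok] at o; omega

variable {F G E : Type*} [Field F] [Group G] [Group E]

lemma co_self (h : Ok a b) : co a (nm a b) = 1 := by rw [co_nm _ h.ne]; simp only [Ok, ip] at *; grind

lemma perfectC {S : StSys (rsC l) F G} (hN : S.NConj) (hS : S.grp = ⊤) (hF : l = 0 → ∃ v : F, v ≠ 0 ∧ v ≠ 1) :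
    commutator G = ⊤ := by
  have k : ∀ {a d : Kx l}, Ok a d → ∀ t, S.x (nm a d) t ∈ commutator G := fun {a d} o t => by
    by_cases c : l = 0
    · obtain ⟨v, h0, h1⟩ := hF c
      have := commutator_mem_commutator (mem_top (S.h (nm a a.rev) v)) (mem_top (S.x (nm a d) ((v - 1)⁻¹ * t)))
      rwa [commutatorElement_def, hN.h_conj _ h0, ← S.x_neg, ← S.add, pair_l, co_self o, show v ^ (1 : ℤ) * ((v - 1)⁻¹ * t) +
        -((v - 1)⁻¹ * t) = t by have := sub_ne_zero.2 h1; field_simp; ring] at this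
    · obtain ⟨b, e⟩ := exists_free [a, d] (by simp; omega)
      have p := e a (by simp)
      have q := (e d (by simp)).symm
      have := ne_nm q.ne p.ne (by simp only [Ok] at *; omega)
      exact S.x_mem_commutator_of_terms this.1 this.2 (tm_s p q o) (by
        rcases ns_pm a d with p | p <;> rcases ns_pm a b with q | q <;> rcases ns_pm b d with r | r <;> simp [p, q, r]) t
  refine hN.eq_top_of_normal hS fun i t => ?_
  rcases root_cases ((rsC l).simple i) with ⟨a, d, o, e⟩ | ⟨d, e⟩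
  · exact e ▸ k o t
  obtain ⟨a, o⟩ := exists_free [d] (by simp)
  replace o := (o d (by simp)).symm
  have := ne_nm o.nes.2.2.2.2.1 (rv a) (by simp only [Ok, rev_val] at *; omega)
  have := S.terms_mem_commutator this.1 this.2 (-(fl a d * t)) 1
  simp only [tm_l o, List.map_cons, List.map_nil, List.prod_cons, List.prod_nil, mul_one, mul_mem_cancel_left (k o _)] at this
  rcases fl_pm a d with p | p <;> simpa [p, e] using this

lemma tk_four (hF : ∃ s : Finset F, 3 < s.card) (r s : RC l) (h1 : s ≠ r) (h2 : s ≠ (rsC l).neg r) : (rsC l).TK F r s := by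
  have k : ∀ γ r s, (rsC l).pair γ s = 0 → (rsC l).pair γ r ≠ 0 ∧ ((rsC l).pair γ r).natAbs ≤ 2 →
      ∃ v : F, v ≠ 0 ∧ v ^ (rsC l).pair γ s = 1 ∧ v ^ (rsC l).pair γ r ≠ 1 := fun γ r s a b =>
    (exists_zpow_ne (m := 2) hF b.1 b.2).imp fun v h => ⟨h.1, by simp [a], h.2⟩
  have c : ∀ r : RC l, (co r.1.1 r ≠ 0 ∧ (co r.1.1 r).natAbs ≤ 2) ∧ co r.1.2 r ≠ 0 ∧ (co r.1.2 r).natAbs ≤ 2 := fun r => by
    have := Fin.val_ne_of_ne r.2.1
    simp only [co, ip]; grind
  obtain e | e | e | e | e : co r.1.1 s = 0 ∨ co r.1.2 s = 0 ∨ co s.1.1 r = 0 ∨ co s.1.2 r = 0 ∨ pr r s = 0 := by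
    have := r.2.2; have := s.2.2; have := Fin.val_ne_of_ne r.2.1; have := Fin.val_ne_of_ne s.2.1
    simp only [rsC, pr, co, ip, ne_eq, Subtype.ext_iff, Prod.ext_iff, Fin.ext_iff] at *
    grind (splits := 40)
  · exact ⟨nm _ _, (k _ r s ((pair_l _ _).trans e) (pair_l _ _ ▸ (c r).1)).imp fun _ h => ⟨h.1, .inl h.2⟩⟩
  · exact ⟨nm _ _, (k _ r s ((pair_l _ _).trans e) (pair_l _ _ ▸ (c r).2)).imp fun _ h => ⟨h.1, .inl h.2⟩⟩
  · exact ⟨nm _ _, (k _ s r ((pair_l _ _).trans e) (pair_l _ _ ▸ (c s).1)).imp fun _ h => ⟨h.1, .inr h.2⟩⟩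
  · exact ⟨nm _ _, (k _ s r ((pair_l _ _).trans e) (pair_l _ _ ▸ (c s).2)).imp fun _ h => ⟨h.1, .inr h.2⟩⟩
  · exact ⟨r, (k r r s (by simpa [e, ln_ne] using pairC r s) (by simp [RS.pair_self])).imp fun _ h => ⟨h.1, .inl h.2⟩⟩

lemma long_nil {x y : Kx l} (p : x ≠ y) (q : Ok d x) (r : y = d ∨ Ok d y) : (nm d.rev d ≠ nm x y ∧
    nm d.rev d ≠ (rsC l).neg (nm x y)) ∧ (rsC l).terms (nm x y) (nm d.rev d) = [] ∧ (rsC l).terms (nm d.rev d) (nm x y) = [] := by
  have e : (nm d.rev d).1.1 = d.rev := by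
    rcases nm_cases (rev_ne d) with ⟨-, f, -⟩ | ⟨-, f, -⟩ <;> simp [f]
  have k : 0 ≤ pr (nm x y) (nm d.rev d) ∧ (pr (nm x y) (nm d.rev d) = 0 → co (nm d.rev d).1.1 (nm x y) = 0) := by
    simp only [e, pr_nm p, co_nm _ (rev_ne d), co_nm _ p, Ok, ip, Fin.ext_iff, rev_val] at q r ⊢; grind
  exact ⟨ne_nm (rev_ne d) p (by simp only [Ok, Fin.ext_iff, rev_val] at *; omega), terms_nil k.1 fun h => .inr (k.2 h),
    terms_nil (pr_comm _ _ ▸ k.1) fun h => .inl (k.2 (pr_comm _ _ ▸ h))⟩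

theorem lfC_four {S : ChevSys (rsC l) F G} (h3 : S.R3) (hF : ∃ s : Finset F, 3 < s.card) {τ : E →* G} (h : CE τ) :
    ∃ Y : StSys (rsC l) F E, ∀ r t, τ (Y.x r t) = S.x r t := by
  have hK := fun r s h1 h2 => kill_of_TK (τ := τ) (S := S.toStSys) (tk_four hF r s h1 h2)
  refine h.exists_lift_of S.inj (fun r => ?_) fun r s h1 h2 => .inl (hK r s h1 h2)
  obtain ⟨v, h1, h2⟩ := exists_zpow_ne (m := 2) hF (k := 2) (by simp) (by simp)
  refine h.exists_liftR S.nconj h3 (γ := r) h1 (by rwa [RS.pair_self]) ?_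
  have n : ∀ {a d : Kx l}, Ok a d → nm a.rev d ≠ nm a a.rev ∧ nm a.rev d ≠ (rsC l).neg (nm a a.rev) := fun o =>
    ne_nm o.nes.2.2.2.2.1 (rv _) (by simp only [Ok, rev_val] at *; omega)
  rcases root_cases r with ⟨a, d, o, rfl⟩ | ⟨d, rfl⟩
  · rcases five_or_two hF with h5 | h2
    · exact h.cm_of_one S.nconj h5 ((pair_l a _).trans (co_self o))
    refine h.cm_self_of S.nconj hK h2 (L₁ := []) (tm_l o) ⟨(n o).1, (n o).2, ?_, ?_⟩
    · rcases ns_pm a d with p | p <;> rcases ns_pm a.rev d with q | q <;> simp [p, q]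
    simp only [List.nil_append, List.map_cons, List.map_nil, List.mem_cons, List.not_mem_nil, or_false, forall_eq_or_imp, forall_eq,
      ← and_assoc (a := _ ≠ _)]
    refine ⟨⟨ne_nm o.ne (rv a) ?_, terms_two ?_⟩, ⟨?_, terms_two ?_⟩, ne_nm o.ne (rev_ne d) ?_, terms_two ?_⟩ <;>
      simp only [ne_eq, neg_nm, nm_eq, pr_nm, co_nm, o.nes, rv, rev_ne, not_false_eq_true] <;>
      simp only [Ok, ip, rev_val] at o ⊢ <;> grind
  · obtain ⟨a, o⟩ := exists_free [d] (by simp)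
    replace o := (o d (by simp)).symm
    refine h.cm_self_of S.nconj hK Nat.cast_zero (L₁ := [_]) (L₂ := []) (tm_l o) ⟨(n o).1, (n o).2, fl_pm _ _, ?_⟩
    have z : ∀ {x y : Kx l}, x ≠ y → Ok d x → y = d ∨ Ok d y → nm d.rev d ≠ nm x y ∧
        nm d.rev d ≠ (rsC l).neg (nm x y) ∧ ∀ c ∈ (rsC l).terms (nm x y) (nm d.rev d), ((0 : ℕ) : ℤ) ∣ c.2.1 := fun p q r =>
      ⟨(long_nil p q r).1.1, (long_nil p q r).1.2, by simp [(long_nil p q r).2.1]⟩
    simp only [List.append_nil, List.map_cons, List.map_nil, List.mem_cons, List.not_mem_nil, or_false, forall_eq_or_imp, forall_eq]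
    exact ⟨z (rv a) o.symm (.inr o.symm.rev), z o.nes.2.2.2.2.1 o.symm.rev (.inl rfl), z o.ne o.symm (.inl rfl)⟩

end H6.TC
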