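import Cfsg.Agent.H6.TC3

/-! Lifting the relations of type `C` over the field with three elements. -/

set_option autoImplicit false
set_option linter.unusedSectionVars false

namespace H6.TC
open Subgroup Cfsg H5 H6.CA StSys Mult Mult.CE Chev TB
open scoped commutatorElement

variable {l : ℕ} {a b c d : Kx l} {F G E : Type*} [Field F] [Group G] [Group E]

lemma n_fix {Φ ι : Type} [Fintype ι] [DecidableEq ι] {R : RS Φ ι} {S : StSys R F G} {τ : E →* G} (h : CE τ) {γ r : Φ}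
    (h1 : h.Cm S γ r) (h2 : h.Cm S (R.neg γ) r) {g z : E} (hg : τ g = S.n γ 1) {v : F} (hz : τ z = S.x r v) : g * z * g⁻¹ = z :=
  h.conj_of_c (by
    rw [hg, hz]; exact h.mem_Cz.1 (mul_mem (mul_mem (h.mem_Cz.2 (h1 _ _)) (h.mem_Cz.2 (h2 _ _))) (h.mem_Cz.2 (h1 _ _))))

lemma nm_flip (h : a ≠ b) : nm b.rev a.rev = nm a b := (nm_eq (flip h) h).2 (by simp only [rev_val]; omega)

lemma vC_nm (h : a ≠ b) (k : Fin (l + 2)) : (rsC l).vec (nm a b) k = uu l k a - uu l k b := diff h (f := fun a => uu l k a) (uu_rev k)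

lemma refl_nm {S : StSys (rsC l) F G} (hN : S.NConj) {j k : Kx l} (o : Ok j k) : ∃ c : RC l → F, (∀ r, c r ≠ 0) ∧
    (∀ {x}, Ok x j → Ok x k → ∀ t, S.n (nm j k) 1 * S.x (nm k x) t * (S.n (nm j k) 1)⁻¹ = S.x (nm j x) (c (nm k x) * t)) ∧
    (∀ {x}, Ok x j → Ok x k → ∀ t, S.n (nm j k) 1 * S.x (nm x k) t * (S.n (nm j k) 1)⁻¹ = S.x (nm x j) (c (nm x k) * t)) ∧
      ∀ t, S.n (nm j k) 1 * S.x (nm k k.rev) t * (S.n (nm j k) 1)⁻¹ = S.x (nm j j.rev) (c (nm k k.rev) * t) := by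
  obtain ⟨w, c, e, f⟩ := n_acts hN (nm j k)
  refine ⟨c, e.ne, fun {x} p q t => ?_, fun {x} p q t => ?_, fun t => ?_⟩ <;> rw [e.conj] <;> congr 1 <;> refine (rsC l).vec_inj (funext fun i => ?_)
  · have : (rsC l).pair (nm j k) (nm k x) = -1 := by
      simp only [pair_s o, co_nm _ q.symm.ne, Ok, ip] at o p q ⊢; grind
    simp [f, this, vC_nm, o.ne, p.symm.ne, q.symm.ne]
  · have : (rsC l).pair (nm j k) (nm x k) = 1 := by
      simp only [pair_s o, co_nm _ q.ne, Ok, ip] at o p q ⊢; grind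
    simp [f, this, vC_nm, o.ne, p.ne, q.ne]
  · have : (rsC l).pair (nm j k) (nm k k.rev) = -2 := by
      simp only [pair_s o, co_nm _ (rv k), Ok, ip, rev_val] at o ⊢; grind
    simp only [f, this, vC_nm o.ne, vC_nm (rv _), Pi.sub_apply, Pi.smul_apply, uu_rev, smul_eq_mul]; ring

lemma cls3 {r s : RC l} (h1 : s ≠ r) (h2 : s ≠ (rsC l).neg r) : (∃ x : Kx l, (co x r + co x s) % 2 = 1) ∨
    (∃ x z, Ok x z ∧ r = nm x x.rev ∧ s = nm z z.rev) ∨ ∃ x j, Ok x j ∧ r = nm x j ∧ s = nm j x.rev := by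
  have p := r.2.1
  have q := s.2.1
  obtain e | e | e | e | e | e : (co r.1.1 r + co r.1.1 s) % 2 = 1 ∨ (co r.1.2 r + co r.1.2 s) % 2 = 1 ∨
      (co s.1.1 r + co s.1.1 s) % 2 = 1 ∨ (Ok r.1.1 s.1.1 ∧ r.1.2 = r.1.1.rev ∧ s.1.2 = s.1.1.rev) ∨
      (Ok r.1.1 r.1.2 ∧ s = nm r.1.2 r.1.1.rev) ∨ Ok r.1.2.rev r.1.1.rev ∧ s = nm r.1.1.rev r.1.2.rev.rev := by
    have := r.2.2; have := s.2.2
    by_cases o : Ok r.1.1 r.1.2
    · rw [← nm_self s, nm_eq q o.nes.2.2.2.2.2.1, nm_eq q (by simpa using o.nes.2.2.2.2.1), nm_self]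
      simp only [rsC, co, ip, Ok, ne_eq, Subtype.ext_iff, Prod.ext_iff, Fin.ext_iff, rev_val] at *
      grind (splits := 40)
    · simp only [rsC, co, ip, Ok, ne_eq, Subtype.ext_iff, Prod.ext_iff, Fin.ext_iff, rev_val] at h1 h2 o p q ⊢
      grind (splits := 40)
  exacts [.inl ⟨_, e⟩, .inl ⟨_, e⟩, .inl ⟨_, e⟩, .inr (.inl ⟨_, _, e.1, e.2.1 ▸ (nm_self r).symm, e.2.2 ▸ (nm_self s).symm⟩),
    .inr (.inr ⟨_, _, e.1, (nm_self r).symm, e.2⟩), .inr (.inr ⟨_, _, e.1, ((nm_flip p).trans (nm_self r)).symm, e.2⟩)]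

lemma long_nil' {x y : Kx l} (p : x ≠ y) (q : Ok d x) (r : y = d.rev ∨ Ok d y) : (nm d d.rev ≠ nm x y ∧
    nm d d.rev ≠ (rsC l).neg (nm x y)) ∧ (rsC l).terms (nm x y) (nm d d.rev) = [] ∧ (rsC l).terms (nm d d.rev) (nm x y) = [] := by
  simpa using long_nil (d := d.rev) p q.symm.rev.symm (r.imp_right fun h => h.symm.rev.symm)

lemma long_comm (S : StSys (rsC l) F G) {x y : Kx l} (p : x ≠ y) (q : Ok d x) (r : y = d.rev ∨ Ok d y) (t u : F) :
    S.x (nm x y) t * S.x (nm d d.rev) u = S.x (nm d d.rev) u * S.x (nm x y) t :=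
  (S.commute_of_terms (long_nil' p q r).1.1 (long_nil' p q r).1.2 (by simp [(long_nil' p q r).2.1]) t u).symm

theorem lfC_three {S : ChevSys (rsC l) F G} (h3 : S.R3) (hF : ∀ t : F, t = 0 ∨ t = 1 ∨ t = -1) (h4 : (3 : F) = 0)
    {τ : E →* G} (h : CE τ) : ∃ Y : StSys (rsC l) F E, ∀ r t, τ (Y.x r t) = S.x r t := by
  have h2 : (2 : F) ≠ 0 := fun e => one_ne_zero (α := F) (by linear_combination h4 - e)
  have cm : ∀ {x y d : Kx l}, Ok x y → Ok d x → y = d.rev ∨ Ok d y → h.Cm S.toStSys (nm x y) (nm d d.rev) := fun {x y d} p q r =>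
    h.cm_of_kill S.nconj (kill_of_TK (tk_par h2 (nm x x.rev) (by
      rw [pair_l, pair_l, co_self p, co_nm _ (rv d)]; simp only [Ok, ip, rev_val] at q ⊢; grind))) (long_comm _ p.ne q r)
  have : ∀ r, ∃ y, h.LiftR S.toStSys r y ∧ ∀ x j, Ok x j → r = nm x x.rev → ∀ t u, ∃ v,
      h.c (S.x (nm j x.rev) u) (S.x (nm x j) t) = y v := fun r => by
    rcases root_cases r with ⟨a, b, o, rfl⟩ | ⟨d, rfl⟩
    · refine (h.exists_liftR S.nconj h3 (γ := nm a a.rev) (l := -1) (by simp) (by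
        rw [pair_l, co_self o, zpow_one]; exact fun e => h2 (by linear_combination -e)) (h.cm_self hF _)).imp fun y hy =>
          ⟨hy, fun x j _ e => ?_⟩
      rw [nm_eq o.ne (rv x)] at e; simp only [Ok, rev_val] at o e; omega
    obtain ⟨d, rfl⟩ : ∃ x : Kx l, d = x.rev := ⟨d.rev, by simp⟩
    rw [Fin.rev_rev]
    obtain ⟨k, o⟩ := exists_free [d] (by simp)
    replace o := o d (by simp)
    have n := ne_nm o.nes.2.2.2.2.2.1 o.ne (by simp only [Ok, rev_val] at o ⊢; omega)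
    obtain ⟨y, hy, hy'⟩ := h.liftR_of_comm S.nconj hF n.1 n.2 (tm_2 o) (by
      rcases ns_pm d k with p | p <;> rcases ns_pm k d.rev with q | q <;> simp [p, q, h2])
      (nm_flip o.ne ▸ cm o.rev.symm.rev o.rev (.inl rfl)) (cm o.symm.rev o (.inl rfl))
    refine ⟨y, hy, fun x j p e t u => ?_⟩
    obtain rfl : d = x := by rw [nm_eq (rv d) (rv x)] at e; simp only [Fin.ext_iff, rev_val] at e ⊢; omega
    obtain rfl | rfl | q : j = k ∨ j = k.rev ∨ Ok j k := by simp only [Ok, Fin.ext_iff, rev_val]; omega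
    · exact ⟨_, hy' t u⟩
    · refine ⟨-(-(2 * ns d k * ns k d.rev : ℤ) * u * t), ?_⟩
      rw [nm_flip o.ne, show nm d k.rev = nm k d.rev by simpa using nm_flip o.nes.2.2.2.2.2.1, ← h.c_inv, hy',
        inv_eq_iff_mul_eq_one, ← hy.add, add_neg_cancel]
      simpa using hy.add 0 0
    obtain ⟨c, c0, c1, c2, -⟩ := refl_nm S.nconj q
    have := h.c_conj (h.s (S.n (nm j k) 1)) (S.x (nm k d.rev) ((c (nm k d.rev))⁻¹ * u)) (S.x (nm d k) ((c (nm d k))⁻¹ * t))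
    rw [h.τ_s, c1 p.symm.rev.symm o.symm.rev.symm, c2 p o, mul_inv_cancel_left₀ (c0 _), mul_inv_cancel_left₀ (c0 _), hy',
      n_fix h (cm q p (.inr o)) (neg_nm q.ne ▸ cm q.symm o (.inr p)) (h.τ_s _) (hy.map _)] at this
    exact ⟨_, this⟩
  choose y hy hy' using this
  refine ⟨⟨y, fun r => (hy r).add, h.rel_of S.inj hy fun r s h1 h1' => ?_⟩, fun r => (hy r).map⟩
  rcases cls3 h1 h1' with ⟨x, e⟩ | ⟨x, z, o, rfl, rfl⟩ | ⟨x, j, o, rfl, rfl⟩
  · exact .inl (kill_of_TK (tk_par h2 (nm x x.rev) (by rwa [pair_l, pair_l])))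
  · have k : (rsC l).pair (nm x z) (nm x x.rev) = 2 ∧ (rsC l).pair (nm x z) (nm z z.rev) = -2 := by
      simp only [pair_s o, co_nm _ (rv _), Ok, ip, rev_val] at o ⊢; grind
    refine .inr ((cm_of_refl h S.nconj S.inj hF h4 (γ := nm x z) (long_comm _ (rv x) o.symm (.inr o.symm.rev)) ?_ ?_
      (by simp [k])).rel (fun r => (hy r).map) (long_nil' (rv x) o.symm (.inr o.symm.rev)).2.1) <;> ext i <;>
      simp only [k, vC_nm o.ne, vC_nm (rv _), Pi.sub_apply, Pi.smul_apply, uu_rev, smul_eq_mul] <;> ring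
  · refine .inr fun t u => ?_
    obtain ⟨v, this⟩ := hy' _ x j o rfl (-t) (-u)
    have k := congrArg τ this
    rw [h.τ_c, S.comm_eq h1 h1', (hy _).map] at k
    simp only [tm_2 o, List.map_cons, List.map_nil, List.prod_cons, List.prod_nil, mul_one] at k ⊢
    rw [S.x_neg, S.x_neg, ← (hy _).map, ← (hy _).map, ← map_inv, ← map_inv, ← h.comm_eq, ← S.inj.x_injective _ k] at this
    rw [← this, commutatorElement_def]; group

end H6.TC
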