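import Cfsg.Agent.H6.TC4

/-! Lifting the relations of type `C` over the field with two elements; the Schur multipliers of `PSp`. -/

set_option autoImplicit false
set_option linter.unusedSectionVars false

namespace H6.TC
open Subgroup Cfsg H5 H6.CA StSys Mult Mult.CE Chev TB
open scoped commutatorElement

variable {l : ℕ} {F G E : Type*} [Field F] [Group G] [Group E]

section D
open DN

/-- the system of type `D` of a pair system -/
def toD (P : PS l F G) : StSys (rsD l) F G where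
  x r := P.X r.1.1 r.1.2
  add r := P.add _ _
  comm := fun ⟨⟨a, b⟩, h⟩ ⟨⟨c, d⟩, h'⟩ h1 h2 t u => by
    have k : DN.Ok a b := ⟨h.1, h.2.ne⟩
    have k' : DN.Ok c d := ⟨h'.1, h'.2.ne⟩
    simp only [rsD, ne_eq, Subtype.mk.injEq, Prod.mk.injEq] at h1 h2 ⊢
    split_ifs with e1 e2 e3 e4 <;> simp only [List.map_cons, List.map_nil, List.prod_cons, List.prod_nil, mul_one, pow_one]
    · obtain ⟨rfl, e⟩ := e1
      rw [mul_assoc (_ : F), P.X_nm e]; exact P.c1 k k' e t u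
    · obtain ⟨rfl, e⟩ := e2
      rw [Int.cast_neg, neg_mul_neg, mul_assoc (_ : F), P.X_nm e]
      simpa [P.flip k, P.flip k', P.flip e] using P.c1 k.flip k'.flip e.flip (-t) (-u)
    · obtain ⟨rfl, e⟩ := e3
      rw [Int.cast_neg, neg_mul_neg, mul_assoc (_ : F), P.X_nm e]
      simpa [P.flip k'] using P.c1 k k'.flip e t (-u)
    · obtain ⟨rfl, e⟩ := e4
      rw [mul_assoc (_ : F), P.X_nm e]
      have f1 := P.flip e (t * u)
      have f2 := P.flip k (-t)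
      have f3 := P.c1 (a := b.rev) (b := c) (d := d) (by simpa using k.flip) k' (by simpa using e.flip) (-t) u
      simp only [Fin.rev_rev, neg_neg] at f1 f2 f3
      rw [f1, f2] at f3; rwa [neg_mul]
    · refine P.c0 ?_ t u
      simp only [C0, DN.ok_iff, Fin.ext_iff, DN.rev_val] at h h' h1 h2 e1 e2 e3 e4 k k' ⊢; omega

theorem lfD' {S : StSys (rsD l) F G} (hI : S.Inj) {τ : E →* G} (h : CE τ) (cA : ∀ a b c d, DN.Ok a b → DN.Ok c d →
    DN.Ok a c → DN.Ok a d → DN.pr (DN.nm a b) (DN.nm c d) = 0 → h.Cm S (DN.nm a b) (DN.nm c d)) :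
    ∃ Y : StSys (rsD l) F E, ∀ r t, τ (Y.x r t) = S.x r t := by
  refine slD.exists_lift h hI fun r s e => ?_
  rw [pairD] at e
  by_cases c : DN.Ok r.1.1 s.1.1 ∧ DN.Ok r.1.1 s.1.2
  · simpa only [DN.nm_self] using cA _ _ _ _ (DN.ok r) (DN.ok s) c.1 c.2 (by simpa only [DN.nm_self] using e)
  obtain ⟨x, y, p, rfl, rfl⟩ := DN.typeB e c
  clear e c
  obtain ⟨j, hj⟩ := DN.exists_free [x, y] (by simp)
  obtain ⟨m, hm⟩ := DN.exists_free [x, y, j] (by simp)
  simp only [List.mem_cons, List.not_mem_nil, or_false, forall_eq_or_imp, forall_eq] at hj hm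
  have p' : DN.Ok x y.rev ∧ DN.Ok y.rev m ∧ DN.Ok j y.rev := by simp only [DN.ok_iff, DN.rev_val] at p hj hm ⊢; omega
  refine cm_tri slD h hI (dec_nm p hm.2.1 hm.1) (slD.dsymm (dec_nm p'.1 p'.2.1 hm.1)) (dec_nm hj.1 hm.2.2 hm.1) ?_ ?_ ?_
    (cA _ _ _ _ p hm.2.2 hj.1 hm.1 ?_) (cA _ _ _ _ hm.2.2 p'.1 hj.1.symm p'.2.2 ?_) <;>
    simp only [pairD, pr_nm2, p, p', hj, hm] <;> simp only [DN.ok_iff, DN.ip, DN.rev_val] at p hj hm ⊢ <;> grind
end D

/-- identification of the indices -/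
def ci : DN.Ix l ≃ Kx (l + 2) := finCongr (by omega)
lemma ci_val (a : DN.Ix l) : (ci a).1 = a.1 := rfl
lemma ci_rev (a : DN.Ix l) : ci a.rev = (ci a).rev := Fin.ext (by simp only [ci_val, rev_val, DN.rev_val]; omega)
lemma ci_ok {a b : DN.Ix l} : Ok (ci a) (ci b) ↔ DN.Ok a b := by simp only [Ok, ci_val, DN.ok_iff]; omega
lemma ci_nm {a b : DN.Ix l} (h : DN.Ok a b) : nm (ci (DN.nm a b).1.1) (ci (DN.nm a b).1.2) = nm (ci a) (ci b) := by
  rcases h.nm with ⟨-, e, -⟩ | ⟨-, e, -⟩ <;> simp only [e, ci_rev, nm_flip (ci_ok.2 h).ne]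

lemma exists_fvD (f : Fin (l + 4) → ℤ) : ∃ f', ∀ r : DN.RD l, (rsC _).fv f' (nm (ci r.1.1) (ci r.1.2)) = (DN.rsD l).fv f r := by
  refine ⟨fun k => f k - if k = Fin.last _ then f ⟨l + 2, by omega⟩ else 0, fun r => ?_⟩
  have : ∀ k : Fin (l + 4), (rsC (l + 2)).vec (nm (ci r.1.1) (ci r.1.2)) k = DN.vD r k +
      if k = ⟨l + 2, by omega⟩ then (rsC (l + 2)).vec (nm (ci r.1.1) (ci r.1.2)) (Fin.last _) else 0 := fun k => by
    have := DN.ok_iff.1 (DN.ok r)
    simp only [vC_nm (ci_ok.2 (DN.ok r)).ne, uu, DN.vD, DN.uu, ci_val, Fin.ext_iff, Fin.val_last]; grind (splits := 40)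
  simp only [RS.fv, mul_sub, Finset.sum_sub_distrib, mul_ite, mul_zero, Finset.sum_ite_eq', Finset.mem_univ, if_true]
  rw [sub_eq_iff_eq_add]
  refine (Finset.sum_congr rfl fun k _ => congrArg (· * f k) (this k)).trans ?_
  simp [add_mul, Finset.sum_add_distrib, DN.rsD]

lemma pr_c0 {a b c d : DN.Ix l} (h : C0 (2 * l + 7) a b c d) : nm (ci c) (ci d) = nm (ci a) (ci b) ∨
    (nm (ci c) (ci d) ≠ (rsC _).neg (nm (ci a) (ci b)) ∧ 0 ≤ pr (nm (ci a) (ci b)) (nm (ci c) (ci d))) := by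
  have p := (ci_ok.2 (DN.ok_iff.2 h.1)).ne
  have q := (ci_ok.2 (DN.ok_iff.2 h.2.1)).ne
  simp only [neg_nm p, ne_eq, nm_eq q p, nm_eq q p.symm, pr_nm p, co_nm _ q, ip, ci_val, C0] at h ⊢
  grind (splits := 40)

section two
variable (h2 : (2 : F) = 0)
include h2

lemma neg_two (t : F) : -t = t := by linear_combination -t * h2
lemma pm_two {n : ℤ} (h : n = 1 ∨ n = -1) : (n : F) = 1 := by rcases h with rfl | rfl <;> simp [neg_two h2]
lemma comm_two (S : StSys (rsC l) F G) {r s : RC l} (h1 : s ≠ (rsC l).neg r) (h : 0 ≤ pr r s) (t u : F) :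
    S.x s u * S.x r t = S.x r t * S.x s u := by
  by_cases e : s = r
  · rw [e, ← S.add, ← S.add, add_comm u]
  exact S.commute_of_terms e h1 (fun c hc => by obtain ⟨k, hk⟩ := terms_two h c hc; simp [hk, h2]) t u

/-- the short roots in characteristic two -/
def psC (S : StSys (rsC (l + 2)) F G) : PS l F G where
  X a b := S.x (nm (ci a) (ci b))
  add _ _ := S.add _
  flip h t := by rw [ci_rev, ci_rev, nm_flip (ci_ok.2 h).ne, neg_two h2]
  c1 {a b d} h h' k t u := by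
    have n := ne_nm (ci_ok.2 h').ne (ci_ok.2 h).ne (by simp only [DN.ok_iff, ci_val] at *; omega)
    simpa [tm_s (ci_ok.2 h) (ci_ok.2 h') (ci_ok.2 k), pm_two h2 (ns_pm _ _)] using S.comm _ _ n.1 n.2 t u
  c0 h t u := (pr_c0 h).elim (fun e => by rw [e, ← S.add, ← S.add, add_comm u]) fun e => comm_two h2 S e.1 e.2 t u

lemma psC_inj {S : StSys (rsC (l + 2)) F G} (hI : S.Inj) : (toD (psC h2 S)).Inj := fun f k d hk hd => by
  obtain ⟨f', h⟩ := exists_fvD f
  refine hI f' _ d (h k ▸ hk) ((toD (psC h2 S)).U_le_iff.2 (fun r hr t => S.x_mem_U (And.intro (fun e => hr.1 ?_) (by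
    simpa only [h] using hr.2)) t) hd)
  have := r.2.2; have := k.2.2
  rw [nm_eq (ci_ok.2 (DN.ok r)).ne (ci_ok.2 (DN.ok k)).ne] at e
  simp only [ci_val, Subtype.ext_iff, Prod.ext_iff, Fin.ext_iff] at e ⊢; omega
end two

variable {S : StSys (rsC (l + 2)) F G} {τ : E →* G} (h : CE τ) {a b c d x y : Kx (l + 2)}

lemma cmL (p : Ok x y) (q : Ok d x) (r : y = d.rev ∨ Ok d y) : h.Cm S (nm x y) (nm d d.rev) := by
  obtain ⟨k, e⟩ := exists_free [x, y, d] (by simp)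
  simp only [List.mem_cons, List.not_mem_nil, or_false, forall_eq_or_imp, forall_eq] at e
  have n := ne_nm e.2.1.symm.ne e.1.ne (by simp only [Ok] at p e; omega)
  exact h.cm_of_terms n.1 n.2 (L₁ := []) (L₂ := []) (tm_s e.1 e.2.1.symm p) (by
    rcases ns_pm x y with p | p <;> rcases ns_pm x k with q | q <;> rcases ns_pm k y with r | r <;> simp [p, q, r])
    (long_comm _ e.1.ne q (.inr e.2.2)) (long_comm _ e.2.1.symm.ne e.2.2 r) (by simp)

lemma tm_l' (o : Ok a d) : (nm a.rev d.rev ≠ nm a a.rev ∧ nm a.rev d.rev ≠ (rsC _).neg (nm a a.rev)) ∧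
    (rsC _).terms (nm a a.rev) (nm a.rev d.rev) = [(nm a d.rev, ns a d.rev * ns a.rev d.rev, 1, 1), (nm d d.rev, fl a d.rev, 1, 2)] :=
  ⟨ne_nm o.nes.2.2.2.2.2.2.1 (rv _) (by simp only [Ok, rev_val] at *; omega), by simpa using tm_l o.rev⟩

lemma cmLL (o : Ok d x) : h.Cm S (nm d d.rev) (nm x x.rev) := by
  obtain ⟨a, e⟩ := exists_free [d, x] (by simp)
  simp only [List.mem_cons, List.not_mem_nil, or_false, forall_eq_or_imp, forall_eq] at e
  have n := tm_l' e.1.symm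
  exact h.cm_of_terms n.1.1 n.1.2 (L₁ := [_]) (L₂ := []) n.2 (by rcases fl_pm a d.rev with p | p <;> simp [p])
    (long_comm _ (rv a) e.2 (.inr e.2.rev)) (long_comm _ e.1.symm.nes.2.2.2.2.2.2.1 e.2.rev (.inr o.symm.rev))
    (by simpa using cmL h e.1.symm.rev e.2 (.inr o.symm.rev))

lemma cmSS (o : Ok a d) (p : Ok x y) (q : (Ok a x ∧ Ok a y) ∧ Ok d x ∧ Ok d y) : h.Cm S (nm a d.rev) (nm x y) := by
  have n := tm_l' o
  have m := ne_nm p.ne o.nes.2.2.2.2.2.2.1 (by simp only [Ok, rev_val] at *; omega)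
  refine h.cm_of_terms n.1.1 n.1.2 (L₁ := []) n.2 (by
    rcases ns_pm a d.rev with p | p <;> rcases ns_pm a.rev d.rev with q | q <;> simp [p, q])
    (fun t u => (long_comm _ p.ne q.1.1 (.inr q.1.2) u t).symm) (fun t u => (S.commute_of_terms m.1 m.2 ?_ t u).symm)
    (by simpa using (cmL h p q.2.1 (.inr q.2.2)).symm)
  rw [terms_nil]; · simp
  · simp only [pr_nm o.nes.2.2.2.2.2.2.1, co_nm _ p.ne, ip, Ok, rev_val] at q ⊢; grind
  · refine fun _ => .inl ?_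
    rcases nm_cases o.nes.2.2.2.2.2.2.1 with ⟨-, f, -⟩ | ⟨-, f, -⟩ <;> simp only [f, co_nm _ p.ne, ip, Ok, rev_val] at q ⊢ <;> grind

lemma exists_short (h2 : (2 : F) = 0) (hI : S.Inj) : ∃ y : Kx (l + 2) → Kx (l + 2) → F → E,
    (∀ {a b}, Ok a b → ∀ t, τ (y a b t) = S.x (nm a b) t) ∧ (∀ a b t u, y a b (t + u) = y a b t * y a b u) ∧
    (∀ {a b}, Ok a b → y b.rev a.rev = y a b) ∧
    (∀ {a b d}, Ok a b → Ok b d → Ok a d → y b d 1 * y a b 1 = y a b 1 * y b d 1 * y a d 1) ∧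
    ∀ {a b c d}, Ok a b → Ok c d → 0 ≤ pr (nm a b) (nm c d) → h.Cm S (nm a b) (nm c d) := by
  obtain ⟨Y, hY⟩ := lfD' (psC_inj h2 hI) h fun a b c d p q u v e t t' => by
    have k : DN.Ok b c ∧ DN.Ok b d := by
      rw [DN.pr_nm2 p q] at e; simp only [DN.ok_iff, DN.ip] at *; grind
    simp only [toD, psC, ci_nm p, ci_nm q]
    simpa using cmSS h (d := (ci b).rev) (ci_ok.2 p).rev (ci_ok.2 q) ⟨⟨ci_ok.2 u, ci_ok.2 v⟩,
      (ci_ok.2 k.1).symm.rev.symm, (ci_ok.2 k.2).symm.rev.symm⟩ t t'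
  have o : ∀ {a b : Kx (l + 2)}, Ok a b → DN.Ok (ci.symm a) (ci.symm b) := fun h => ci_ok.1 (by simpa using h)
  have m : ∀ {a b}, Ok a b → ∀ t, τ (Y.x (DN.nm (ci.symm a) (ci.symm b)) t) = S.x (nm a b) t := fun p t => by
    simp only [hY, toD, psC, ci_nm (o p), Equiv.apply_symm_apply]
  refine ⟨fun a b => Y.x (DN.nm (ci.symm a) (ci.symm b)), m, fun _ _ => Y.add _, fun {a b} p => ?_, fun p q r => ?_,
    fun {a b c d} p q e t u => ?_⟩
  · have r : ∀ a : Kx (l + 2), ci.symm a.rev = (ci.symm a).rev := fun a => ci.injective (by simp [ci_rev])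
    refine congrArg _ (DN.pr_two ?_)
    rw [r, r, DN.pr_nm2 (o p).flip (o p)]
    have := o p
    simp only [DN.ok_iff, DN.ip, DN.rev_val] at this ⊢; grind
  · have k := DN.dec_nm (o p) (o q) (o r)
    obtain ⟨ε, e, f⟩ := DN.slD.terms k
    simpa [f, pm_two h2 e, neg_two h2] using Y.comm _ _ k.ne.1 k.ne.2 1 1
  · rw [← m p, ← m q, ← h.comm_eq, commutatorElement_eq_one_iff_mul_comm]
    refine DN.slD.commute Y ?_ t u
    rw [DN.pairD, DN.pr_nm2 (o p) (o q)]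
    have : ∀ a : Kx (l + 2), (ci.symm a).1 = a.1 := fun _ => rfl
    simp only [pr_nm p.ne, co_nm _ q.ne, ip, DN.ip, this] at e ⊢; grind

end H6.TC
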