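import Cfsg.Agent.H6.TC5

/-! The Schur multipliers of the symplectic groups. -/

set_option autoImplicit false
set_option linter.unusedSectionVars false

namespace H6.TC
open Subgroup Cfsg H5 H6.CA StSys Mult Mult.CE Chev TB
open scoped commutatorElement

variable {l : ℕ} {F G E : Type*} [Field F] [Group G] [Group E]

lemma conj_aux {p q u v : E} (p2 : p * p = 1) (q2 : q * q = 1) (u2 : u * u = 1) (h1 : u * p = p * u * v)
    (h2 : v * q = q * v * u) (pv : p * v = v * p) (qu : q * u = u * q) (uv : u * v = v * u) :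
    p * q * p * u * (p * q * p)⁻¹ = v := by
  have a : p * u * p⁻¹ = u * v := by rw [inv_eq_of_mul_eq_one_right p2, mul_assoc, h1, ← mul_assoc, ← mul_assoc, p2, one_mul]
  have b : q * v * q⁻¹ = v * u := by rw [inv_eq_of_mul_eq_one_right q2, mul_assoc, h2, ← mul_assoc, ← mul_assoc, q2, one_mul]
  calc _ = p * (q * (p * u * p⁻¹) * q⁻¹) * p⁻¹ := by group
    _ = p * (u * (q * v * q⁻¹)) * p⁻¹ := by rw [a, ← mul_assoc q, qu]; group
    _ = v := by rw [b, ← mul_assoc u, uv, mul_assoc v, u2, mul_one, pv, mul_inv_cancel_right]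

lemma sq_aux {A B C W : E} (h : B * A = A * B * (C * W)) (b2 : B * B = 1) (c2 : C * C = 1) (bc : Commute B C)
    (bw : Commute B W) (cw : Commute C W) : W * W = 1 ∧ A * B = B * A * (C * W) := by
  have k : C * W * (C * W) = 1 := by
    have e : B * (C * W) = A⁻¹ * B * A := by rw [mul_assoc, h]; group
    have := (bc.mul_right bw).mul_pow 2
    rw [e, sq, sq, sq, b2, one_mul] at this
    rw [← this, show A⁻¹ * B * A * (A⁻¹ * B * A) = A⁻¹ * (B * B) * A by group, b2]; group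
  refine ⟨?_, by rw [h, mul_assoc, k, mul_one]⟩
  have := cw.mul_pow 2
  rwa [sq, sq, sq, k, c2, one_mul, eq_comm] at this

variable {a b c d : Kx l}

lemma pr_nn1 (p : Ok a b) (q : Ok a c) : 0 ≤ pr (nm a b) (nm a c) := by
  simp only [pr_nm p.ne, co_nm _ q.ne, ip, Ok] at p q ⊢; grind
lemma pr_nn2 (p : Ok a c) (q : Ok b c) : 0 ≤ pr (nm a c) (nm b c) := by
  simp only [pr_nm p.ne, co_nm _ q.ne, ip, Ok] at p q ⊢; grind

lemma tm_r (o : Ok a b) : (rsC l).terms (nm a b) (nm b b.rev) = [(nm a b.rev, ns a b.rev * ns a b, 1, 1),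
    (nm a a.rev, -fl a b, 2, 1)] := by
  simp [terms_nm o.ne (rv b) o.nes.2.2.1, tm, o.nes, show ns a a.rev = 1 from if_pos (long_iff.2 rfl).le,
    show ns b b.rev = 1 from if_pos (long_iff.2 rfl).le, -Fin.val_rev]

lemma cls_neg {r s : RC l} (h : pr r s < 0) (h2 : s ≠ (rsC l).neg r) : ∃ a b d, r = nm a b ∧ s = nm b d ∧
    ((Ok a b ∧ Ok b d ∧ Ok a d) ∨ (b = a.rev ∧ Ok a d) ∨ (d = b.rev ∧ Ok a b)) := by
  have key : ∀ a b d : Kx l, a ≠ b → b ≠ d → r = nm a b → s = nm b d → ∃ a b d, r = nm a b ∧ s = nm b d ∧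
      ((Ok a b ∧ Ok b d ∧ Ok a d) ∨ (b = a.rev ∧ Ok a d) ∨ (d = b.rev ∧ Ok a b)) := fun a b d p q e f => by
    refine ⟨a, b, d, e, f, ?_⟩
    subst e f
    rw [neg_nm p, ne_eq, nm_eq q p.symm] at h2
    simp only [pr_nm p, co_nm _ q, ip, Ok, ne_eq, Fin.ext_iff, rev_val] at h p q ⊢
    grind (splits := 40)
  have p := r.2.1
  have q := s.2.1
  have e := (nm_self r).symm
  have f := (nm_self s).symm
  have e' := ((nm_flip p).trans (nm_self r)).symm
  have f' := ((nm_flip q).trans (nm_self s)).symm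
  obtain k | k | k | k : r.1.2 = s.1.1 ∨ r.1.1.rev = s.1.2.rev ∨ r.1.1.rev = s.1.1 ∨ r.1.2 = s.1.2.rev := by
    simp only [pr, ip, Fin.ext_iff, rev_val] at h ⊢; grind
  exacts [key _ _ _ p (k ▸ q) e (k ▸ f), key _ _ _ (flip p) (k ▸ flip q) e' (k ▸ f'), key _ _ _ (flip p) (k ▸ q) e' (k ▸ f),
    key _ _ _ p (k ▸ flip q) e (k ▸ f')]

lemma cls_long {x y : Kx l} (o : Ok x y) (h : 0 ≤ pr (nm x y) (nm d d.rev)) :
    (Ok d x ∧ (y = d.rev ∨ Ok d y)) ∨ (x = d ∧ Ok d y.rev) := by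
  simp only [pr_nm o.ne, co_nm _ (rv d), ip, Ok, Fin.ext_iff, rev_val] at h o ⊢
  grind (splits := 40)

lemma root_cases' (r : RC l) : (∃ a b, Ok a b ∧ r = nm a b) ∨ ∃ d : Kx l, r = nm d d.rev :=
  (root_cases r).imp_right fun ⟨d, e⟩ => ⟨d.rev, by rwa [Fin.rev_rev]⟩

theorem lfC_two {S : ChevSys (rsC (l + 2)) F G} (hF : ∀ t : F, t = 0 ∨ t = 1) {τ : E →* G} (h : CE τ) :
    ∃ Y : StSys (rsC (l + 2)) F E, ∀ r t, τ (Y.x r t) = S.x r t := by
  classical
  have h2 : (2 : F) = 0 := (hF 2).resolve_right fun e => one_ne_zero (α := F) (by linear_combination e)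
  obtain ⟨y, ym, ya, yf, yr, yc⟩ := exists_short h h2 S.inj
  have y0 : ∀ a b, y a b 0 = 1 := fun a b => by simpa using ya a b 0 0
  have y2 : ∀ a b, y a b 1 * y a b 1 = 1 := fun a b => by rw [← ya, one_add_one_eq_two, h2, y0]
  have x2 : ∀ r, (S.x r 1)⁻¹ = S.x r 1 := fun r => by rw [← S.x_neg, neg_two h2]
  have yy : ∀ {a b c d}, Ok a b → Ok c d → 0 ≤ pr (nm a b) (nm c d) → y a b 1 * y c d 1 = y c d 1 * y a b 1 :=
    fun p q e => (yc p q e).comm (ym p 1) (ym q 1)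
  have rr : ∀ {a d : Kx (l + 2)}, Ok a d → Ok a.rev d.rev := fun o => o.rev.symm.rev.symm
  obtain ⟨W, hW⟩ : ∃ W : Kx (l + 2) → Kx (l + 2) → E, ∀ a d, W a d =
    (y a d.rev 1)⁻¹ * h.c (S.x (nm a.rev d.rev) 1) (S.x (nm a a.rev) 1) := ⟨_, fun _ _ => rfl⟩
  have rel : ∀ {a d}, Ok a d → ∀ {A}, τ A = S.x (nm a a.rev) 1 →
      y a.rev d.rev 1 * A = A * y a.rev d.rev 1 * (y a d.rev 1 * W a d) := fun {a d} o {A} hA => by
    have := h.comm_eq (y a.rev d.rev 1)⁻¹ A⁻¹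
    rw [map_inv, map_inv, ym (rr o), hA, x2, x2] at this
    rw [hW, ← this, commutatorElement_def]; group
  have Wm : ∀ {a d}, Ok a d → τ (W a d) = S.x (nm d d.rev) 1 := fun {a d} o => by
    have := congrArg τ (rel o (h.τ_s _))
    have k := S.comm _ _ (tm_l' o).1.1 (tm_l' o).1.2 1 1
    simp only [map_mul, ym (rr o), ym o.rev, h.τ_s] at this
    simpa [this, (tm_l' o).2, pm_two h2 (ns_pm _ _), pm_two h2 (fl_pm _ _), neg_two h2] using k
  have Wi : ∀ {j k d}, Ok j k → Ok d j → Ok d k → W k d = W j d := fun {j k d} o p q => by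
    obtain ⟨c, c0, -, c2, c3⟩ := refl_nm S.nconj o
    have c1 : ∀ r, c r = 1 := fun r => (hF _).resolve_left (c0 r)
    have hg : τ (y j k 1 * y k j 1 * y j k 1) = S.n (nm j k) 1 := by
      simp [StSys.n, ym o, ym o.symm, neg_nm o.ne, neg_two h2]
    have e1 := h.c_conj (y j k 1 * y k j 1 * y j k 1) (S.x (nm d k) 1) (S.x (nm k k.rev) 1)
    rw [hg, c2 p q, c3, c1, c1, mul_one] at e1
    have e2 := conj_aux (y2 j k) (y2 k j) (y2 k d.rev) (yr o q.symm.rev p.symm.rev) (yr o.symm p.symm.rev q.symm.rev)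
      (yy o p.symm.rev (pr_nn1 o p.symm.rev)) (yy o.symm q.symm.rev (pr_nn1 o.symm q.symm.rev))
      (yy q.symm.rev p.symm.rev (pr_nn2 q.symm.rev p.symm.rev))
    rw [← n_fix h (cmL h o p (.inr q)) (neg_nm o.ne ▸ cmL h o.symm q (.inr p)) hg (Wm q.symm), hW, hW, nm_flip q.ne,
      nm_flip p.ne, e1, ← e2]; group
  have W2 : ∀ {a d}, Ok a d → ∀ {A}, τ A = S.x (nm a a.rev) 1 → W a d * W a d = 1 ∧
      A * y a.rev d.rev 1 = y a.rev d.rev 1 * A * (y a d.rev 1 * W a d) := fun {a d} o {A} hA =>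
    sq_aux (rel o hA) (y2 _ _) (y2 _ _) (yy (rr o) o.rev (pr_nn2 (rr o) o.rev))
      ((cmL h (rr o) o.symm.rev (.inl rfl)).comm (ym (rr o) 1) (Wm o)) ((cmL h o.rev o.symm (.inl rfl)).comm (ym o.rev 1) (Wm o))
  choose f hf using fun d : Kx (l + 2) => exists_free [d] (by simp)
  replace hf := fun d => (hf d d (by simp)).symm
  have Ww : ∀ {a d}, Ok a d → W a d = W (f d) d := fun {a d} o => by
    obtain ⟨k, e⟩ := exists_free [a, f d, d] (by simp)
    simp only [List.mem_cons, List.not_mem_nil, or_false, forall_eq_or_imp, forall_eq] at e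
    rw [← Wi e.1 o.symm e.2.2, Wi e.2.1 (hf d).symm e.2.2]
  obtain ⟨Y, Ys, Yl⟩ : ∃ Y : RC (l + 2) → F → E, (∀ {a b}, Ok a b → Y (nm a b) = y a b) ∧
      ∀ d t, Y (nm d d.rev) t = if t = 0 then 1 else W (f d) d := by
    refine ⟨fun r t => if Ok r.1.1 r.1.2 then y r.1.1 r.1.2 t else if t = 0 then 1 else W (f r.1.1) r.1.1,
      fun {a b} o => funext fun t => ?_, fun d t => ?_⟩
    · rcases nm_cases o.ne with ⟨-, e, -⟩ | ⟨-, e, -⟩ <;> simp [e, o, (rr o).symm, yf o]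
    · have : ¬ Ok d d.rev := fun o => o.2 (long_iff.2 rfl)
      rcases nm_cases (rv d) with ⟨-, e, -⟩ | ⟨-, e, -⟩ <;> simp [e, this]
  have Y0 : ∀ r, Y r 0 = 1 := fun r => by rcases root_cases' r with ⟨a, b, o, rfl⟩ | ⟨d, rfl⟩ <;> simp [*]
  have Ym : ∀ r t, τ (Y r t) = S.x r t := fun r t => by
    rcases root_cases' r with ⟨a, b, o, rfl⟩ | ⟨d, rfl⟩
    · rw [Ys o, ym o]
    · rcases hF t with rfl | rfl <;> simp [Yl, Wm (hf d)]
  refine ⟨⟨Y, fun r t u => ?_, fun r s h1 h1' t u => ?_⟩, Ym⟩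
  · rcases hF t with rfl | rfl
    · simp [Y0]
    rcases hF u with rfl | rfl
    · simp [Y0]
    rw [one_add_one_eq_two, h2, Y0]
    rcases root_cases' r with ⟨a, b, o, rfl⟩ | ⟨d, rfl⟩
    · rw [Ys o, y2]
    · simpa [Yl] using (W2 (hf d) (h.τ_s _)).1.symm
  have z : (∀ c ∈ (rsC (l + 2)).terms r s, (c.2.1 : F) * (-t) ^ c.2.2.1 * u ^ c.2.2.2 = 0) → (((rsC (l + 2)).terms r s).map
      fun c => Y c.1 ((c.2.1 : F) * (-t) ^ c.2.2.1 * u ^ c.2.2.2)).prod = 1 := fun e =>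
    List.prod_eq_one fun x hx => by obtain ⟨c, hc, rfl⟩ := List.mem_map.1 hx; rw [e c hc, Y0]
  rcases hF t with rfl | rfl
  · rw [z fun c hc => by simp [((rsC _).terms_vec r s _ _ _ _ hc).1.ne']]; simp [Y0]
  rcases hF u with rfl | rfl
  · rw [z fun c hc => by simp [((rsC _).terms_vec r s _ _ _ _ hc).2.1.ne']]; simp [Y0]
  rcases le_or_gt 0 (pr r s) with e | e
  · rw [z fun c hc => by obtain ⟨k, hk⟩ := terms_two e c hc; simp [hk, h2], mul_one]
    have cl : ∀ {x y d : Kx (l + 2)}, Ok x y → 0 ≤ pr (nm x y) (nm d d.rev) → h.Cm S.toStSys (nm x y) (nm d d.rev) :=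
      fun {x y d} o e => (cls_long o e).elim (fun k => cmL h o k.1 k.2) fun k =>
        nm_flip o.ne ▸ cmL h (rr o).symm k.2 (.inl (by rw [k.1]))
    refine (Cm.comm (h := h) ?_ (Ym r 1) (Ym s 1)).symm
    rcases root_cases' r with ⟨a, b, o, rfl⟩ | ⟨d, rfl⟩ <;> rcases root_cases' s with ⟨a', b', o', rfl⟩ | ⟨d', rfl⟩
    exacts [yc o o' e, cl o e, (cl o' (pr_comm _ _ ▸ e)).symm, cmLL h (by
      rw [ne_eq, nm_eq (rv _) (rv _)] at h1
      rw [neg_nm (rv _), ne_eq, nm_eq (rv _) (rev_ne _)] at h1'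
      simp only [Ok, rev_val] at h1 h1' ⊢; omega)]
  clear z
  obtain ⟨a, b, d, rfl, rfl, ⟨p, q, o⟩ | ⟨rfl, o⟩ | ⟨rfl, o⟩⟩ := cls_neg e h1'
  · simpa [tm_s p q o, pm_two h2 (ns_pm _ _), neg_two h2, Ys, p, q, o] using yr p q o
  · have := rel o.rev (Ym _ 1)
    simpa [tm_l o, pm_two h2 (ns_pm _ _), pm_two h2 (fl_pm _ _), neg_two h2, Ys o, Ys o.symm.rev.symm, Ww o.rev,
      show Y (nm d.rev d) 1 = _ by simpa using Yl d.rev 1] using this
  · have := (W2 o.symm (Ym _ 1)).2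
    rw [yf o, show y b a.rev = y a b.rev by simpa using yf o.rev] at this
    simpa [tm_r o, pm_two h2 (ns_pm _ _), pm_two h2 (fl_pm _ _), neg_two h2, Ys o, Ys o.rev, Ww o.symm, Yl a] using this

theorem schurC {F : Type*} [Field F] [Fintype F] (h0 : l = 0 → 3 ≤ Fintype.card F) (h1 : l = 1 → Fintype.card F ≠ 2) :
    HasCyclicSchurMultiplier (PSp (l + 2) F) (Nat.gcd 2 (Fintype.card F - 1)) := by
  classical
  obtain ⟨i⟩ := isoC (F := F) (l := l)
  obtain ⟨e⟩ := DN.mu_equiv F 2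
  have := Cfsg.Agent.S0270.result (F := F) (l + 2) (by omega) fun e => h0 (by omega)
  have hS := DN.tr_grp (S := (sysC F l).restrict) StSys.restrict_grp i
  have : Finite (PSp (l + 2) F) := Finite.of_equiv _ i.toEquiv
  have hv : l = 0 → ∃ v : F, v ≠ 0 ∧ v ≠ 1 := fun e => exists_ne_of_card (by have := h0 e; omega)
  set S := DN.tr (sysC F l).restrict i
  have hZ : center (PSp (l + 2) F) = ⊥ :=
    (IsSimpleGroup.eq_bot_or_eq_top_of_normal _ inferInstance).resolve_right fun h => by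
      have := perfectC S.nconj hS hv
      rw [(commutator_eq_bot_iff_center_eq_top _).2 h] at this
      exact bot_ne_top this
  have r3 : S.R3 := S.nconj.r3 fun y _ hy => mem_bot.1 (hZ.le (mem_center_iff.2 fun a => by
    have : S.grp ≤ centralizer {y} := S.U_le_iff.2 fun r _ t => mem_centralizer_singleton_iff.2
      (mul_inv_eq_iff_eq_mul.1 (hy r t)).symm
    exact mem_centralizer_singleton_iff.1 (this (hS.ge (mem_top a)))))
  refine DN.schur_sys S rk2C hS hZ (perfectC (S.pull rk2C _ S.lift_x).nconj (cover_grp _ _) hv)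
    (injC (stC F l).lift_x) ((MulEquiv.subgroupCongr kerC).trans ((equivMapOfInjective _ _ fun x y h => ?_).symm.trans e))
    fun _ _ _ h => ?_
  · simpa using congrFun h 0
  by_cases c : Fintype.card F = 2
  · obtain ⟨l, rfl⟩ : ∃ k, l = k + 2 := ⟨l - 2, by have := mt h0 (by omega); have := fun e => h1 e c; omega⟩
    refine lfC_two (fun t => ?_) h
    by_contra! k
    have := Finset.card_le_univ {0, 1, t}
    rw [Finset.card_eq_three.2 ⟨0, 1, t, zero_ne_one, k.1.symm, k.2.symm, rfl⟩] at this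
    omega
  exact (four_or_three (exists_ne_of_card c)).elim (lfC_four r3 · h) fun k => lfC_three r3 k.1 k.2 h

end H6.TC
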