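import Cfsg.Agent.H6.SC1

/-! Generation of Chevalley groups by two elements: general tools. -/

set_option autoImplicit false
set_option linter.unusedSectionVars false

namespace H6.TG
open Subgroup Cfsg H6.CA StSys

variable {Φ ι : Type} [Fintype ι] [DecidableEq ι] {R : RS Φ ι} {F G : Type*} [Field F] [Group G] {S : StSys R F G}
  {M : Subgroup G} {r s k γ : Φ}

/-- generated by two elements -/
def Two (G : Type*) [Group G] : Prop := ∃ a b : G, closure {a, b} = ⊤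

lemma Two.equiv {H : Type*} [Group H] (h : Two G) (e : G ≃* H) : Two H := by
  obtain ⟨a, b, h⟩ := h
  have := congrArg (map e.toMonoidHom) h
  rw [MonoidHom.map_closure, Set.image_pair, map_top_of_surjective _ e.surjective] at this
  exact ⟨e a, e b, this⟩

variable (S M) in
/-- the root subgroup is contained in `M` -/
def Fu (r : Φ) : Prop := ∀ t, S.x r t ∈ M
variable (S M) in
/-- the root subgroup meets `M` -/
def So (r : Φ) : Prop := ∃ t ≠ 0, S.x r t ∈ M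
variable (S) in
/-- conjugation of root subgroups -/
def Mv (g : G) (r s : Φ) : Prop := ∃ c ≠ 0, ∀ t, g * S.x r t * g⁻¹ = S.x s (c * t)
/-- ring generators -/
def Gen (v : F) : Prop := ∀ A : AddSubgroup F, 1 ∈ A → (∀ t ∈ A, v * t ∈ A) → ∀ t, t ∈ A

lemma Fu.so (h : Fu S M r) : So S M r := ⟨1, one_ne_zero, h 1⟩
lemma So.fu (hF : ∀ t : F, t = 0 ∨ t = 1) (h : So S M r) : Fu S M r := fun t => by
  obtain ⟨c, c0, h⟩ := h
  rcases hF t with rfl | rfl
  · simp
  · rwa [(hF c).resolve_left c0] at h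

lemma Mv.fu {g : G} (h : Mv S g r s) (hg : g ∈ M) : Fu S M s ↔ Fu S M r := by
  obtain ⟨c, c0, h⟩ := h
  have k : ∀ t, S.x s (c * t) ∈ M ↔ S.x r t ∈ M := fun t => by
    rw [← h, mul_mem_cancel_right (inv_mem hg), mul_mem_cancel_left hg]
  exact ⟨fun a t => (k t).1 (a _), fun a t => mul_inv_cancel_left₀ c0 t ▸ (k _).2 (a _)⟩

lemma Mv.so {g : G} (h : Mv S g r s) (hg : g ∈ M) : So S M s ↔ So S M r := by
  obtain ⟨c, c0, h⟩ := h
  have k : ∀ t, S.x s (c * t) ∈ M ↔ S.x r t ∈ M := fun t => by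
    rw [← h, mul_mem_cancel_right (inv_mem hg), mul_mem_cancel_left hg]
  exact ⟨fun ⟨t, a, b⟩ => ⟨c⁻¹ * t, by simp [c0, a], (k _).1 (by rwa [mul_inv_cancel_left₀ c0])⟩,
    fun ⟨t, a, b⟩ => ⟨c * t, by simp [c0, a], (k _).2 b⟩⟩

lemma Fu.conj {y : G} (hy : y ∈ M) {c : F} (c0 : c ≠ 0) (e : ∀ t, y⁻¹ * S.x s t * y = (S.x r c)⁻¹ * S.x s t * S.x r c)
    (h : Fu S M s) (h1 : s ≠ r ∧ s ≠ R.neg r) {ε : ℤ} (hT : R.terms r s = [(k, ε, 1, 1)]) (hε : (ε : F) ≠ 0) : Fu S M k := fun t => by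
  have a := S.comm r s h1.1 h1.2 c (-(ε * c)⁻¹ * t)
  have b := mul_mem (mul_mem (inv_mem hy) (h (-(ε * c)⁻¹ * t))) hy
  rw [e, mul_assoc, a, mul_assoc, inv_mul_cancel_left, mul_mem_cancel_left (h _), hT] at b
  simpa [show (ε : F) * c * ((c⁻¹ * (ε : F)⁻¹) * t) = t by field_simp] using b

lemma Fu.add (h' : So S M r) (h : Fu S M s) (h1 : s ≠ r ∧ s ≠ R.neg r) {ε : ℤ} (hT : R.terms r s = [(k, ε, 1, 1)])
    (hε : (ε : F) ≠ 0) : Fu S M k :=
  let ⟨_, c0, hc⟩ := h'; h.conj hc c0 (fun _ => rfl) h1 hT hε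

lemma So.full {y : G} (hy : y ∈ M) {v : F} (hv : Gen v) (e : ∀ t, y * S.x r t * y⁻¹ = S.x r (v * t)) (h : So S M r) :
    Fu S M r := fun t => by
  obtain ⟨c, c0, h⟩ := h
  have := hv ⟨⟨⟨{t | S.x r (c * t) ∈ M}, fun a b => by simpa [mul_add, S.add] using mul_mem a b⟩, by simp⟩,
    fun a => by simpa [S.x_neg] using a⟩ (by simpa using h) (fun t ht => by
      have := mul_mem (mul_mem hy ht) (inv_mem hy)
      rwa [e, mul_left_comm] at this) (c⁻¹ * t)
  simpa [mul_inv_cancel_left₀ c0] using this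

lemma Fu.h_mem (h : Fu S M r) (h' : Fu S M (R.neg r)) (t : F) : S.h r t ∈ M :=
  mul_mem (mul_mem (mul_mem (h _) (h' _)) (h _)) (mul_mem (mul_mem (h _) (h' _)) (h _))

lemma exists_gen [Fintype F] (hF : Fintype.card F ≠ 2) : ∃ v : F, v ≠ 0 ∧ v ≠ 1 ∧ Gen v ∧ Gen (v * v) := by
  obtain ⟨g, hg⟩ := IsCyclic.exists_monoid_generator (α := Fˣ)
  have k : Gen (g * g : F) := fun A h1 h t => by
    have q : ∀ a : F, a * a ∈ A := fun a => by
      by_cases a0 : a = 0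
      · simp [a0]
      obtain ⟨n, hn⟩ := hg (Units.mk0 a a0)
      obtain rfl : (g : F) ^ n = a := by simpa using congrArg Units.val hn
      clear a0 hn
      induction n with
      | zero => simpa using h1
      | succ n ih => convert h _ ih using 1; ring
    by_cases c : ringChar F = 2
    · obtain ⟨a, rfl⟩ := FiniteField.isSquare_of_char_two c t
      exact q a
    · have := Ring.two_ne_zero c
      convert sub_mem (q ((t + 1) / 2)) (q ((t - 1) / 2)) using 1; field_simp; ring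
  refine ⟨g, g.ne_zero, fun e => ?_, fun A h1 h => k A h1 fun t ht => mul_assoc (g : F) g t ▸ h _ (h t ht), k⟩
  obtain ⟨v, v0, v1⟩ := Chev.exists_ne_of_card hF
  obtain ⟨n, hn⟩ := hg (Units.mk0 v v0)
  exact v1 (by simpa [e] using (congrArg Units.val hn).symm)

lemma two_of [Fintype F] [Finite G] {y g : G} {n : ℕ} (hc : Commute (S.x r 1) y) (hn : y ^ n = 1)
    (hq : (Fintype.card F).Coprime n) (H : ∀ M : Subgroup G, So S M r → y ∈ M → g ∈ M → M = ⊤) : Two G := by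
  have a : S.x r 1 * y ∈ closure {S.x r 1 * y, g} := subset_closure (by simp)
  have b : ∀ m : ℕ, S.x r 1 ^ m = S.x r m := fun m => by
    induction m with
    | zero => simp
    | succ m ih => rw [pow_succ, ih, ← S.add, Nat.cast_succ]
  have c := pow_mem a (Fintype.card F)
  rw [hc.mul_pow, b, FiniteField.cast_card_eq_zero, S.x_zero, one_mul] at c
  have d := zpowers_le.2 c (mem_zpowers_pow_iff.2 (hq.coprime_dvd_right (orderOf_dvd_of_pow_eq_one hn)))
  exact ⟨_, g, H _ ⟨1, one_ne_zero, (mul_mem_cancel_right d).1 a⟩ d (subset_closure (by simp))⟩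

lemma cop [Fintype F] : (Fintype.card F).Coprime (Fintype.card F - 1) := by
  obtain ⟨n, h⟩ : ∃ n, Fintype.card F = n + 1 := ⟨_, (Nat.sub_add_cancel Fintype.card_pos).symm⟩
  simp [h]

lemma h_pow [Fintype F] (h3 : S.R3) (γ : Φ) {v : F} (v0 : v ≠ 0) : S.h γ v ^ (Fintype.card F - 1) = 1 := by
  classical
  have := congrArg (h3.hHom γ) (pow_card_eq_one (x := Units.mk0 v v0))
  rwa [map_pow, map_one, Fintype.card_units] at this

lemma exists_y [Fintype F] (hN : S.NConj) (h3 : S.R3) (e : R.pair γ s = 1) {v : F} (v0 : v ≠ 0) (v1 : v ≠ 1) :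
    ∃ c ≠ 0, (S.h γ v * S.x s c) ^ (Fintype.card F - 1) = 1 := by
  have := hN.h_conj γ v0 s v⁻¹
  rw [e, zpow_one, mul_inv_cancel₀ v0] at this
  refine ⟨-v⁻¹ + 1, fun h => v1 (inv_eq_one.1 (by linear_combination -h)), ?_⟩
  rw [show S.h γ v * S.x s (-v⁻¹ + 1) = (S.x s 1)⁻¹ * S.h γ v * (S.x s 1)⁻¹⁻¹ by
    rw [S.add, S.x_neg, inv_inv]; nth_rw 2 [← this]; group, conj_pow, h_pow h3 γ v0, mul_one, mul_inv_cancel]

lemma h_comm (hN : S.NConj) (e : R.pair γ s = 0) {v : F} (v0 : v ≠ 0) (t : F) : Commute (S.x s t) (S.h γ v) := by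
  have := hN.h_conj γ v0 s t
  rw [e, zpow_zero, one_mul, mul_inv_eq_iff_eq_mul] at this
  exact this.symm

lemma y_three (hN : S.NConj) (hF : ∀ t : F, t = 0 ∨ t = 1) (s : Φ) : (S.x (R.neg s) 1 * S.x s 1) ^ 3 = 1 := by
  have h2 : (-1 : F) = 1 := (hF _).resolve_left (by simp)
  obtain ⟨w, c, e, f⟩ := TB.n_acts hN s
  have a := e.conj s 1
  have k : ∀ r, S.x r 1 * S.x r 1 = 1 := fun r => by nth_rw 1 [← h2]; rw [← S.add, neg_add_cancel, S.x_zero]
  rw [show R.act w s = R.neg s from R.vec_inj (by rw [f, R.pair_self, R.vec_neg, two_smul]; abel),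
    (hF _).resolve_left (e.ne s), mul_one, StSys.n, inv_one, h2, mul_inv_eq_iff_eq_mul, mul_assoc, k, mul_one] at a
  calc _ = S.x (R.neg s) 1 * (S.x s 1 * S.x (R.neg s) 1 * S.x s 1) * (S.x (R.neg s) 1 * S.x s 1) := by
        simp only [pow_three, mul_assoc]
    _ = S.x s 1 * (S.x (R.neg s) 1 * S.x (R.neg s) 1) * S.x s 1 := by rw [← a]; simp only [mul_assoc]
    _ = 1 := by rw [k, mul_one, k]

lemma cox (hN : S.NConj) {I : Type} (nm : I → I → Φ) (P : I → I → Prop) (sg : ι → I → I)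
    (h1 : ∀ k a b, P a b → P (sg k a) (sg k b) ∧ R.refl k (nm a b) = nm (sg k a) (sg k b)) (π : ℕ → I → I) (N : ℕ)
    (κ : ∀ j < N, ι) (h0 : ∀ a, π 0 a = a) (hs : ∀ j hj a, π (j + 1) a = π j (sg (κ j hj) a)) :
    ∃ g, ∀ a b, P a b → Mv S g (nm a b) (nm (π N a) (π N b)) := by
  suffices ∀ j ≤ N, ∃ g, ∀ a b, P a b → Mv S g (nm a b) (nm (π j a) (π j b)) from this N le_rfl
  intro j hj
  induction j with
  | zero => exact ⟨1, fun a b _ => ⟨1, one_ne_zero, by simp [h0]⟩⟩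
  | succ j ih =>
    obtain ⟨g, hg⟩ := ih (by omega)
    refine ⟨g * S.n (R.simple (κ j hj)) 1, fun a b p => ?_⟩
    obtain ⟨c, c0, hc⟩ := hg _ _ (h1 (κ j hj) a b p).1
    refine ⟨c * _, mul_ne_zero c0 ((hN.actsC (κ j hj) one_ne_zero).ne (nm a b)), fun t => ?_⟩
    rw [hs j hj, hs j hj, mul_assoc c, ← hc, ← (h1 _ a b p).2, ← hN _ 1 one_ne_zero]; group

lemma two_cases [Fintype F] (c : Fintype.card F = 2) (t : F) : t = 0 ∨ t = 1 := by
  classical
  by_contra! k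
  have := Finset.card_le_univ {0, 1, t}
  rw [Finset.card_eq_three.2 ⟨0, 1, t, zero_ne_one, k.1.symm, k.2.symm, rfl⟩] at this
  omega

end H6.TG
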