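import Cfsg.Agent.H6.TG1

/-! The symplectic groups are generated by two elements. -/

set_option autoImplicit false
set_option linter.unusedSectionVars false

namespace H6.TG
open Subgroup Cfsg H6.CA StSys TC

variable {l : ℕ} {F G : Type*} [Field F] [Fintype F] [Group G] [Finite G]

/-- partial Coxeter elements -/
def pvC (l j a : ℕ) : ℕ := if j ≤ l + 1 then (if a < j then a + 1 else if a = j then 0 else
  if 2 * l + 3 < a + j then a - 1 else if a + j = 2 * l + 3 then 2 * l + 3 else a) else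
    if a ≤ l then a + 1 else if a = l + 1 then 2 * l + 3 else if a = l + 2 then 0 else a - 1
/-- partial Coxeter elements -/
def pC (j : ℕ) (a : Kx l) : Kx l := ⟨pvC l j a, by simp only [pvC]; split_ifs <;> omega⟩

lemma pC_val (a : Kx l) : (pC (l + 2) a).1 =
    if a.1 ≤ l then a.1 + 1 else if a.1 = l + 1 then 2 * l + 3 else if a.1 = l + 2 then 0 else a.1 - 1 := if_neg (by omega)

lemma indC {Q : Kx l → Prop} (h : ∀ a, Q (pC (l + 2) a) ↔ Q a) (a b : Kx l) : Q a ↔ Q b := by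
  have k : ∀ k (hk : k < 2 * l + 4), Q ⟨if k ≤ l + 1 then k else 3 * l + 5 - k, by split_ifs <;> omega⟩ ↔ Q 0 := fun k => by
    induction k with
    | zero => exact fun _ => by simp
    | succ k ih =>
      intro hk
      rw [← ih (by omega), ← h ⟨if k ≤ l + 1 then k else _, _⟩]
      exact iff_of_eq (congrArg Q (Fin.ext (by simp only [pC_val]; split_ifs <;> omega)))
  have : ∀ a : Kx l, Q a ↔ Q 0 := fun a => by
    rw [← k (if a.1 ≤ l + 1 then a else 3 * l + 5 - a) (by split_ifs <;> omega)]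
    exact iff_of_eq (congrArg Q (Fin.ext (by dsimp only; split_ifs <;> omega)))
  rw [this a, this b]

lemma pC_succ (j : ℕ) (hj : j < l + 2) (a : Kx l) : pC (j + 1) a = pC j (TC.sg ⟨j, hj⟩ a) :=
  Fin.ext (by simp only [pC, pvC, TC.sg, sv]; grind (splits := 60))

set_option maxHeartbeats 2000000 in
theorem twoC {S : StSys (rsC l) F G} (hN : S.NConj) (hS : S.grp = ⊤) (hF : l = 0 → Fintype.card F ≠ 2) : Two G := by
  have h3 := SC.r3_fin hN hS
  obtain ⟨g, hg⟩ := cox hN nm (· ≠ ·) TC.sg (fun k a b p => ⟨sg_ne p k, by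
      rcases nm_cases p with ⟨-, e, -⟩ | ⟨-, e, -⟩ <;> simp only [rsC, e, sg_rev, nm_flip (sg_ne p k)]⟩) pC (l + 2)
    (fun j hj => ⟨j, hj⟩) (fun a => Fin.ext (by simp only [pC, pvC]; split_ifs <;> omega)) pC_succ
  have pr : ∀ a : Kx l, pC (l + 2) a.rev = (pC (l + 2) a).rev := fun a =>
    Fin.ext (by simp only [pC_val, rev_val]; split_ifs <;> omega)
  have po : ∀ a : Kx l, Ok a (pC (l + 2) a) := fun a => by simp only [Ok, pC_val]; split_ifs <;> omega
  have e : ∀ (i : ℕ) (h : i ≤ l), pC (l + 2) (⟨i, by omega⟩ : Kx l) = ⟨i + 1, by omega⟩ := fun i h =>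
    Fin.ext (by simp [pC_val, h])
  have sh : ∀ {M : Subgroup G}, g ∈ M → Fu S M (nm ⟨0, by omega⟩ ⟨1, by omega⟩) → ∀ a, Fu S M (nm a (pC (l + 2) a)) :=
    fun hM h a => (indC (Q := fun a => Fu S _ (nm a (pC (l + 2) a))) (fun a => (hg _ _ (po a).ne).fu hM) a _).2 (e 0 l.zero_le ▸ h)
  have lg : ∀ {M : Subgroup G}, g ∈ M → ∀ a b : Kx l, Fu S M (nm a a.rev) ↔ Fu S M (nm b b.rev) := fun hM =>
    indC (Q := fun a => Fu S _ (nm a a.rev)) fun a => pr a ▸ (hg _ _ (rv a)).fu hM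
  have fin : ∀ M : Subgroup G, g ∈ M → Fu S M (nm ⟨0, by omega⟩ ⟨1, by omega⟩) → ∀ a : Kx l, Fu S M (nm a a.rev) → M = ⊤ :=
    fun M hM h a h' => by
    have k : ∀ a b : Kx l, b.1 = a.1 + 1 → a.1 ≤ l + 1 → Fu S M (nm a b) ∧ Fu S M (nm b a) := fun a b p q => by
      by_cases c : a.1 = l + 1
      · obtain rfl : b = a.rev := Fin.ext (by rw [rev_val]; omega)
        exact ⟨(lg hM _ _).1 h', by simpa using (lg hM _ a.rev).1 h'⟩
      obtain rfl : b = pC (l + 2) a := Fin.ext (by rw [pC_val, if_pos (by omega), p])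
      exact ⟨sh hM h a, nm_flip (po a).symm.ne ▸ pr a ▸ sh hM h a.rev⟩
    refine top_unique (hS.ge.trans (hN.grp_le_of_simple' (fun j => ?_) fun j => ?_))
    · exact nm_self ((rsC l).simple j) ▸ (k _ _ rfl (Nat.lt_succ_iff.1 j.2)).1
    · exact nm_self ((rsC l).simple j) ▸ neg_nm ((rsC l).simple j).2.1 ▸ (k _ _ rfl (Nat.lt_succ_iff.1 j.2)).2
  set a : Kx l := ⟨0, by omega⟩ with ha
  set b : Kx l := ⟨1, by omega⟩ with hb
  have o : Ok a b := by simp only [Ok, ha, hb]; omega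
  by_cases c : Fintype.card F = 2
  · have h2 := two_cases c
    have := mt hF (not_not.2 c)
    set d : Kx l := ⟨l + 1, by omega⟩ with hd
    have p : Ok d a ∧ Ok d b := by simp only [Ok, ha, hb, hd]; omega
    have q : Ok d.rev a ∧ Ok d.rev b := ⟨p.1.symm.rev.symm, p.2.symm.rev.symm⟩
    have n : (rsC l).neg (nm d d.rev) = nm d.rev d.rev.rev := by rw [neg_nm (rv d), Fin.rev_rev]
    refine two_of (S := S) (r := nm a b) (g := g) ?_ (y_three hN h2 (nm d d.rev)) (by rw [c]; decide) fun M h hy hM => ?_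
    · exact Commute.mul_right (n ▸ long_comm S o.ne q.1 (.inr q.2) 1 1) (long_comm S o.ne p.1 (.inr p.2) 1 1)
    replace h := h.fu h2
    have k : ∀ j (hj : j ≤ l), Fu S M (nm a ⟨j + 1, by omega⟩) := fun j => by
      induction j with
      | zero => exact fun _ => h
      | succ j ih =>
        intro hj
        have u : Ok a ⟨j + 1, by omega⟩ ∧ Ok (⟨j + 1, by omega⟩ : Kx l) ⟨j + 2, by omega⟩ ∧ Ok a ⟨j + 2, by omega⟩ := by
          simp only [Ok, ha]; omega
        refine Fu.add (ih (by omega)).so (e (j + 1) hj ▸ sh hM h _) (ne_nm u.2.1.ne u.1.ne (by simp only [ha]; omega))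
          (tm_s u.1 u.2.1 u.2.2) ?_
        simp only [Int.cast_mul, ne_eq, mul_eq_zero, not_or]
        refine ⟨?_, ?_, ?_⟩ <;> rw [pm_two (by simpa [c] using FiniteField.cast_card_eq_zero F) (ns_pm _ _)] <;> simp
    have n' := ne_nm q.1.rev.ne (rv d) (by simp only [rev_val, ha, hd]; omega)
    have z := mul_mem (mul_mem (inv_mem hy) (k l le_rfl 1)) hy
    have f : Fu S M (nm d a.rev) := by
      rw [show a.rev = pC (l + 2) d from Fin.ext (by simp [pC_val, rev_val, ha, hd])]; exact sh hM h d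
    rw [n, mul_inv_rev, mul_assoc, mul_assoc, ← mul_assoc (S.x (nm a _) 1), long_comm S p.1.symm.ne q.1 (.inl (Fin.rev_rev d).symm),
      mul_assoc, inv_mul_cancel_left, ← nm_flip p.1.symm.ne, S.comm _ _ n'.1 n'.2, mul_assoc, inv_mul_cancel_left, nm_flip p.1.symm.ne,
      mul_mem_cancel_left (k l le_rfl 1), ← nm_flip p.1.symm.ne, tm_l p.1.rev] at z
    simp only [List.map_cons, List.map_nil, List.prod_cons, List.prod_nil, mul_one, mul_mem_cancel_left (f _), Fin.rev_rev] at z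
    exact fin M hM h a (So.fu h2 ⟨_, by rcases fl_pm d a.rev with e | e <;> simp [e], z⟩)
  obtain ⟨v, v0, v1, gv, gv'⟩ := exists_gen c
  have k : (rsC l).pair (nm b.rev b.rev.rev) (nm a b) = 1 ∧ (rsC l).pair (nm b.rev b.rev.rev) (nm a a.rev) = 0 := by
    rw [pair_l, pair_l, co_nm _ o.ne, co_nm _ (rv a)]
    simp only [ip, rev_val, ha, hb]; constructor <;> split_ifs <;> omega
  obtain ⟨u, u0, hu⟩ := exists_y hN h3 k.1 v0 v1
  refine two_of (S := S) (r := nm a a.rev) (g := g) ((h_comm hN k.2 v0 1).mul_right ?_) hu cop fun M h hy hM => ?_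
  · exact (nm_flip o.ne ▸ long_comm S (flip o.ne) o.rev (.inl rfl) u 1).symm
  have f : Fu S M (nm b.rev b.rev.rev) := by
    refine So.full hy gv' (fun t => ?_) ((indC (Q := fun a => So S M (nm a a.rev)) (fun a => pr a ▸ (hg _ _ (rv a)).so hM) _ _).1 h)
    rw [mul_assoc (S.h _ _), long_comm S o.ne o.rev.symm (.inl (Fin.rev_rev b).symm), ← zpow_two,
      ← (rsC l).pair_self (nm b.rev b.rev.rev), ← hN.h_conj _ v0]; group
  have m := f.h_mem (by rw [neg_nm (rv _), Fin.rev_rev]; exact (lg hM _ _).1 f) v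
  exact fin M hM (So.full m gv (fun t => by rw [hN.h_conj _ v0, k.1, zpow_one]) ⟨u, u0, (mul_mem_cancel_left m).1 hy⟩) _ f

end H6.TG
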