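import Cfsg.Agent.H6.TG2

/-! The orthogonal groups are generated by two elements. -/

set_option autoImplicit false
set_option linter.unusedSectionVars false

namespace H6.TG
open Subgroup Cfsg StSys

variable {l : ℕ} {F G : Type*} [Field F] [Fintype F] [Group G] [Finite G]

section B
open TB

/-- partial Coxeter elements -/
def pvB (l j a : ℕ) : ℕ := if j ≤ l + 2 then (if a < j then a + 1 else if a = j then 0 else
  if 2 * l + 6 < a + j then a - 1 else if a + j = 2 * l + 6 then 2 * l + 6 else a) else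
    if a ≤ l + 1 then a + 1 else if a = l + 2 then 2 * l + 6 else if a = l + 3 then l + 3 else if a = l + 4 then 0 else a - 1
/-- partial Coxeter elements -/
def pB (j : ℕ) (a : Jx l) : Jx l := ⟨pvB l j a, by simp only [pvB]; split_ifs <;> omega⟩

lemma pB_val (a : Jx l) : (pB (l + 3) a).1 = if a.1 ≤ l + 1 then a.1 + 1 else if a.1 = l + 2 then 2 * l + 6 else
    if a.1 = l + 3 then l + 3 else if a.1 = l + 4 then 0 else a.1 - 1 := if_neg (by omega)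

lemma indB {Q : Jx l → Prop} (h : ∀ a, a.1 ≠ l + 3 → (Q (pB (l + 3) a) ↔ Q a)) {a b : Jx l} (ha : a.1 ≠ l + 3)
    (hb : b.1 ≠ l + 3) : Q a ↔ Q b := by
  have k : ∀ k (hk : k < 2 * l + 6), Q ⟨if k ≤ l + 2 then k else 3 * l + 9 - k, by split_ifs <;> omega⟩ ↔ Q 0 := fun k => by
    induction k with
    | zero => exact fun _ => by simp
    | succ k ih =>
      intro hk
      rw [← ih (by omega), ← h ⟨if k ≤ l + 2 then k else _, _⟩ (by dsimp only; split_ifs <;> omega)]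
      exact iff_of_eq (congrArg Q (Fin.ext (by simp only [pB_val]; split_ifs <;> omega)))
  have : ∀ a : Jx l, a.1 ≠ l + 3 → (Q a ↔ Q 0) := fun a ha => by
    rw [← k (if a.1 ≤ l + 2 then a else 3 * l + 9 - a) (by split_ifs <;> omega)]
    exact iff_of_eq (congrArg Q (Fin.ext (by dsimp only; split_ifs <;> omega)))
  rw [this a ha, this b hb]

lemma pB_succ (j : ℕ) (hj : j < l + 3) (a : Jx l) : pB (j + 1) a = pB j (sg ⟨j, hj⟩ a) :=
  Fin.ext (by simp only [pB, pvB, sg, sv]; grind (splits := 60))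

lemma flipB {a b : Jx l} (h : Ok a b) : nm b.rev a.rev = nm a b := (nm_eq h.flip h).2 (by simp only [rev_val]; omega)

lemma pairB2 {a b c d : Jx l} (h : Ok a b) (h' : Ok c d) :
    (rsB l).pair (nm a b) (nm c d) = ln a b * (ip l a c - ip l a d - (ip l b c - ip l b d)) := by
  have k := fun x : Jx l => h'.diff (f := fun y => ip l x y) (ip_rev x)
  rw [pair_nm h, k, k]

theorem twoB {S : StSys (rsB l) F G} (hN : S.NConj) (hS : S.grp = ⊤) (h2 : (2 : F) ≠ 0) : Two G := by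
  have h3 := SC.r3_fin hN hS
  obtain ⟨g, hg⟩ := cox hN nm Ok sg (fun k a b p => ⟨p.sg k, by
      rcases p.nm with ⟨-, e, -⟩ | ⟨-, e, -⟩ <;> simp only [rsB, e, sg_rev, flipB (p.sg k)]⟩) pB (l + 3)
    (fun j hj => ⟨j, hj⟩) (fun a => Fin.ext (by simp only [pB, pvB]; split_ifs <;> omega)) pB_succ
  obtain ⟨m, hm⟩ : ∃ m : Jx l, m.1 = l + 3 := ⟨⟨l + 3, by omega⟩, rfl⟩
  have pm : pB (l + 3) m = m := Fin.ext (by simp [pB_val, hm])
  have o : ∀ {a : Jx l}, a.1 ≠ l + 3 → Ok a m := fun h => by simp only [ok_iff]; omega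
  obtain ⟨v, v0, -, gv, -⟩ := exists_gen (F := F) fun c => h2 (by simpa [c] using FiniteField.cast_card_eq_zero F)
  obtain ⟨a, ha⟩ : ∃ a : Jx l, a.1 = 0 := ⟨0, rfl⟩
  obtain ⟨b, hb⟩ : ∃ a : Jx l, a.1 = 1 := ⟨⟨1, by omega⟩, rfl⟩
  obtain ⟨c, hc⟩ : ∃ a : Jx l, a.1 = 2 := ⟨⟨2, by omega⟩, rfl⟩
  have p : Ok b c := by simp only [ok_iff]; omega
  have a3 : a.1 ≠ l + 3 := by omega
  have b3 : b.1 ≠ l + 3 := by omega
  have k : (rsB l).pair (nm b c) (nm a m) = 0 ∧ (rsB l).pair (nm b c) (nm b m) = 1 := by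
    rw [pairB2 p (o a3), pairB2 p (o b3)]
    simp only [ln, ip, ha, hb, hc, hm]; constructor <;> split_ifs <;> omega
  refine two_of (S := S) (r := nm a m) (g := g) (h_comm hN k.1 v0 1) (h_pow h3 _ v0) cop fun M h hy hM => ?_
  have f := So.full hy gv (fun t => by rw [hN.h_conj _ v0, k.2, zpow_one]) ((indB (Q := fun a => So S M (nm a m))
    (fun a ha => by simpa only [pm] using (hg _ _ (o ha)).so hM) a3 b3).1 h)
  replace f : ∀ {a : Jx l}, a.1 ≠ l + 3 → Fu S M (nm a m) := fun ha => (indB (Q := fun a => Fu S M (nm a m))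
    (fun a ha => by simpa only [pm] using (hg _ _ (o ha)).fu hM) ha b3).2 f
  have f' : ∀ {a : Jx l}, a.1 ≠ l + 3 → Fu S M (nm m a) := fun {a} ha => by
    rw [← flipB (o ha).symm, show m.rev = m from Fin.ext (by rw [rev_val]; omega)]
    exact f (by rw [rev_val]; omega)
  refine top_unique (hS.ge.trans (S.U_le_iff.2 fun r _ => ?_))
  obtain ⟨x, y, q, rfl⟩ : ∃ x y, Ok x y ∧ r = nm x y := ⟨_, _, ok r, (nm_self r).symm⟩
  by_cases c1 : x.1 = l + 3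
  · obtain rfl : x = m := Fin.ext (by omega)
    exact f' (by simp only [ok_iff] at q; omega)
  by_cases c2 : y.1 = l + 3
  · obtain rfl : y = m := Fin.ext (by omega)
    exact f c1
  refine Fu.add (f c1).so (f' c2) ?_ ((terms_nm (o c1) (o c2).symm q).trans (if_pos hm)) ?_
  · rw [neg_nm (o c1), ne_eq, ne_eq, nm_eq (o c2).symm (o c1), nm_eq (o c2).symm (o c1).symm]
    simp only [ok_iff] at q; omega
  · rcases ns_pm x y with e | e <;> rcases ns_pm x m with e' | e' <;> rcases ns_pm m y with e'' | e'' <;> simp [e, e', e'', h2]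
end B

section D
open DN

/-- partial Coxeter elements -/
def pvD (l j a : ℕ) : ℕ := if j ≤ l + 3 then (if a < j then a + 1 else if a = j then 0 else
  if 2 * l + 7 < a + j then a - 1 else if a + j = 2 * l + 7 then 2 * l + 7 else a) else
    if a ≤ l + 1 then a + 1 else if a = l + 2 then 2 * l + 7 else if a = l + 3 then l + 4 else if a = l + 4 then l + 3 else
      if a = l + 5 then 0 else a - 1
/-- partial Coxeter elements -/
def pD (j : ℕ) (a : Ix l) : Ix l := ⟨pvD l j a, by simp only [pvD]; split_ifs <;> omega⟩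

lemma pD_val (a : Ix l) : (pD (l + 4) a).1 = if a.1 ≤ l + 1 then a.1 + 1 else if a.1 = l + 2 then 2 * l + 7 else
    if a.1 = l + 3 then l + 4 else if a.1 = l + 4 then l + 3 else if a.1 = l + 5 then 0 else a.1 - 1 := if_neg (by omega)

lemma indD {Q : Ix l → Prop} (h : ∀ a, a.1 ≠ l + 3 ∧ a.1 ≠ l + 4 → (Q (pD (l + 4) a) ↔ Q a)) {a b : Ix l}
    (ha : a.1 ≠ l + 3 ∧ a.1 ≠ l + 4) (hb : b.1 ≠ l + 3 ∧ b.1 ≠ l + 4) : Q a ↔ Q b := by
  have k : ∀ k (hk : k < 2 * l + 6), Q ⟨if k ≤ l + 2 then k else 3 * l + 10 - k, by split_ifs <;> omega⟩ ↔ Q 0 := fun k => by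
    induction k with
    | zero => exact fun _ => by simp
    | succ k ih =>
      intro hk
      rw [← ih (by omega), ← h ⟨if k ≤ l + 2 then k else _, _⟩ (by dsimp only; split_ifs <;> omega)]
      exact iff_of_eq (congrArg Q (Fin.ext (by simp only [pD_val]; split_ifs <;> omega)))
  have : ∀ a : Ix l, a.1 ≠ l + 3 ∧ a.1 ≠ l + 4 → (Q a ↔ Q 0) := fun a ha => by
    rw [← k (if a.1 ≤ l + 2 then a else 3 * l + 10 - a) (by split_ifs <;> omega)]
    exact iff_of_eq (congrArg Q (Fin.ext (by dsimp only; split_ifs <;> omega)))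
  rw [this a ha, this b hb]

lemma pD_succ (j : ℕ) (hj : j < l + 4) (a : Ix l) : pD (j + 1) a = pD j (sg ⟨j, hj⟩ a) :=
  Fin.ext (by simp only [pD, pvD, sg, sv, pp]; grind (splits := 80))

lemma flipD {a b : Ix l} (h : Ok a b) : nm b.rev a.rev = nm a b := pr_two (by
  rw [pr_nm2 h.flip h]; simp only [ok_iff, ip, rev_val] at h ⊢; grind)

lemma negD {a b : Ix l} (h : Ok a b) : (rsD l).neg (nm a b) = nm b a := by
  rcases h.nm with ⟨p, e, -⟩ | ⟨p, e, -⟩ <;> rcases h.symm.nm with ⟨p', e', -⟩ | ⟨p', e', -⟩ <;>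
    simp only [rsD, Subtype.ext_iff, e, e'] <;> omega

lemma pm_ne {ε : ℤ} (h : ε = 1 ∨ ε = -1) : (ε : F) ≠ 0 := by rcases h with rfl | rfl <;> simp

lemma pD_ok (a : Ix l) (h : a.1 ≠ l + 3 ∧ a.1 ≠ l + 4) : Ok a (pD (l + 4) a) ∧ (pD (l + 4) a).1 ≠ l + 3 ∧ (pD (l + 4) a).1 ≠ l + 4 := by
  simp only [ok_iff, pD_val]; split_ifs <;> omega

lemma pD_rev (a : Ix l) : pD (l + 4) a.rev = (pD (l + 4) a).rev := Fin.ext (by simp only [pD_val, rev_val]; split_ifs <;> omega)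

set_option maxHeartbeats 1000000 in
theorem twoD {S : StSys (rsD l) F G} (hN : S.NConj) (hS : S.grp = ⊤) : Two G := by
  have h3 := SC.r3_fin hN hS
  obtain ⟨g, hg⟩ := cox hN nm Ok sg (fun k a b p => ⟨p.sg k, by
      rcases p.nm with ⟨-, e, -⟩ | ⟨-, e, -⟩ <;> simp only [rsD, e, sg_rev, flipD (p.sg k)]⟩) pD (l + 4)
    (fun j hj => ⟨j, hj⟩) (fun a => Fin.ext (by simp only [pD, pvD]; split_ifs <;> omega)) pD_succ
  obtain ⟨z, hz⟩ : ∃ a : Ix l, a.1 = l + 3 := ⟨⟨l + 3, by omega⟩, rfl⟩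
  obtain ⟨a, ha⟩ : ∃ a : Ix l, a.1 = 0 := ⟨0, rfl⟩
  obtain ⟨b, hb⟩ : ∃ a : Ix l, a.1 = 1 := ⟨⟨1, by omega⟩, rfl⟩
  obtain ⟨c, hc⟩ : ∃ a : Ix l, a.1 = 2 := ⟨⟨2, by omega⟩, rfl⟩
  have o : (Ok a b ∧ Ok b c ∧ Ok a z) ∧ Ok b z ∧ Ok c z := by simp only [ok_iff]; omega
  have pa : pD (l + 4) a = b := Fin.ext (by simp [pD_val, ha, hb])
  have pb : pD (l + 4) b = c := Fin.ext (by simp [pD_val, hb, hc])
  have pz : pD (l + 4) z = z.rev := Fin.ext (by simp [pD_val, hz, rev_val]; omega)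
  have n : (a.1 ≠ l + 3 ∧ a.1 ≠ l + 4) ∧ (b.1 ≠ l + 3 ∧ b.1 ≠ l + 4) ∧ c.1 ≠ l + 3 ∧ c.1 ≠ l + 4 := by omega
  have rv : ∀ {x : Ix l}, x.1 ≠ l + 3 ∧ x.1 ≠ l + 4 → x.rev.1 ≠ l + 3 ∧ x.rev.1 ≠ l + 4 := fun h => by rw [rev_val]; omega
  have ad : ∀ {M : Subgroup G} {x y w : Ix l}, Ok x y → Ok y w → Ok x w → Fu S M (nm x y) → Fu S M (nm y w) → Fu S M (nm x w) :=
    fun p q r h h' => let ⟨_, e, f⟩ := slD.terms (dec_nm p q r); Fu.add h.so h' (dec_nm p q r).ne f (pm_ne e)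
  have sh : ∀ {M : Subgroup G}, g ∈ M → ∀ {x y : Ix l}, x.1 ≠ l + 3 ∧ x.1 ≠ l + 4 → y.1 ≠ l + 3 ∧ y.1 ≠ l + 4 →
      Fu S M (nm x (pD (l + 4) x)) → Fu S M (nm y (pD (l + 4) y)) ∧ Fu S M (nm (pD (l + 4) y) y) := fun {M} hM {x y} hx hy h => by
    have := fun {y} hy => (indD (Q := fun a => Fu S M (nm a (pD (l + 4) a))) (fun a ha => (hg _ _ (pD_ok a ha).1).fu hM)
      (b := y) hx hy).1 h
    exact ⟨this hy, flipD (pD_ok y hy).1.symm ▸ pD_rev y ▸ this (rv hy)⟩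
  have fin : ∀ M : Subgroup G, g ∈ M → Fu S M (nm a b) → Fu S M (nm b z) → M = ⊤ := fun M hM h h' => by
    have k : ∀ w : Ix l, w.1 = l + 3 ∨ w.1 = l + 4 → ∀ {x y : Ix l}, x.1 ≠ l + 3 ∧ x.1 ≠ l + 4 → y.1 ≠ l + 3 ∧ y.1 ≠ l + 4 →
        (Fu S M (nm x w) ↔ Fu S M (nm y w)) := fun w hw => indD (Q := fun a => Fu S M (nm a w)) fun x hx => by
      have u := pD_ok x hx
      have u' : Ok x w ∧ Ok (pD (l + 4) x) w := by simp only [ok_iff]; omega
      have := sh hM n.1 hx (pa ▸ h)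
      exact ⟨ad u.1 u'.2 u'.1 this.1, ad u.1.symm u'.1 u'.2 this.2⟩
    have k1 : ∀ w : Ix l, w.1 = l + 3 ∨ w.1 = l + 4 → ∀ {x : Ix l}, x.1 ≠ l + 3 ∧ x.1 ≠ l + 4 → Fu S M (nm x w) := by
      rintro w (e | e) x hx
      · obtain rfl : w = z := Fin.ext (by omega)
        exact (k w (.inl e) hx n.2.1).2 h'
      · obtain rfl : w = z.rev := Fin.ext (by rw [rev_val]; omega)
        exact (k _ (.inr e) hx n.2.2).2 (pb ▸ pz ▸ ((hg _ _ o.2.1).fu hM).2 h')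
    have k2 : ∀ w : Ix l, w.1 = l + 3 ∨ w.1 = l + 4 → ∀ {x : Ix l}, x.1 ≠ l + 3 ∧ x.1 ≠ l + 4 → Fu S M (nm w x) :=
      fun w hw x hx => flipD (show Ok w x by simp only [ok_iff]; omega) ▸ k1 _ (by rw [rev_val]; omega) (rv hx)
    refine top_unique (hS.ge.trans (S.U_le_iff.2 fun r _ => ?_))
    obtain ⟨x, y, q, rfl⟩ : ∃ x y, Ok x y ∧ r = nm x y := ⟨_, _, ok r, (nm_self r).symm⟩
    have q' := ok_iff.1 q
    by_cases c1 : x.1 = l + 3 ∨ x.1 = l + 4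
    · exact k2 x c1 (by omega)
    by_cases c2 : y.1 = l + 3 ∨ y.1 = l + 4
    · exact k1 y c2 (by omega)
    exact ad (by simp only [ok_iff]; omega) (by simp only [ok_iff]; omega) q (k1 z (.inl hz) (by omega)) (k2 z (.inl hz) (by omega))
  have pp : ∀ {x y u w : Ix l}, Ok x y → Ok u w → (rsD l).pair (nm x y) (nm u w) = ip l x u - ip l x w - ip l y u + ip l y w :=
    fun p q => by rw [pairD, pr_nm2 p q]
  by_cases e : Fintype.card F = 2
  · have h2 := two_cases e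
    have k : (0 ≤ (rsD l).pair (nm a b) (nm z c) ∧ 0 ≤ (rsD l).pair (nm a b) (nm c z)) ∧ 0 ≤ (rsD l).pair (nm b c) (nm z c) := by
      rw [pp o.1.1 o.2.2.symm, pp o.1.1 o.2.2, pp o.1.2.1 o.2.2.symm]
      simp only [ip, ha, hb, hc, hz]; refine ⟨⟨?_, ?_⟩, ?_⟩ <;> split_ifs <;> omega
    refine two_of (S := S) (r := nm a b) (g := g) ?_ (y_three hN h2 (nm c z)) (by rw [e]; decide) fun M h hy hM => ?_
    · exact Commute.mul_right (negD o.2.2 ▸ slD.commute S k.1.1 1 1) (slD.commute S k.1.2 1 1)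
    obtain ⟨ε, e1, e2⟩ := slD.terms (slD.dsymm (dec_nm o.1.2.1 o.2.2 o.2.1))
    refine fin M hM (h.fu h2) (Fu.conj hy one_ne_zero (fun t => ?_) (pb ▸ (sh hM n.1 n.2.1 (pa ▸ h.fu h2)).1)
      (slD.dsymm (dec_nm o.1.2.1 o.2.2 o.2.1)).ne e2 (pm_ne e1))
    rw [negD o.2.2, mul_inv_rev, mul_assoc, mul_assoc, ← mul_assoc (S.x (nm b c) t), slD.commute S k.2, mul_assoc,
      inv_mul_cancel_left, mul_assoc]
  obtain ⟨v, v0, v1, gv, -⟩ := exists_gen e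
  have k : ((rsD l).pair (nm c z) (nm a z) = 1 ∧ (rsD l).pair (nm c z) (nm a b) = 0 ∧ (rsD l).pair (nm c z) (nm c b) = 1) ∧
      (rsD l).pair (nm c z) (nm b a) = 0 ∧ 0 ≤ (rsD l).pair (nm a b) (nm a z) ∧ 0 ≤ (rsD l).pair (nm a z) (nm c b) := by
    rw [pp o.2.2 o.1.2.2, pp o.2.2 o.1.1, pp o.2.2 o.1.2.1.symm, pp o.2.2 o.1.1.symm, pp o.1.1 o.1.2.2, pp o.1.2.2 o.1.2.1.symm]
    simp only [ip, ha, hb, hc, hz]; refine ⟨⟨?_, ?_, ?_⟩, ?_, ?_, ?_⟩ <;> split_ifs <;> first | omega | contradiction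
  obtain ⟨u, u0, hu⟩ := exists_y hN h3 k.1.1 v0 v1
  refine two_of (S := S) (r := nm a b) (g := g) ((h_comm hN k.1.2.1 v0 1).mul_right (slD.commute S k.2.2.1 1 u)) hu cop
    fun M h hy hM => ?_
  have e1 : nm c b = nm b.rev (pD (l + 4) b.rev) := by rw [pD_rev, pb, flipD o.1.2.1.symm]
  have f : Fu S M (nm c b) := by
    refine So.full hy gv (fun t => ?_) (e1 ▸ (indD (Q := fun a => So S M (nm a (pD (l + 4) a)))
      (fun a ha => (hg _ _ (pD_ok a ha).1).so hM) n.1 (rv n.2.1)).1 (pa ▸ h))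
    rw [mul_assoc (S.h _ _), slD.commute S k.2.2.2, ← zpow_one v, ← k.1.2.2, ← hN.h_conj _ v0, k.1.2.2, zpow_one]; group
  have f' := sh hM (rv n.2.1) n.1 (e1 ▸ f)
  rw [pa] at f'
  obtain ⟨ε, e2, e3⟩ := slD.terms (slD.dsymm (dec_nm o.1.1.symm o.1.2.2 o.2.1))
  refine fin M hM f'.1 (Fu.conj hy u0 (fun t => ?_) f'.2 (slD.dsymm (dec_nm o.1.1.symm o.1.2.2 o.2.1)).ne e3 (pm_ne e2))
  rw [mul_inv_rev, mul_assoc, mul_assoc, ← mul_assoc (S.x (nm b a) t), h_comm hN k.2.1 v0, mul_assoc, inv_mul_cancel_left, mul_assoc]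
end D

end H6.TG
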