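import Cfsg.Agent.H6.TG1

/-! The tabulated Chevalley groups are generated by two elements. -/

set_option autoImplicit false
set_option linter.unusedSectionVars false

namespace H6.TG
open Subgroup Cfsg Cfsg.Lie StSys Chev

section gen
variable {Φ ι : Type} [Fintype ι] [DecidableEq ι] {R : RS Φ ι} {F G : Type*} [Field F] [Group G] {S : StSys R F G}
  {M : Subgroup G} {r s k γ u r' : Φ}

lemma mv_nw (hN : S.NConj) (L : List ι) (r : Φ) : Mv S (S.nw L) r (R.actL L r) :=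
  let ⟨c, h⟩ := hN.acts_nw L; ⟨c r, h.ne r, fun t => by rw [h.conj, RS.actL_eq]⟩

lemma Fu.refl (hN : S.NConj) (h : Fu S M r) (h' : Fu S M (R.neg r)) (hs : Fu S M s)
    (e : R.vec k = R.vec s - R.pair r s • R.vec r) : Fu S M k := by
  obtain ⟨w, c, a, b⟩ := TB.n_acts hN r
  obtain rfl : R.act w s = k := R.vec_inj ((b s).trans e.symm)
  exact (Mv.fu ⟨c s, a.ne s, a.conj s⟩ (mul_mem (mul_mem (h _) (h' _)) (h _))).2 hs

variable [Fintype F] [Finite G]

theorem two_big (hN : S.NConj) (hS : S.grp = ⊤) (hF : Fintype.card F ≠ 2) (L : List ι) (n : ℕ)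
    (p1 : R.pair γ r = 0) (p2 : R.pair γ s = 1) (p3 : R.pair γ u = 1 ∨ R.pair γ u = 2) (hu : (R.actL L)^[n] r = u)
    (c1 : (s ≠ r ∧ s ≠ R.neg r) ∧ R.terms r s = []) (c2 : (s ≠ u ∧ s ≠ R.neg u) ∧ R.terms u s = [])
    (H : ∀ (M : Subgroup G) (v : F), v ≠ 0 → S.nw L ∈ M → Fu S M u →
      (∀ δ w, Fu S M δ → Fu S M (R.neg δ) → w ≠ 0 → w ^ R.pair δ s = v → Fu S M s) → M = ⊤) : Two G := by
  have h3 := SC.r3_fin hN hS
  obtain ⟨v, v0, v1, gv, gv'⟩ := exists_gen hF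
  obtain ⟨c, c0, hc⟩ := exists_y hN h3 p2 v0 v1
  refine two_of (S := S) (r := r) (g := S.nw L) ((h_comm hN p1 v0 1).mul_right
    (S.commute_of_terms c1.1.1 c1.1.2 (by simp [c1.2]) 1 c).symm) hc cop fun M h hy hM => H M v v0 hM ?_ fun δ w a b w0 e => ?_
  · have k : ∀ t, S.h γ v * S.x s c * S.x u t * (S.h γ v * S.x s c)⁻¹ = S.x u (v ^ R.pair γ u * t) := fun t => by
      rw [mul_assoc (S.h _ _), S.commute_of_terms c2.1.1 c2.1.2 (by simp [c2.2]), ← hN.h_conj _ v0]; group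
    have q : So S M u := by
      subst hu; clear k c2 p3 H
      induction n with
      | zero => exact h
      | succ n ih => rw [Function.iterate_succ_apply']; exact ((mv_nw hN L _).so hM).2 ih
    rcases p3 with e | e
    · exact q.full hy gv fun t => by rw [k, e, zpow_one]
    · exact q.full hy gv' fun t => by rw [k, e, zpow_two]
  have m := a.h_mem b w
  have k : ∀ t, S.h δ w * S.x s t * (S.h δ w)⁻¹ = S.x s (v * t) := fun t => by rw [hN.h_conj _ w0, e]
  refine So.full m gv k ⟨-c + v * c, fun z => v1 (mul_right_cancel₀ c0 (by linear_combination z)), ?_⟩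
  have := mul_mem (inv_mem hy) (mul_mem (mul_mem m hy) (inv_mem m))
  rwa [← mul_assoc (S.h δ w), hN.H_comm h3 (S.h_mem_H δ w0) (S.h_mem_H γ v0), mul_assoc (S.h γ v), mul_assoc (S.h γ v), k,
    mul_inv_rev, mul_assoc, inv_mul_cancel_left, ← S.x_neg, ← S.add] at this

theorem two_small (hN : S.NConj) (hF : Fintype.card F = 2) (L : List ι) {T : List (Φ × ℤ × ℕ × ℕ)} {ε : ℤ}
    (c1 : (s ≠ r ∧ s ≠ R.neg r) ∧ R.terms r s = []) (c2 : (R.neg s ≠ r ∧ R.neg s ≠ R.neg r) ∧ R.terms r (R.neg s) = [])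
    (c3 : (R.neg s ≠ r' ∧ R.neg s ≠ R.neg r') ∧ R.terms r' (R.neg s) = []) (c4 : r' ≠ s ∧ r' ≠ R.neg s)
    (hT : R.terms s r' = (k, ε, 1, 1) :: T) (hε : ε = 1 ∨ ε = -1)
    (H : ∀ M : Subgroup G, S.nw L ∈ M → Fu S M r → (Fu S M r' → (∀ c ∈ T, Fu S M c.1) → Fu S M k) → M = ⊤) : Two G := by
  have h2 := two_cases hF
  refine two_of (S := S) (r := r) (g := S.nw L) (Commute.mul_right (S.commute_of_terms c2.1.1 c2.1.2 (by simp [c2.2]) 1 1).symm
    (S.commute_of_terms c1.1.1 c1.1.2 (by simp [c1.2]) 1 1).symm) (y_three hN h2 s) (by rw [hF]; decide)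
    fun M h hy hM => H M hM (h.fu h2) fun a b => So.fu h2 ⟨(ε : F) * (-1) ^ 1 * 1 ^ 1, by rcases hε with rfl | rfl <;> simp, ?_⟩
  have z := mul_mem (mul_mem (inv_mem hy) (a 1)) hy
  rw [mul_inv_rev, mul_assoc, mul_assoc, ← mul_assoc (S.x r' 1), ← S.commute_of_terms c3.1.1 c3.1.2 (by simp [c3.2]), mul_assoc,
    inv_mul_cancel_left, S.comm _ _ c4.1 c4.2, mul_assoc, inv_mul_cancel_left, mul_mem_cancel_left (a 1), hT, List.map_cons,
    List.prod_cons] at z
  exact (mul_mem_cancel_right (list_prod_mem fun x hx => by obtain ⟨c, hc, rfl⟩ := List.mem_map.1 hx; exact b c hc _)).1 z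
end gen

/-- derivations of roots -/
def chkD (D : ChevalleyDatum) (Z : Fast) (L : List ℕ) : List ℕ → List (ℕ × ℕ × ℕ) → List ℕ → Bool
  | K, [], G => G.all fun g => K.any (Nat.beq g)
  | K, (a, b, c) :: T, G => K.any (Nat.beq b) && Nat.blt c Z.n && (Nat.beq c (actZ Z L b) || K.any (Nat.beq a) &&
      (K.any (Nat.beq (Z.ng a)) && (allLt Z.l fun j => decide (Z.vc c j = Z.vc b j - prZ Z a b * Z.vc a j)) ||
        !Nat.beq b a && !Nat.beq b (Z.ng a) && (decide (D.commTerms a b = [(c, 1, 1, 1)]) ||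
          decide (D.commTerms a b = [(c, -1, 1, 1)])))) && chkD D Z L (c :: K) T G

variable {D : ChevalleyDatum} (C : Cert D) {F G : Type*} [Field F] [Group G] {S : StSys C.R F G} {M : Subgroup G}

lemma der (hN : S.NConj) {L : List (Fin D.rank)} (hM : S.nw L ∈ M) (T : List (ℕ × ℕ × ℕ)) {K : List (Fin D.nroots)}
    (hK : ∀ k ∈ K, Fu S M k) {B : List ℕ} (h : chkD D C.Z (L.map Fin.val) (K.map Fin.val) T B = true) :
    ∀ g : Fin D.nroots, g.1 ∈ B → Fu S M g := by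
  induction T generalizing K with
  | nil =>
    simp only [chkD, List.all_eq_true, List.any_map, List.any_eq_true, Function.comp, Nat.beq_eq] at h
    exact fun g hg => let ⟨k, a, b⟩ := h g hg; Fin.ext (a := g) b ▸ hK k a
  | cons x T ih =>
    obtain ⟨a, b, c⟩ := x
    simp only [chkD, List.any_map, List.any_eq_true, Function.comp, Nat.beq_eq, Bool.and_eq_true, Bool.or_eq_true, Nat.blt_eq,
      C.n_eq, C.link.l_eq, allLt_iff, decide_eq_true_eq, Bool.not_eq_true', ← Bool.not_eq_true] at h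
    obtain ⟨⟨⟨⟨b, hb, rfl⟩, hc⟩, h⟩, h'⟩ := h
    refine ih (K := ⟨c, hc⟩ :: K) (List.forall_mem_cons.2 ⟨?_, hK⟩) h'
    rcases h with e | ⟨⟨a, ha, rfl⟩, ⟨⟨a', ha', e⟩, f⟩ | ⟨⟨e, e'⟩, f⟩⟩
    · exact (show C.R.actL L b = ⟨c, hc⟩ from Fin.ext ((C.actL_val L b).trans e.symm)) ▸ ((mv_nw hN L b).fu hM).2 (hK b hb)
    · refine (hK a ha).refl hN ((show a' = C.R.neg a from Fin.ext (e.symm.trans (C.link.ng_eq a a.2).symm)) ▸ hK a' ha') (hK b hb)
        (funext fun j => ?_)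
      rw [Pi.sub_apply, Pi.smul_apply, C.pair_eq]; exact f j j.2
    · have n : b ≠ a ∧ b ≠ C.R.neg a := ⟨fun z => e (congrArg Fin.val z), fun z => e' ((congrArg Fin.val z).trans (C.link.ng_eq a a.2))⟩
      rcases f with f | f
      exacts [Fu.add (hK a ha).so (hK b hb) n (C.terms_eq (L := [(⟨c, hc⟩, 1, 1, 1)]) f) (by simp),
        Fu.add (hK a ha).so (hK b hb) n (C.terms_eq (L := [(⟨c, hc⟩, -1, 1, 1)]) f) (by simp)]

/-- simple roots and their negatives -/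
def goal (Z : Fast) : List ℕ := (List.range Z.l).flatMap fun i => [Z.sim i, Z.ng (Z.sim i)]

lemma der_top (hN : S.NConj) (hS : S.grp = ⊤) {L : List (Fin D.rank)} (hM : S.nw L ∈ M) (T : List (ℕ × ℕ × ℕ))
    {K : List (Fin D.nroots)} (hK : ∀ k ∈ K, Fu S M k) (h : chkD D C.Z (L.map Fin.val) (K.map Fin.val) T (goal C.Z) = true) :
    M = ⊤ := by
  refine top_unique (hS.ge.trans (hN.grp_le_of_simple' (fun j => der C hN hM T hK h _ ?_) fun j => der C hN hM T hK h _ ?_)) <;>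
    simp only [goal, List.mem_flatMap, List.mem_range, C.link.l_eq] <;> refine ⟨j, j.2, ?_⟩
  · simp [C.link.sim_eq j j.2]
  · simp [← C.link.sim_eq j j.2, C.link.ng_eq _ (C.link.sim_lt j j.2)]

/-- commuting roots -/
def cmB (D : ChevalleyDatum) (Z : Fast) (r s : ℕ) : Bool := !Nat.beq s r && !Nat.beq s (Z.ng r) && decide (D.commTerms r s = [])

lemma cm_of {r s : Fin D.nroots} (h : cmB D C.Z r s = true) : (s ≠ r ∧ s ≠ C.R.neg r) ∧ C.R.terms r s = [] := by
  simp only [cmB, Bool.and_eq_true, Bool.not_eq_true', ← Bool.not_eq_true, Nat.beq_eq, decide_eq_true_eq] at h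
  exact ⟨⟨fun z => h.1.1 (congrArg Fin.val z), fun z => h.1.2 ((congrArg Fin.val z).trans (C.link.ng_eq r r.2))⟩, C.terms_eq h.2⟩

lemma iter_val (L : List (Fin D.rank)) (n : ℕ) (r : Fin D.nroots) :
    ((C.R.actL L)^[n] r).1 = (actZ C.Z (L.map Fin.val))^[n] r := by
  induction n with
  | zero => rfl
  | succ n ih => rw [Function.iterate_succ_apply', Function.iterate_succ_apply', C.actL_val, ih]

variable [Fintype F] [Finite G]

theorem big (hN : S.NConj) (hS : S.grp = ⊤) (hF : Fintype.card F ≠ 2) (r s γ u δ : Fin D.nroots) (n : ℕ) (T T' : List (ℕ × ℕ × ℕ))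
    (h : prZ C.Z γ r = 0 ∧ prZ C.Z γ s = 1 ∧ (prZ C.Z γ u = 1 ∨ prZ C.Z γ u = 2) ∧ prZ C.Z δ s = 1 ∧
      (actZ C.Z ((List.finRange D.rank).map Fin.val))^[n] r = u ∧ cmB D C.Z r s = true ∧ cmB D C.Z u s = true ∧
      chkD D C.Z ((List.finRange D.rank).map Fin.val) [u] T [δ, C.Z.ng δ] = true ∧
      chkD D C.Z ((List.finRange D.rank).map Fin.val) [u, s] T' (goal C.Z) = true) : Two G := by
  obtain ⟨h1, h2, h3, h4, h5, h6, h7, h8, h9⟩ := h
  simp only [← C.pair_eq] at h1 h2 h3 h4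
  refine two_big hN hS hF (List.finRange _) n h1 h2 h3 (Fin.ext ((iter_val C _ n r).trans h5)) (cm_of C h6) (cm_of C h7)
    fun M v v0 hM a b => der_top C hN hS hM T' (K := [u, s]) ?_ h9
  have := der C hN hM T (K := [u]) (by simpa using a) h8
  simpa [a] using b δ v (this _ (by simp)) (this _ (by simp [C.link.ng_eq δ δ.2])) v0 (by rw [h4, zpow_one])

theorem small (hN : S.NConj) (hS : S.grp = ⊤) (hF : Fintype.card F = 2) (r s r' k : Fin D.nroots) (ε : ℤ)
    (B : List (Fin D.nroots × ℤ × ℕ × ℕ)) (T T' : List (ℕ × ℕ × ℕ))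
    (h : cmB D C.Z r s = true ∧ cmB D C.Z r (D.neg s) = true ∧ cmB D C.Z r' (D.neg s) = true ∧ (r' ≠ s ∧ r'.1 ≠ D.neg s) ∧
      D.commTerms s r' = ((k, ε, 1, 1) :: B).map (fun e => (e.1.val, e.2)) ∧ (ε = 1 ∨ ε = -1) ∧
      chkD D C.Z ((List.finRange D.rank).map Fin.val) [r] T (r' :: B.map fun e => e.1.val) = true ∧
      chkD D C.Z ((List.finRange D.rank).map Fin.val) [r, k] T' (goal C.Z) = true) : Two G := by
  obtain ⟨h1, h2, h3, h4, h5, h6, h8, h9⟩ := h
  refine two_small hN hF (List.finRange _) (cm_of C h1) (cm_of C (s := C.R.neg s) h2) (cm_of C (s := C.R.neg s) h3)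
    ⟨h4.1, fun z => h4.2 (congrArg Fin.val z)⟩ (C.terms_eq h5) h6 fun M hM a b => der_top C hN hS hM T' (K := [r, k]) ?_ h9
  have := der C hN hM T (K := [r]) (by simpa using a) h8
  simpa [a] using b (this _ (by simp)) fun c hc => this _ (List.mem_cons_of_mem _ (List.mem_map_of_mem hc))

end H6.TG
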