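import Cfsg.Agent.H6.TG4
import Cfsg.Agent.H6.TwD4

/-! Generation of twisted groups by two elements: general tools. -/

set_option autoImplicit false
set_option linter.unusedSectionVars false

namespace H6.TG
open Subgroup Cfsg Cfsg.Lie StSys Chev

section gen
variable {Φ ι κ : Type} [Fintype ι] [DecidableEq ι] [Fintype Φ] {R : RS Φ ι} {K G : Type*} [Field K] [Group G]
  {S : ChevSys R K G} {T : Sym R κ} {X : Tw S T} {M Γ : Subgroup G} {r s u : Φ}

variable (X) in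
/-- root subgroups of the twisted group -/
def A (r : Φ) : Subgroup G := S.U {r, T.ρ r, T.ρ (T.ρ r)} ⊓ X.Fx
variable (X M) in
/-- the root subgroup is contained in `M` -/
def FT (r : Φ) : Prop := A X r ≤ M
variable (X M) in
/-- the root subgroup meets `M` -/
def ST (r : Φ) : Prop := ∃ z ∈ A X r, z ≠ 1 ∧ z ∈ M

lemma A_conj {g z : G} {w : R.W} (hw : S.Acts g w) (h1 : w ∈ T.W1) (hg : g ∈ X.Fx) (hz : z ∈ A X r) :
    g * z * g⁻¹ ∈ A X (R.act w r) :=
  ⟨hw.conj_mem_U (by rintro _ (rfl | rfl | rfl) <;> simp [h1 _]) hz.1, X.Fx.mul_mem (X.Fx.mul_mem hg hz.2) (X.Fx.inv_mem hg)⟩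

lemma FT.mv {L : List ι} (hL : S.nw L ∈ M ⊓ X.Fx) (h : FT X M r) : FT X M (R.act (R.gen.wp L) r) := fun z hz => by
  have a := S.nconj.acts_nw L
  have := A_conj a.inv (inv_mem (X.mem_W1 (S.nw_mem_N L) hL.2 a)) (X.Fx.inv_mem hL.2) hz
  rw [← R.act_mul, inv_mul_cancel, R.act_one] at this
  simpa [mul_assoc] using M.mul_mem (M.mul_mem hL.1 (h this)) (M.inv_mem hL.1)

lemma ST.mv {L : List ι} (hL : S.nw L ∈ M ⊓ X.Fx) (h : ST X M r) : ST X M (R.act (R.gen.wp L) r) :=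
  let ⟨z, a, b, c⟩ := h; let e := S.nconj.acts_nw L
  ⟨_, A_conj e (X.mem_W1 (S.nw_mem_N L) hL.2 e) hL.2 a, by simpa using b, M.mul_mem (M.mul_mem hL.1 c) (M.inv_mem hL.1)⟩

/-- words in two elements of the Weyl group -/
def Wd (L L' : List ι) (w : List Bool) : List ι := w.flatMap fun b => bif b then L else L'

lemma nw_Wd {L L' : List ι} {N : Subgroup G} (h : S.nw L ∈ N) (h' : S.nw L' ∈ N) (w : List Bool) : S.nw (Wd L L' w) ∈ N := by
  induction w with
  | nil => exact one_mem _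
  | cons b w ih => rw [Wd, List.flatMap_cons, nw_append]; cases b; exacts [mul_mem h' ih, mul_mem h ih]

lemma mem_A_long (hu : T.ρ u = u) {z : G} : z ∈ A X u ↔ ∃ t, X.φ u t = t ∧ z = S.x u t := by
  simp only [A, hu, Set.pair_eq_singleton, mem_inf, mem_U_singleton]
  refine ⟨?_, ?_⟩
  · rintro ⟨⟨t, rfl⟩, h⟩
    exact ⟨t, S.inj.x_injective u (by have := h.2; rwa [X.σ_x, hu] at this), rfl⟩
  · rintro ⟨t, h, rfl⟩
    exact ⟨⟨t, rfl⟩, S.x_mem_grp _ _, by rw [X.σ_x, hu, h]⟩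

lemma FT.x_mem (h : FT X M u) (hu : T.ρ u = u) {t : K} (ht : X.φ u t = t) : S.x u t ∈ M ⊓ X.Fx :=
  let a := (mem_A_long hu).2 ⟨t, ht, rfl⟩; ⟨h a, a.2⟩

lemma two_sub {a b : G} (ha : a ∈ Γ) (hb : b ∈ Γ) (h : Γ ≤ closure {a, b}) : Two Γ := by
  refine ⟨⟨a, ha⟩, ⟨b, hb⟩, map_injective Γ.subtype_injective ?_⟩
  rw [MonoidHom.map_closure, Set.image_pair, ← MonoidHom.range_eq_map, range_subtype]
  exact le_antisymm ((closure_le _).2 (Set.pair_subset ha hb)) h

variable [Fintype K] [Finite G]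

theorem two_tw (hΓ : X.Good Γ) {f : K →+* K} {h : G} {χ : Φ → K} (hχ : S.ActsC h 1 χ) (hh : h ∈ Γ)
    (hn : h ^ (Fintype.card K - 1) = 1) (E : K → G) (Eadd : ∀ t t', E (t + t') = E t * E t') (EΓ : ∀ t, E t ∈ Γ) {l : K}
    (hE : ∀ t, h * E t * h⁻¹ = E (l * t)) (l0 : l ≠ 0) (l1 : l ≠ 1) (gl : Gen l) (hs : ∀ z, z ∈ A X s ↔ ∃ t, z = E t)
    (hr : T.ρ r = r) (hr1 : X.φ r 1 = 1) (xr : S.x r 1 ∈ Γ) (r1 : χ r = 1) (cr : ∀ t, Commute (S.x r 1) (E t))
    (hu : T.ρ u = u) (φu : ∀ t, X.φ u t = f t) (cu : ∀ t t', Commute (S.x u t) (E t'))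
    (gu : ∀ t ≠ 0, f t = t → ∃ k : ℕ, t = χ u ^ k) {L : List ι} (hL : S.nw L ∈ Γ) (w : List Bool)
    (hw : R.act (R.gen.wp (Wd L L w)) r = u)
    (H : ∀ (M : Subgroup G) (c : K), S.nw L ∈ M → FT X M u → c ≠ 0 → h * E c ∈ M → (ST X M s → FT X M s) → Γ ≤ M) : Two Γ := by
  have E0 : E 0 = 1 := by simpa using Eadd 0 0
  have En : ∀ t, E (-t) = (E t)⁻¹ := fun t => by rw [eq_inv_iff_mul_eq_one, ← Eadd, neg_add_cancel, E0]
  have c0 : -l⁻¹ + 1 ≠ 0 := fun e => l1 (inv_eq_one.1 (by linear_combination -e))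
  generalize hc : -l⁻¹ + 1 = c at c0
  have yn : (h * E c) ^ (Fintype.card K - 1) = 1 := by
    have := hE l⁻¹
    rw [mul_inv_cancel₀ l0] at this
    rw [show h * E c = (E 1)⁻¹ * h * (E 1)⁻¹⁻¹ by rw [← hc, Eadd, En, inv_inv]; nth_rw 2 [← this]; group, conj_pow, hn,
      mul_one, mul_inv_cancel]
  have cy : Commute (S.x r 1) (h * E c) := Commute.mul_right (by
    have := hχ.conj r 1
    rw [r1, R.act_one, one_mul, mul_inv_eq_iff_eq_mul] at this
    exact this.symm) (cr c)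
  have a : S.x r 1 * (h * E c) ∈ closure {S.x r 1 * (h * E c), S.nw L} := subset_closure (by simp)
  refine two_sub (mul_mem xr (mul_mem hh (EΓ c))) hL ?_
  have g : S.nw L ∈ closure {S.x r 1 * (h * E c), S.nw L} := subset_closure (by simp)
  generalize closure {S.x r 1 * (h * E c), S.nw L} = M at a g
  have b : ∀ m : ℕ, S.x r 1 ^ m = S.x r m := fun m => by
    induction m with
    | zero => simp
    | succ m ih => rw [pow_succ, ih, ← S.add, Nat.cast_succ]
  have d := pow_mem a (Fintype.card K)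
  rw [cy.mul_pow, b, FiniteField.cast_card_eq_zero, S.x_zero, one_mul] at d
  have hy := zpowers_le.2 d (mem_zpowers_pow_iff.2 (cop.coprime_dvd_right (orderOf_dvd_of_pow_eq_one yn)))
  refine H M c g (fun z hz => ?_) c0 hy ?_
  · have := ST.mv (X := X) (nw_Wd (N := M ⊓ X.Fx) ⟨g, hΓ.le hL⟩ ⟨g, hΓ.le hL⟩ w) ⟨_, (mem_A_long hr).2 ⟨1, hr1, rfl⟩,
      fun e => one_ne_zero (S.inj.x_eq_one e), (mul_mem_cancel_right hy).1 a⟩
    rw [hw] at this
    obtain ⟨_, p, p1, pM⟩ := this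
    obtain ⟨t, ht, rfl⟩ := (mem_A_long hu).1 p
    obtain ⟨t', ht', rfl⟩ := (mem_A_long hu).1 hz
    have t0 : t ≠ 0 := fun e => p1 (by simp [e])
    by_cases e : t' = 0
    · simp [e]
    rw [φu] at ht ht'
    obtain ⟨k, hk⟩ := gu (t' / t) (div_ne_zero e t0) (by rw [map_div₀, ht, ht'])
    rw [show t' = χ u ^ k * t by rw [← hk, div_mul_cancel₀ _ t0]]
    clear hk
    induction k with
    | zero => simpa using pM
    | succ k ih =>
      have := mul_mem (mul_mem hy ih) (inv_mem hy)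
      rwa [mul_assoc h, ← (cu _ c).eq, mul_inv_rev, ← mul_assoc h, mul_assoc _ (E c), mul_inv_cancel_left, hχ.conj, R.act_one,
        ← mul_assoc, ← pow_succ'] at this
  · rintro ⟨_, p, p1, pM⟩ z hz
    obtain ⟨t, rfl⟩ := (hs _).1 p
    obtain ⟨t', rfl⟩ := (hs _).1 hz
    have t0 : t ≠ 0 := fun e => p1 (by rw [e, E0])
    have := gl ⟨⟨⟨{a | E (t * a) ∈ M}, fun a b => by simpa [mul_add, Eadd] using mul_mem a b⟩, by simp [E0]⟩,
      fun a => by simpa [En] using a⟩ (by simpa using pM) (fun a ha => by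
        have := mul_mem (mul_mem hy ha) (inv_mem hy)
        rwa [mul_assoc h, ← Eadd, add_comm, Eadd, mul_inv_rev, ← mul_assoc h, mul_assoc _ (E c), mul_inv_cancel_left, hE,
          mul_left_comm] at this) (t⁻¹ * t')
    simpa [mul_inv_cancel_left₀ t0] using this
end gen

lemma exists_gen' {K : Type*} [Field K] [Fintype K] {q N : ℕ} (hq : 1 < q) (hK : Fintype.card K - 1 = N * (q - 1)) (hN : 2 < N) :
    ∃ g : Kˣ, (g * g : K) ≠ 1 ∧ Gen (g : K) ∧ Gen (g * g : K) ∧ ∀ t : K, t ≠ 0 → t ^ q = t → ∃ k : ℕ, t = ((g : K) ^ N) ^ k := by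
  classical
  obtain ⟨g, hg⟩ := IsCyclic.exists_monoid_generator (α := Kˣ)
  have o : orderOf g = N * (q - 1) := by
    rw [orderOf_eq_card_of_forall_mem_powers hg, Nat.card_eq_fintype_card, Fintype.card_units, hK]
  have k : Gen (g * g : K) := fun A h1 h t => by
    have q : ∀ a : K, a * a ∈ A := fun a => by
      by_cases a0 : a = 0
      · simp [a0]
      obtain ⟨n, hn⟩ := hg (Units.mk0 a a0)
      obtain rfl : (g : K) ^ n = a := by simpa using congrArg Units.val hn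
      clear a0 hn
      induction n with
      | zero => simpa using h1
      | succ n ih => convert h _ ih using 1; ring
    by_cases c : ringChar K = 2
    · obtain ⟨a, rfl⟩ := FiniteField.isSquare_of_char_two c t
      exact q a
    · have := Ring.two_ne_zero c
      convert sub_mem (q ((t + 1) / 2)) (q ((t - 1) / 2)) using 1; field_simp; ring
  refine ⟨g, fun e => ?_, fun A h1 h => k A h1 fun t ht => mul_assoc (g : K) g t ▸ h _ (h t ht), k, fun t t0 ht => ?_⟩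
  · have := Nat.le_of_dvd two_pos (orderOf_dvd_of_pow_eq_one (x := g) (n := 2) (Units.ext (by simpa [sq] using e)))
    rw [o] at this
    nlinarith [Nat.sub_pos_of_lt hq]
  obtain ⟨n, hn⟩ := hg (Units.mk0 t t0)
  obtain rfl : (g : K) ^ n = t := by simpa using congrArg Units.val hn
  have : g ^ (n * (q - 1)) = 1 := Units.ext (mul_right_cancel₀ t0 (by
    rw [Units.val_pow_eq_pow_val, pow_mul, ← pow_succ, Nat.sub_add_cancel hq.le, ht, Units.val_one, one_mul]))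
  obtain ⟨m, rfl⟩ := Nat.dvd_of_mul_dvd_mul_right (Nat.sub_pos_of_lt hq) (o ▸ orderOf_dvd_of_pow_eq_one this)
  exact ⟨m, pow_mul _ _ _⟩

end H6.TG
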