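import Cfsg.Agent.H6.TG6

/-! The groups `²E₆(q)` are generated by two elements. -/

set_option autoImplicit false
set_option linter.unusedSectionVars false

namespace H6.TG
open Subgroup Cfsg Cfsg.Lie StSys Chev Tw

lemma cmt {D : ChevalleyDatum} (C : Cert D) {K G : Type*} [Field K] [Group G] (S : StSys C.R K G) {r s : Fin D.nroots}
    (h : cmB D C.Z r s = true) (t u : K) : Commute (S.x s u) (S.x r t) :=
  S.commute_of_terms (cm_of C h).1.1 (cm_of C h).1.2 (by simp [(cm_of C h).2]) t u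

lemma cm1 {D : ChevalleyDatum} (C : Cert D) {K G : Type*} [Field K] [Group G] (S : StSys C.R K G) {r s k : Fin D.nroots} {ε : ℤ}
    (h : s ≠ r ∧ s.1 ≠ D.neg r ∧ D.commTerms r s = [(k.1, ε, 1, 1)]) (t u : K) :
    S.x s u * S.x r t = S.x r t * S.x s u * S.x k (-(ε * t * u)) := by
  rw [S.comm r s h.1 (fun e => h.2.1 (congrArg Fin.val e)), C.terms_eq (L := [(k, ε, 1, 1)]) h.2.2]; simp

namespace TE
open E6

/-- roots -/
def rt (i : Fin 72) : Fin chevE6.nroots := i
/-- words -/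
def W (w : List Bool) : List (Fin chevE6.rank) := Wd [nd 1, nd 0, nd 5, nd 2, nd 4, nd 3] [nd 3] w

variable {K : Type*} [Field K] [Fintype K]
local notation "SS" => Cert.sys K certE6

theorem two {q : ℕ} (hq : IsPrimePow q) (hK : Fintype.card K = q ^ 2) : Two (twistedE6 K q) := by
  classical
  obtain ⟨X, f, h⟩ := exists_pack hq hK
  have hq1 := hq.one_lt
  obtain ⟨g, g1, gl, -, gu⟩ := exists_gen' (K := K) (N := q + 1) hq1 (by rw [hK]; exact Nat.sq_sub_sq q 1) (by omega)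
  have hff : ∀ t, f (f t) = t := fun t => by rw [h.hf, h.hf, ← pow_mul, ← sq, ← hK, FiniteField.pow_card]
  set c : Fin chevE6.rank → Kˣ := (![g⁻¹, 1, 1, 1, 1, Units.map f.toMonoidHom g⁻¹] : Fin 6 → Kˣ) with hc
  have hχ := (SS).nconj.actsC_Theta certE6.r3 c
  have χe : ∀ r (a : ℤ), certE6.R.A (nd 0) r = a → ∀ b : ℤ, certE6.R.A (nd 5) r = b →
      ((certE6.R.chi (certE6.R.cm Kˣ c) r : Kˣ) : K) = (g : K) ^ (-a) * f g ^ (-b) := fun r a ha b hb => by
    rw [RS.chi_cm, show ∏ i, c i ^ certE6.R.A i r = ∏ i : Fin 6, c (nd i) ^ certE6.R.A (nd i) r from rfl, Fin.prod_univ_six, ha, hb]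
    simp [hc, nd]
  have φl : ∀ r : Fin chevE6.nroots, grE6.ε r = 1 ∧ grE6.lam r = 1 → ∀ t, X.φ r t = f t := fun r e t => by simp [h.hX, e]
  have a2 := fun z => fix2 (X := X) (g := z) P2 (by decide) (π_nd 2) (π_nd 4)
  have hs : ∀ z, z ∈ A X (sr 2) ↔ ∃ t, z = (SS).x (sr 2) t * (SS).x (sr 4) (f t) := fun z => by
    rw [A, show ({sr 2, symE6.ρ (sr 2), symE6.ρ (symE6.ρ (sr 2))} : Set _) = symE6.P 2 from Set.ext fun r => by
      rw [← P2, show symE6.ρ (sr 2) = sr 4 by decide +kernel, show symE6.ρ (sr 4) = sr 2 by decide +kernel]; simp; tauto, a2]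
    simp [h.φ, hff, wd_cons]
  have hΘ := h.Theta_mem (c := c) (mem_fix.2 ⟨rfl, by simp [hc, nd], by simp [hc, nd], by simp [hc, nd], by simp [hc, nd],
    Units.ext (by simp [hc, nd, hff])⟩)
  have EΓ : ∀ t, (SS).x (sr 2) t * (SS).x (sr 4) (f t) ∈ twistedE6 K q := fun t =>
    h.good.pos 2 ((a2 _).2 ⟨⟨t, by simp [h.φ, hff]⟩, by simp [h.φ, wd_cons]⟩)
  have pn := fun k L a b => h.good.prod_n_mem (orth k) (L := L) a b (t := fun _ => 1) (by simp) fun i _ => by rw [h.φ, map_one]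
  have hL : (SS).nw [nd 1, nd 0, nd 5, nd 2, nd 4, nd 3] ∈ twistedE6 K q := by
    simpa [nw, mul_assoc] using mul_mem (pn 0 [nd 1] (by simp) (by decide +kernel)) (mul_mem (pn 3 [nd 0, nd 5] (by decide +kernel)
      (by decide +kernel)) (mul_mem (pn 2 [nd 2, nd 4] (by decide +kernel) (by decide +kernel)) (pn 1 [nd 3] (by simp) (by decide +kernel))))
  refine two_tw (r := rt 71) (s := sr 2) (u := rt 53) h.good (f := f) hχ hΘ
    (by rw [← map_pow, show c ^ _ = 1 from funext fun i => by rw [← Fintype.card_units]; exact pow_card_eq_one, map_one])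
    (fun t => (SS).x (sr 2) t * (SS).x (sr 4) (f t)) (fun t t' => ?_) EΓ (l := g) (fun t => ?_) g.ne_zero (fun e => g1 (by simp [e])) gl hs
    (by decide +kernel) (by rw [φl _ (by decide +kernel), map_one])
    (h.good.Up_le ⟨(SS).x_mem_U (certE6.R_pos_iff _ |>.2 (by decide +kernel)) _, (SS).x_mem_grp _ _, by
      rw [X.σ_x, φl _ (by decide +kernel), map_one, show symE6.ρ (rt 71) = rt 71 by decide +kernel]⟩)
    (by rw [χe _ 0 (by decide +kernel) 0 (by decide +kernel)]; simp)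
    (fun t => (cmt certE6 _ (by decide +kernel) _ _).mul_right (cmt certE6 _ (by decide +kernel) _ _)) (by decide +kernel)
    (φl _ (by decide +kernel)) (fun t t' => (cmt certE6 _ (by decide +kernel) _ _).mul_right (cmt certE6 _ (by decide +kernel) _ _))
    (fun t t0 ht => by
      rw [χe _ (-1) (by decide +kernel) (-1) (by decide +kernel)]
      simpa [h.hf, pow_succ'] using gu t t0 (h.hf t ▸ ht)) hL [true, true]
    (Fin.ext ((certE6.act_wp _ _).trans (by decide +kernel))) fun M d gM hu d0 hy hS => ?_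
  · rw [map_add, (SS).add, (SS).add, mul_assoc, mul_assoc, (cmt certE6 (SS).toStSys (r := sr 4) (s := sr 2) (by decide +kernel) _ _).left_comm]
  · rw [← conj_mul, hχ.conj, hχ.conj, χe _ (-1) (by decide +kernel) 0 (by decide +kernel),
      χe _ 0 (by decide +kernel) (-1) (by decide +kernel)]
    simp
  have g' : (SS).nw _ ∈ M ⊓ X.Fx := ⟨gM, h.good.le hL⟩
  have e : ∀ {r : Fin chevE6.nroots}, FT X M r → symE6.ρ r = r ∧ grE6.ε r = 1 ∧ grE6.lam r = 1 → ∀ t, f t = t → (SS).x r t ∈ M ⊓ X.Fx :=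
    fun a b t ht => a.x_mem b.1 (by rw [φl _ b.2, ht])
  have mv : ∀ {L} {r k : Fin chevE6.nroots}, (SS).nw L ∈ M ⊓ X.Fx → FT X M r → (L.map Fin.val).foldr certE6.Z.rf r = k → FT X M k :=
    fun a b c => Fin.ext ((certE6.act_wp _ _).trans c) ▸ b.mv a
  have e1 := e (mv (k := sr 3) g' hu (by decide +kernel)) (by decide +kernel) 1 (map_one f)
  have n4 : (SS).nw [nd 3] ∈ M ⊓ X.Fx := by
    rw [nw_singleton]
    exact mul_mem (mul_mem e1 (e (mv (nw_Wd g' g' (List.replicate 7 true)) hu (by decide +kernel)) (by decide +kernel) _ (by simp))) e1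
  have w : ∀ w, (SS).nw (W w) ∈ M ⊓ X.Fx := nw_Wd g' n4
  have hy' : _ * ((SS).x (sr 2) d * (SS).x (sr 4) (f d)) ∈ M ⊓ X.Fx := ⟨hy, h.good.le (mul_mem hΘ (EΓ d))⟩
  have z : (SS).x (rt 43) (-d) * (SS).x (rt 40) (f d) ∈ M ⊓ X.Fx := by
    have a := mul_mem (mul_mem (inv_mem (mul_mem e1 hy')) (mul_mem hy' e1))
      (inv_mem (e (mv (k := rt 44) (w [true, true, false]) hu (by decide +kernel)) (by decide +kernel) (f d * d) (by rw [map_mul, hff, mul_comm])))
    have b := hχ.conj (sr 3) 1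
    rw [χe _ 0 (by decide +kernel) 0 (by decide +kernel), RS.act_one, neg_zero, zpow_zero, zpow_zero, one_mul, one_mul,
      mul_inv_eq_iff_eq_mul] at b
    rw [← mul_assoc ((SS).x (sr 3) 1), ← b, mul_assoc _ ((SS).x (sr 3) 1), mul_assoc _ _ ((SS).x (sr 3) 1), mul_inv_rev, mul_assoc _ _ (_ * _),
      inv_mul_cancel_left, mul_assoc ((SS).x (sr 2) d), cm1 certE6 (SS).toStSys (r := sr 3) (s := sr 4) (k := rt 40) (ε := -1) (by decide +kernel),
      ← mul_assoc ((SS).x (sr 2) d), ← mul_assoc ((SS).x (sr 2) d),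
      cm1 certE6 (SS).toStSys (r := sr 3) (s := sr 2) (k := rt 43) (ε := 1) (by decide +kernel), mul_assoc _ ((SS).x (rt 43) _),
      cm1 certE6 (SS).toStSys (r := sr 4) (s := rt 43) (k := rt 44) (ε := 1) (by decide +kernel)] at a
    convert a using 1
    simp only [mul_assoc, (cmt certE6 (SS).toStSys (r := rt 40) (s := rt 44) (by decide +kernel) _ _).left_comm]
    simp [mul_assoc]
  have k := hS ((show certE6.R.act (certE6.R.gen.wp [nd 3]) (rt 43) = sr 2 from
    Fin.ext ((certE6.act_wp _ _).trans (by decide +kernel))) ▸ ST.mv (r := rt 43) n4 ⟨_, ⟨mul_mem ((SS).x_mem_U (by simp) _)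
    ((SS).x_mem_U (by simp [show symE6.ρ (rt 43) = rt 40 by decide +kernel]) _), z.2⟩, fun e => d0 (by
      simpa using (SS).inj.wd_inj (w := [(rt 43, -d), (rt 40, f d)]) (w' := [(rt 43, 0), (rt 40, 0)]) rfl (by simp only [List.map]; decide +kernel)
        (by simp only [certE6.R_pos_iff, List.map]; decide +kernel) (by simpa [wd_cons] using e)), z.1⟩)
  have fin : ∀ {r : Fin chevE6.nroots} (L : List (Fin chevE6.nroots × K)), FT X M r → (∀ p ∈ L, p.1 = r ∨ p.1 = symE6.ρ r) →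
      (L.map fun p => (p.1.1, p.2)) ∈ e6Words K q → (SS).wd L ∈ M := fun L a b c =>
    a ⟨(SS).wd_mem fun p hp => (b p hp).imp id .inl, h.good.le (certE6.wd_mem_gen L c)⟩
  refine certE6.gen_le fun v hv => ?_
  obtain ⟨t, ht, r, hr, rfl⟩ | ⟨t, r, hr, rfl⟩ := id hv <;> simp only [List.mem_cons, List.not_mem_nil, or_false] at hr <;>
    rcases hr with rfl | rfl | rfl | rfl
  exacts [⟨[(rt 46, t)], rfl, fin _ (mv (k := rt 46) (w [false, true, true, true, false]) hu (by decide +kernel)) (by simp) hv⟩,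
    ⟨[(rt 25, t)], rfl, fin _ (mv (k := rt 25) (w [true, true, true, true, false]) hu (by decide +kernel)) (by simp) hv⟩,
    ⟨[(rt 39, t)], rfl, fin _ (mv (k := rt 39) (w [true]) hu (by decide +kernel)) (by simp) hv⟩,
    ⟨[(rt 32, t)], rfl, fin _ (mv (k := rt 32) (w [false, true]) hu (by decide +kernel)) (by simp) hv⟩,
    ⟨[(rt 56, t), (rt 36, t ^ q)], rfl, fin _ (mv (k := rt 56) (w [true, false, true, false]) k (by decide +kernel))
      (by simp [show symE6.ρ (rt 56) = rt 36 by decide +kernel]) hv⟩,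
    ⟨[(rt 15, t), (rt 35, t ^ q)], rfl, fin _ (mv (k := rt 35) (w [true, true, true, true, true]) k (by decide +kernel))
      (by simp [show symE6.ρ (rt 35) = rt 15 by decide +kernel]) hv⟩,
    ⟨[(rt 42, t), (rt 37, t ^ q)], rfl, fin _ (mv (k := rt 42) (w []) k (by decide +kernel))
      (by simp [show symE6.ρ (rt 42) = rt 37 by decide +kernel]) hv⟩,
    ⟨[(rt 29, t), (rt 34, t ^ q)], rfl, fin _ (mv (k := rt 34) (w [true, true, true, true, true, true]) k (by decide +kernel))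
      (by simp [show symE6.ρ (rt 34) = rt 29 by decide +kernel]) hv⟩]

end TE
end H6.TG
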