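import Cfsg.Agent.H6.TG7

/-! The groups `³D₄(q)` are generated by two elements. -/

set_option autoImplicit false
set_option linter.unusedSectionVars false

namespace H6.TG
open Subgroup Cfsg Cfsg.Lie StSys Chev Tw

namespace TD
open D4

/-- roots -/
def rt (i : Fin 24) : Fin chevD4.nroots := i
/-- words -/
def W (w : List Bool) : List (Fin chevD4.rank) := Wd [nd 1, nd 0, nd 2, nd 3] [nd 1] w

section calc1
variable {K G : Type*} [Field K] [Group G] (S : StSys certD4.R K G)

lemma sw0 {r s : Fin 24} (h : cmB chevD4 certD4.Z (rt r) (rt s) = true) (t u : K) (g : G) :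
    S.x (rt s) u * (S.x (rt r) t * g) = S.x (rt r) t * (S.x (rt s) u * g) := (cmt certD4 S h t u).left_comm g

lemma sw1 {r s k : Fin 24} {ε : ℤ} (h : rt s ≠ rt r ∧ (rt s).1 ≠ chevD4.neg (rt r) ∧
    chevD4.commTerms (rt r) (rt s) = [((rt k).1, ε, 1, 1)]) (t u : K) (g : G) :
    S.x (rt s) u * (S.x (rt r) t * g) = S.x (rt r) t * (S.x (rt s) u * (S.x (rt k) (-(ε * t * u)) * g)) := by
  rw [← mul_assoc, cm1 certD4 S h, mul_assoc, mul_assoc]

lemma ident (a₁ a₂ a₃ b₁ b₂ b₃ : K) (g : G) :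
    S.x (rt 18) a₁ * S.x (rt 13) a₂ * S.x (rt 12) a₃ * S.x (rt 14) 1 * (S.x (rt 18) a₁ * S.x (rt 13) a₂ * S.x (rt 12) a₃)⁻¹ *
    (S.x (rt 18) b₁ * S.x (rt 13) b₂ * S.x (rt 12) b₃ * S.x (rt 14) 1 * (S.x (rt 18) b₁ * S.x (rt 13) b₂ * S.x (rt 12) b₃)⁻¹) *
    (S.x (rt 18) (a₁ + b₁) * S.x (rt 13) (a₂ + b₂) * S.x (rt 12) (a₃ + b₃) * S.x (rt 14) 1 *
      (S.x (rt 18) (a₁ + b₁) * S.x (rt 13) (a₂ + b₂) * S.x (rt 12) (a₃ + b₃))⁻¹)⁻¹ * (S.x (rt 14) 1)⁻¹ * g =
    S.x (rt 20) (a₃ * b₁ + a₁ * b₃) * (S.x (rt 21) (a₂ * b₁ + a₁ * b₂) * (S.x (rt 17) (-(a₃ * b₂) - a₂ * b₃) *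
      (S.x (rt 22) (a₁ * a₃ * b₂ + a₁ * a₂ * b₃ + a₃ * b₁ * b₂ + a₂ * b₁ * b₃ + a₂ * a₃ * b₁ + a₁ * b₂ * b₃) *
      (S.x (rt 23) (a₃ * b₁ * b₂ + a₂ * b₁ * b₃ + a₁ * b₂ * b₃ + a₁ * a₂ * a₃) * g)))) := by
  simp only [mul_inv_rev, inv_inv, ← S.x_neg, mul_assoc, neg_neg]
  simp only [S.x_mul_x_mul,
    sw1 S (r := 14) (s := 18) (k := 19) (ε := 1) (by decide +kernel),
    sw1 S (r := 14) (s := 13) (k := 16) (ε := -1) (by decide +kernel),
    sw0 S (r := 18) (s := 13) (by decide +kernel),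
    sw1 S (r := 14) (s := 12) (k := 15) (ε := -1) (by decide +kernel),
    sw0 S (r := 18) (s := 12) (by decide +kernel),
    sw0 S (r := 13) (s := 12) (by decide +kernel),
    sw0 S (r := 14) (s := 19) (by decide +kernel),
    sw0 S (r := 18) (s := 19) (by decide +kernel),
    sw1 S (r := 13) (s := 19) (k := 21) (ε := 1) (by decide +kernel),
    sw1 S (r := 12) (s := 19) (k := 20) (ε := 1) (by decide +kernel),
    sw0 S (r := 14) (s := 16) (by decide +kernel),
    sw1 S (r := 18) (s := 16) (k := 21) (ε := -1) (by decide +kernel),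
    sw0 S (r := 13) (s := 16) (by decide +kernel),
    sw1 S (r := 12) (s := 16) (k := 17) (ε := 1) (by decide +kernel),
    sw0 S (r := 19) (s := 16) (by decide +kernel),
    sw0 S (r := 14) (s := 15) (by decide +kernel),
    sw1 S (r := 18) (s := 15) (k := 20) (ε := -1) (by decide +kernel),
    sw1 S (r := 13) (s := 15) (k := 17) (ε := 1) (by decide +kernel),
    sw0 S (r := 12) (s := 15) (by decide +kernel),
    sw0 S (r := 19) (s := 15) (by decide +kernel),
    sw0 S (r := 16) (s := 15) (by decide +kernel),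
    sw0 S (r := 14) (s := 20) (by decide +kernel),
    sw0 S (r := 18) (s := 20) (by decide +kernel),
    sw1 S (r := 13) (s := 20) (k := 22) (ε := 1) (by decide +kernel),
    sw0 S (r := 12) (s := 20) (by decide +kernel),
    sw0 S (r := 19) (s := 20) (by decide +kernel),
    sw1 S (r := 16) (s := 20) (k := 23) (ε := -1) (by decide +kernel),
    sw0 S (r := 15) (s := 20) (by decide +kernel),
    sw0 S (r := 14) (s := 21) (by decide +kernel),
    sw0 S (r := 18) (s := 21) (by decide +kernel),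
    sw0 S (r := 13) (s := 21) (by decide +kernel),
    sw1 S (r := 12) (s := 21) (k := 22) (ε := 1) (by decide +kernel),
    sw0 S (r := 19) (s := 21) (by decide +kernel),
    sw0 S (r := 16) (s := 21) (by decide +kernel),
    sw1 S (r := 15) (s := 21) (k := 23) (ε := -1) (by decide +kernel),
    sw0 S (r := 20) (s := 21) (by decide +kernel),
    sw0 S (r := 14) (s := 17) (by decide +kernel),
    sw1 S (r := 18) (s := 17) (k := 22) (ε := -1) (by decide +kernel),
    sw0 S (r := 13) (s := 17) (by decide +kernel),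
    sw0 S (r := 12) (s := 17) (by decide +kernel),
    sw1 S (r := 19) (s := 17) (k := 23) (ε := -1) (by decide +kernel),
    sw0 S (r := 16) (s := 17) (by decide +kernel),
    sw0 S (r := 15) (s := 17) (by decide +kernel),
    sw0 S (r := 20) (s := 17) (by decide +kernel),
    sw0 S (r := 21) (s := 17) (by decide +kernel),
    sw1 S (r := 14) (s := 22) (k := 23) (ε := 1) (by decide +kernel),
    sw0 S (r := 18) (s := 22) (by decide +kernel),
    sw0 S (r := 13) (s := 22) (by decide +kernel),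
    sw0 S (r := 12) (s := 22) (by decide +kernel),
    sw0 S (r := 19) (s := 22) (by decide +kernel),
    sw0 S (r := 16) (s := 22) (by decide +kernel),
    sw0 S (r := 15) (s := 22) (by decide +kernel),
    sw0 S (r := 20) (s := 22) (by decide +kernel),
    sw0 S (r := 21) (s := 22) (by decide +kernel),
    sw0 S (r := 17) (s := 22) (by decide +kernel),
    sw0 S (r := 14) (s := 23) (by decide +kernel),
    sw0 S (r := 18) (s := 23) (by decide +kernel),
    sw0 S (r := 13) (s := 23) (by decide +kernel),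
    sw0 S (r := 12) (s := 23) (by decide +kernel),
    sw0 S (r := 19) (s := 23) (by decide +kernel),
    sw0 S (r := 16) (s := 23) (by decide +kernel),
    sw0 S (r := 15) (s := 23) (by decide +kernel),
    sw0 S (r := 20) (s := 23) (by decide +kernel),
    sw0 S (r := 21) (s := 23) (by decide +kernel),
    sw0 S (r := 17) (s := 23) (by decide +kernel),
    sw0 S (r := 22) (s := 23) (by decide +kernel)]
  push_cast
  ring_nf
  simp only [S.x_zero, one_mul]

end calc1

variable {K : Type*} [Field K] [Fintype K]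
local notation "SS" => Cert.sys K certD4

theorem two {q : ℕ} (hq : IsPrimePow q) (hK : Fintype.card K = q ^ 3) : Two (twistedD4 K q) := by
  classical
  obtain ⟨X, f, h⟩ := exists_pack hq hK
  have hq1 := hq.one_lt
  obtain ⟨g, g1, -, gl, gu⟩ := exists_gen' (K := K) (N := q ^ 2 + q + 1) hq1 (by
    obtain ⟨n, rfl⟩ : ∃ n, q = n + 1 := ⟨q - 1, by omega⟩
    rw [hK, Nat.add_sub_cancel]; exact Nat.sub_eq_of_eq_add (by ring)) (by nlinarith)
  have hff : ∀ t, f (f (f t)) = t := fun t => by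
    rw [h.hf, h.hf, h.hf, ← pow_mul, ← pow_mul, ← pow_three, ← hK, FiniteField.pow_card]
  have hf2 : ∀ t, f (f t) = t ^ q ^ 2 := fun t => by rw [h.hf, h.hf, ← pow_mul, sq]
  set c : Fin chevD4.rank → Kˣ := (![g, 1, Units.map f.toMonoidHom g, Units.map f.toMonoidHom (Units.map f.toMonoidHom g)] :
    Fin 4 → Kˣ) with hc
  have hχ := (SS).nconj.actsC_Theta certD4.r3 c
  have χe : ∀ r (a b d : ℤ), certD4.R.A (nd 0) r = a ∧ certD4.R.A (nd 2) r = b ∧ certD4.R.A (nd 3) r = d →
      ((certD4.R.chi (certD4.R.cm Kˣ c) r : Kˣ) : K) = (g : K) ^ a * f g ^ b * f (f g) ^ d := fun r a b d e => by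
    rw [RS.chi_cm, show ∏ i, c i ^ certD4.R.A i r = ∏ i : Fin 4, c (nd i) ^ certD4.R.A (nd i) r from rfl, Fin.prod_univ_four,
      e.1, e.2.1, e.2.2]
    simp [hc, nd]
  have φl : ∀ r : Fin chevD4.nroots, grD4.ε r = 1 ∧ grD4.lam r = 1 → ∀ t, X.φ r t = f t := fun r e t => by simp [h.hX, e]
  have a1 := fun z => fix3 (X := X) (g := z) P1 (by decide) (by decide) (by decide) (π_nd 0) (π_nd 2) (π_nd 3)
  have s0 : sr 0 = rt 18 ∧ sr 2 = rt 13 ∧ sr 3 = rt 12 ∧ sr 1 = rt 14 := by decide +kernel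
  obtain ⟨E, hE⟩ : ∃ E : K → GL chevD4.Idx K, ∀ t, E t = (SS).x (rt 18) t * (SS).x (rt 13) (f t) * (SS).x (rt 12) (f (f t)) :=
    ⟨_, fun _ => rfl⟩
  have hs' : ∀ z, z ∈ (SS).U (symD4.P 1) ⊓ X.Fx ↔ ∃ t, z = E t := fun z => by
    rw [a1]; simp only [hE, ← s0.1, ← s0.2.1, ← s0.2.2.1]; simp [h.φ, hff, wd_cons, mul_assoc]
  have hs : ∀ z, z ∈ A X (rt 18) ↔ ∃ t, z = E t := fun z => by
    rw [A, show ({rt 18, symD4.ρ (rt 18), symD4.ρ (symD4.ρ (rt 18))} : Set _) = symD4.P 1 from Set.ext fun r => by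
      rw [← P1, show symD4.ρ (rt 18) = rt 13 by decide +kernel, show symD4.ρ (rt 13) = rt 12 by decide +kernel]; simp [s0], hs']
  have hΘ := h.Theta_mem (c := c) (mem_fix.2 ⟨rfl, by simp [hc, nd], rfl, Units.ext (by simp [hc, nd, hff])⟩)
  have EΓ : ∀ t, E t ∈ twistedD4 K q := fun t => h.good.pos 1 ((hs' _).2 ⟨t, rfl⟩)
  have Eadd : ∀ t t', E (t + t') = E t * E t' := fun t t' => by
    simp only [hE, map_add, (SS).add, mul_assoc, sw0 (SS).toStSys (r := 18) (s := 13) (by decide +kernel),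
      sw0 (SS).toStSys (r := 18) (s := 12) (by decide +kernel), sw0 (SS).toStSys (r := 13) (s := 12) (by decide +kernel)]
  have hEc : ∀ t, (SS).nconj.Theta certD4.r3 c * E t * ((SS).nconj.Theta certD4.r3 c)⁻¹ = E (g * g * t) := fun t => by
    rw [hE, hE, ← conj_mul, ← conj_mul, hχ.conj, hχ.conj, hχ.conj, χe _ 2 0 0 (by decide +kernel),
      χe _ 0 2 0 (by decide +kernel), χe _ 0 0 2 (by decide +kernel)]
    simp [zpow_two, sq]
  have cE : ∀ (r : Fin 24), cmB chevD4 certD4.Z (rt 18) (rt r) = true ∧ cmB chevD4 certD4.Z (rt 13) (rt r) = true ∧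
      cmB chevD4 certD4.Z (rt 12) (rt r) = true → ∀ t t', Commute ((SS).x (rt r) t) (E t') := fun r e t t' =>
    hE t' ▸ ((cmt certD4 _ e.1 _ _).mul_right (cmt certD4 _ e.2.1 _ _)).mul_right (cmt certD4 _ e.2.2 _ _)
  have pn := fun k L a b => h.good.prod_n_mem (orth k) (L := L) a b (t := fun _ => 1) (by simp) fun i _ => by rw [h.φ, map_one]
  have hL : (SS).nw [nd 1, nd 0, nd 2, nd 3] ∈ twistedD4 K q := by
    simpa [nw, mul_assoc] using mul_mem (pn 0 [nd 1] (by simp) (by decide +kernel)) (pn 1 [nd 0, nd 2, nd 3] (by decide +kernel)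
      (by decide +kernel))
  refine two_tw (r := rt 23) (s := rt 18) (u := rt 22) h.good (f := f) hχ hΘ
    (by rw [← map_pow, show c ^ _ = 1 from funext fun i => by rw [← Fintype.card_units]; exact pow_card_eq_one, map_one])
    E Eadd EΓ hEc (mul_ne_zero g.ne_zero g.ne_zero) g1 gl hs
    (by decide +kernel) (by rw [φl _ (by decide +kernel), map_one])
    (h.good.Up_le ⟨(SS).x_mem_U (certD4.R_pos_iff _ |>.2 (by decide +kernel)) _, (SS).x_mem_grp _ _, by
      rw [X.σ_x, φl _ (by decide +kernel), map_one, show symD4.ρ (rt 23) = rt 23 by decide +kernel]⟩)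
    (by rw [χe _ 0 0 0 (by decide +kernel)]; simp) (cE 23 (by decide +kernel) 1) (by decide +kernel)
    (φl _ (by decide +kernel)) (cE 22 (by decide +kernel))
    (fun t t0 ht => by
      rw [χe _ 1 1 1 (by decide +kernel), hf2, h.hf]
      simpa [pow_add, mul_comm, mul_left_comm, mul_assoc] using gu t t0 (h.hf t ▸ ht)) hL [true]
    (Fin.ext ((certD4.act_wp _ _).trans (by decide +kernel))) fun M d gM hu d0 hy hS => ?_
  have g' : (SS).nw _ ∈ M ⊓ X.Fx := ⟨gM, h.good.le hL⟩
  have e : ∀ {r : Fin chevD4.nroots}, FT X M r → symD4.ρ r = r ∧ grD4.ε r = 1 ∧ grD4.lam r = 1 → ∀ t, f t = t →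
      (SS).x r t ∈ M ⊓ X.Fx := fun a b t ht => a.x_mem b.1 (by rw [φl _ b.2, ht])
  have mv : ∀ {L} {r k : Fin chevD4.nroots}, (SS).nw L ∈ M ⊓ X.Fx → FT X M r → (L.map Fin.val).foldr certD4.Z.rf r = k → FT X M k :=
    fun a b c => Fin.ext ((certD4.act_wp _ _).trans c) ▸ b.mv a
  have e1 := e (mv (k := rt 14) (nw_Wd g' g' [true, true, true, true]) hu (by decide +kernel)) (by decide +kernel)
  have e2 := e (mv (k := certD4.R.neg (rt 14)) g' hu (by decide +kernel)) (by decide +kernel)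
  have nn : ∀ t, f t = t → (SS).n (rt 14) t ∈ M ⊓ X.Fx := fun t ht =>
    mul_mem (mul_mem (e1 t ht) (e2 _ (by simp [ht]))) (e1 t ht)
  have w : ∀ w, (SS).nw (W w) ∈ M ⊓ X.Fx := nw_Wd g' (by rw [nw_singleton]; exact (congrArg ((SS).n · 1 ∈ _) s0.2.2.2).mpr (nn 1 (map_one f)))
  have hy' : _ * E d ∈ M ⊓ X.Fx := ⟨hy, h.good.le (mul_mem hΘ (EΓ d))⟩
  have k : FT X M (rt 18) := hS <| by
    by_cases q2 : ∀ t : K, f t = t → t = 0 ∨ t = 1
    · have : q = 2 := le_antisymm (by
        rw [← card_pow_eq (K := K) hq1.le (hK ▸ Nat.sub_one_dvd_pow_sub_one q 3)]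
        refine (Nat.card_le_card_of_injective (fun t => decide (t.1 = 0)) fun a b e => Subtype.ext ?_).trans (by simp)
        rcases q2 a (h.hf _ ▸ a.2) with x | x <;> rcases q2 b (h.hf _ ▸ b.2) with y | y <;> simp_all) hq1
      subst this
      have h2 : (2 : K) = 0 := by
        have := (q2 (-1) (by simp)).resolve_left (by simp)
        linear_combination -this
      have x1 : (SS).nconj.Theta certD4.r3 c * (SS).x (rt 14) 1 * ((SS).nconj.Theta certD4.r3 c)⁻¹ = (SS).x (rt 14) 1 := by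
        rw [hχ.conj, χe _ (-1) (-1) (-1) (by decide +kernel), (q2 (_ * _ * _) (by simp [hff]; ring)).resolve_left
          (by simp), RS.act_one]
      generalize hl : (g : K) * g = l at g1 hEc
      have l0 : l ≠ 0 := hl ▸ mul_ne_zero g.ne_zero g.ne_zero
      have l7 : (l ^ 3 + l + 1) * (l ^ 3 + l ^ 2 + 1) = 0 := mul_left_cancel₀ (sub_ne_zero.2 g1) (by
        have := FiniteField.pow_card_sub_one_eq_one l l0
        rw [hK] at this
        linear_combination this + (l - 1) * l ^ 3 * h2)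
      have st : ∀ a, E a * (SS).x (rt 14) 1 * (E a)⁻¹ ∈ M ⊓ X.Fx →
          E (l * (d + a)) * (SS).x (rt 14) 1 * (E (l * (d + a)))⁻¹ ∈ M ⊓ X.Fx := fun a ha => by
        convert mul_mem (mul_mem hy' ha) (inv_mem hy') using 1
        rw [← hEc, Eadd]; nth_rw 1 [← x1]; group
      have b0 : E 0 * (SS).x (rt 14) 1 * (E 0)⁻¹ ∈ M ⊓ X.Fx := by simpa [hE] using e1 1 (map_one f)
      have b3 : E (l * (d + 0) + l * (d + l * (d + 0))) * (SS).x (rt 14) 1 * (E (l * (d + 0) + l * (d + l * (d + 0))))⁻¹ ∈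
          M ⊓ X.Fx := by
        rcases mul_eq_zero.1 l7 with z | z
        · convert st _ (st _ (st _ (st _ (st _ b0)))) using 4 <;>
            linear_combination (-(l ^ 2 + l) * d) * z + (l ^ 2 + l) * d * h2
        · convert st _ (st _ (st _ (st _ b0))) using 4 <;> linear_combination (-l * d) * z + l * d * h2
      have z := mul_mem (mul_mem (mul_mem (st _ b0) (st _ (st _ b0))) (inv_mem b3)) (inv_mem (e1 1 (map_one f)))
      have nz : f (l * (d + 0)) * (l * (d + l * (d + 0))) + l * (d + 0) * f (l * (d + l * (d + 0))) ≠ 0 := by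
        rw [h.hf, h.hf, show (l * (d + 0)) ^ 2 * (l * (d + l * (d + 0))) + l * (d + 0) * (l * (d + l * (d + 0))) ^ 2 =
          l ^ 4 * d ^ 3 * (l - 1) by linear_combination (l ^ 3 * d ^ 3 + 2 * l ^ 4 * d ^ 3) * h2]
        exact mul_ne_zero (mul_ne_zero (pow_ne_zero _ l0) (pow_ne_zero _ d0)) (sub_ne_zero.2 g1)
      generalize l * (d + 0) = a at z nz
      generalize l * (d + a) = b at z nz
      simp only [hE, map_add] at z
      rw [← mul_one (_ * _), ident] at z
      replace z := mul_mem z (inv_mem (mul_mem (e hu (by decide +kernel) (a * f (f a) * f b + a * f a * f (f b) + f (f a) * b * f b +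
        f a * b * f (f b) + f a * f (f a) * b + a * f b * f (f b)) (by simp only [map_add, map_mul, hff]; ring))
        (mul_mem (e (mv (k := rt 23) (w [false]) hu (by decide +kernel)) (by decide +kernel) (f (f a) * b * f b + f a * b * f (f b) +
          a * f b * f (f b) + a * f a * f (f a)) (by simp only [map_add, map_mul, hff]; ring)) (one_mem _))))
      rw [mul_assoc, mul_assoc, mul_inv_cancel_right] at z
      have p : symD4.ρ (rt 17) = rt 20 ∧ symD4.ρ (rt 20) = rt 21 := by decide +kernel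
      refine (show certD4.R.act (certD4.R.gen.wp (W [true])) (rt 17) = rt 18 from
        Fin.ext ((certD4.act_wp _ _).trans (by decide +kernel))) ▸ ST.mv (r := rt 17) (w _) ⟨_, ⟨mul_mem ((SS).x_mem_U (by simp [p]) _)
        (mul_mem ((SS).x_mem_U (by simp [p]) _) ((SS).x_mem_U (by simp) _)), z.2⟩, fun e => nz ?_, z.1⟩
      have := (SS).inj.wd_inj (w := [(rt 20, f (f a) * b + a * f (f b)), (rt 21, f a * b + a * f b),
        (rt 17, -(f (f a) * f b) - f a * f (f b))]) (w' := [(rt 20, 0), (rt 21, 0), (rt 17, 0)]) rfl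
        (by simp only [List.map]; decide +kernel) (by simp only [certD4.R_pos_iff, List.map]; decide +kernel)
        (by simp only [wd_cons, wd_nil, mul_one, (SS).x_zero]; exact e)
      simp only [List.cons.injEq, Prod.mk.injEq] at this
      exact this.2.1.2
    · push Not at q2
      obtain ⟨v, hv, v0, v1⟩ := q2
      have m : (SS).h (rt 14) v ∈ M ⊓ X.Fx := mul_mem (nn v hv) (nn _ (by simp))
      have a := mul_mem (inv_mem hy') (mul_mem (mul_mem m hy') (inv_mem m))
      have b : (SS).h (rt 14) v * E d * ((SS).h (rt 14) v)⁻¹ = E (v⁻¹ * d) := by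
        have p : certD4.R.pair (rt 14) (rt 18) = -1 ∧ certD4.R.pair (rt 14) (rt 13) = -1 ∧ certD4.R.pair (rt 14) (rt 12) = -1 := by
          decide +kernel
        rw [hE, hE, ← conj_mul, ← conj_mul, (SS).nconj.h_conj _ v0, (SS).nconj.h_conj _ v0, (SS).nconj.h_conj _ v0, p.1, p.2.1, p.2.2]
        simp [hv]
      rw [← mul_assoc ((SS).h _ v), (SS).nconj.H_comm certD4.r3 ((SS).h_mem_H _ v0) ((SS).nconj.Theta_mem _ c),
        mul_assoc ((SS).nconj.Theta _ c), mul_assoc ((SS).nconj.Theta _ c), b, mul_inv_rev, mul_assoc, inv_mul_cancel_left,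
        show v⁻¹ * d = d + (v⁻¹ - 1) * d by ring, Eadd, inv_mul_cancel_left] at a
      refine ⟨_, (hs _).2 ⟨_, rfl⟩, fun z => mul_ne_zero (sub_ne_zero.2 (inv_ne_one.2 v1)) d0 ?_, a.1⟩
      generalize (v⁻¹ - 1) * d = t at z
      have := (SS).inj.wd_inj (w := [(rt 18, t), (rt 13, f t), (rt 12, f (f t))]) (w' := [(rt 18, 0), (rt 13, 0), (rt 12, 0)]) rfl
        (by simp only [List.map]; decide +kernel) (by simp only [certD4.R_pos_iff, List.map]; decide +kernel)
        (by simpa [wd_cons, hE, mul_assoc] using z)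
      simp_all
  have fin : ∀ {r : Fin chevD4.nroots} (L : List (Fin chevD4.nroots × K)), FT X M r →
      (∀ p ∈ L, p.1 = r ∨ p.1 = symD4.ρ r ∨ p.1 = symD4.ρ (symD4.ρ r)) →
      (L.map fun p => (p.1.1, p.2)) ∈ d4Words K q → (SS).wd L ∈ M := fun L a b c =>
    a ⟨(SS).wd_mem fun p hp => b p hp, h.good.le (certD4.wd_mem_gen L c)⟩
  refine certD4.gen_le fun v hv => ?_
  obtain ⟨t, ht, r, hr, rfl⟩ | ⟨t, r, hr, rfl⟩ := id hv <;> simp only [List.mem_cons, List.not_mem_nil, or_false] at hr <;>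
    rcases hr with rfl | rfl
  exacts [⟨[(rt 14, t)], rfl, fin _ (mv (k := rt 14) (w [false, true]) hu (by decide +kernel)) (by simp) hv⟩,
    ⟨[(rt 9, t)], rfl, fin _ (mv (k := rt 9) (w [true]) hu (by decide +kernel)) (by simp) hv⟩,
    ⟨[(rt 18, t), (rt 13, t ^ q), (rt 12, t ^ q ^ 2)], rfl, fin _ k
      (by simp [show symD4.ρ (rt 18) = rt 13 by decide +kernel, show symD4.ρ (rt 13) = rt 12 by decide +kernel]) hv⟩,
    ⟨[(rt 5, t), (rt 10, t ^ q), (rt 11, t ^ q ^ 2)], rfl, fin _ (mv (k := rt 5) (w [false, true]) k (by decide +kernel))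
      (by simp [show symD4.ρ (rt 5) = rt 10 by decide +kernel, show symD4.ρ (rt 10) = rt 11 by decide +kernel]) hv⟩]

end TD
end H6.TG
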