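import Cfsg.Agent.H6.TG7
import Cfsg.Agent.H6.TwF4
import Cfsg.Agent.H6.TwKill

/-! The groups `²F₄(q)` are generated by two elements. -/

set_option autoImplicit false
set_option linter.unusedSectionVars false

namespace H6.TG
open Subgroup Cfsg Cfsg.Lie StSys Chev Tw

lemma hpair {Φ ι : Type} [Fintype ι] [DecidableEq ι] {R : RS Φ ι} {K G : Type*} [Field K] [Group G] (S : StSys R K G)
    {M : Subgroup G} {a b : Φ} {f : K →+* K} (c : ∀ r ∈ [a, R.neg a], ∀ s ∈ [b, R.neg b], ∀ t u, Commute (S.x r t) (S.x s u))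
    (p : ∀ t, S.x a (f t) * S.x b t ∈ M) (n : ∀ t, S.x (R.neg a) (f t) * S.x (R.neg b) t ∈ M) (v : K) :
    S.h a (f v) * S.h b v ∈ M := by
  have c1 := c a (by simp) b (by simp)
  have c2 := c a (by simp) (R.neg b) (by simp)
  have c3 := c (R.neg a) (by simp) b (by simp)
  have c4 := c (R.neg a) (by simp) (R.neg b) (by simp)
  have k : ∀ v, S.n a (f v) * S.n b v ∈ M := fun v => by
    have := mul_mem (mul_mem (p v) (n (-v⁻¹))) (p v)
    simp only [StSys.n, map_neg, map_inv₀, mul_assoc, ← (c1 _ _).left_comm, ← (c2 _ _).left_comm, ← (c3 _ _).left_comm] at this ⊢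
    exact this
  have cn : Commute (S.n a (-1)) (S.n b v) := (((c1 _ _).mul_right (c2 _ _)).mul_right (c1 _ _)).mul_left
    (((c3 _ _).mul_right (c4 _ _)).mul_right (c3 _ _)) |>.mul_left (((c1 _ _).mul_right (c2 _ _)).mul_right (c1 _ _))
  have := mul_mem (k v) (k (-1))
  rwa [map_neg, map_one, mul_assoc, ← cn.left_comm, ← mul_assoc] at this

namespace TF
open F4

variable {K : Type*} [Field K] [Fintype K]
local notation "SS" => Cert.sys K certF4

theorem two {m : ℕ} (hm : 1 ≤ m) (hK : Fintype.card K = 2 ^ (2 * m + 1)) : Two (twistedF4 K (2 ^ m)) := by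
  classical
  obtain ⟨X, f, h⟩ := exists_pack hK
  have := h.char
  have h2 : (2 : K) = 0 := CharTwo.two_eq_zero
  obtain ⟨g, hg⟩ := IsCyclic.exists_monoid_generator (α := Kˣ)
  have g1 : (g : K) ≠ 1 := fun e => by
    obtain ⟨v, v0, v1⟩ := Chev.exists_ne_of_card (F := K) (by
      rw [hK]; exact (Nat.pow_lt_pow_right one_lt_two (by omega) : 2 ^ 1 < _).ne')
    obtain ⟨n, hn⟩ := hg (Units.mk0 v v0)
    exact v1 (by simpa [e] using (congrArg Units.val hn).symm)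
  have g0 := g.ne_zero
  have cm := fun (r s : Fin 48) => certF4.commute 2 h2 (SS).toStSys (rt r) (rt s)
  have pF : ∀ a b : Fin 48, symF4.ρ (rt a) = rt b ∧ symF4.ρ (rt b) = rt a ∧ grF4.lam (rt a) = 2 ∧ grF4.lam (rt b) = 1 ∧
      cmB chevF4 certF4.Z (rt a) (rt b) = true → ∀ t, (SS).x (rt a) (f t) * (SS).x (rt b) t ∈
        (SS).U {r | r.1 ∈ [a.1, b.1]} ⊓ X.Fx := fun a b e t =>
    ⟨mul_mem ((SS).x_mem_U (List.Mem.head _) _) ((SS).x_mem_U (List.Mem.tail _ (.head _)) _), mul_mem ((SS).x_mem_grp _ _) ((SS).x_mem_grp _ _), by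
      rw [X.σ_mul _ ((SS).x_mem_grp _ _) _ ((SS).x_mem_grp _ _), X.σ_x, X.σ_x, h.hX, h.hX, e.1, e.2.1, e.2.2.1, e.2.2.2.1, h.hff,
        pow_one, (cmt certF4 _ e.2.2.2.2 _ _).eq]⟩
  have hp : ∀ {M : Subgroup (GL chevF4.Idx K)} (a b a' b' : Fin 48), certF4.R.neg (rt a) = rt a' ∧ certF4.R.neg (rt b) = rt b' ∧
      (∀ r ∈ [a, a'], ∀ s ∈ [b, b'], cmB chevF4 certF4.Z (rt s) (rt r) = true) → (∀ t, (SS).x (rt a) (f t) * (SS).x (rt b) t ∈ M) →
      (∀ t, (SS).x (rt a') (f t) * (SS).x (rt b') t ∈ M) → ∀ v, (SS).h (rt a) (f v) * (SS).h (rt b) v ∈ M := fun a b a' b' e p n =>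
    hpair (SS).toStSys (by
      simp only [e.1, e.2.1, List.forall_mem_cons, List.not_mem_nil, false_imp_iff, implies_true, and_true] at e ⊢
      exact ⟨⟨fun _ _ => cmt certF4 _ e.2.2.1.1 _ _, fun _ _ => cmt certF4 _ e.2.2.1.2 _ _⟩,
        fun _ _ => cmt certF4 _ e.2.2.2.1 _ _, fun _ _ => cmt certF4 _ e.2.2.2.2 _ _⟩) p (by rwa [e.1, e.2.1])
  have hc : ∀ (a b s : Fin 48) (i j : ℤ), certF4.R.pair (rt a) (rt s) = i ∧ certF4.R.pair (rt b) (rt s) = j → ∀ {v}, v ≠ 0 → ∀ t,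
      (SS).h (rt a) (f v) * (SS).h (rt b) v * (SS).x (rt s) t * ((SS).h (rt a) (f v) * (SS).h (rt b) v)⁻¹ =
        (SS).x (rt s) (f v ^ i * (v ^ j * t)) := fun a b s i j e v v0 t => by
    rw [← e.1, ← e.2, ← (SS).nconj.h_conj _ ((map_ne_zero f).2 v0), ← (SS).nconj.h_conj _ v0]; group
  obtain ⟨U, hU⟩ : ∃ U : K → K → GL chevF4.Idx K, ∀ t s, U t s = (SS).x (rt 27) (f t) * (SS).x (rt 25) t *
    (SS).x (rt 28) (f t * t + s) * (SS).x (rt 30) (f s ^ 2) := ⟨_, fun _ _ => rfl⟩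
  have m1 : ∀ z, z ∈ (SS).U (symF4.P 1) ⊓ X.Fx ↔ ∃ t s, z = U t s := fun z => by simp [h.mem1, hU, wd_cons, mul_assoc]
  have Um : ∀ t s t' s', U t s * U t' s' = U (t + t') (s + s' + f t * t') := fun t s t' s' => by
    have e := fun (t u : K) (z : GL chevF4.Idx K) => congrArg (· * z) (hba (SS).toStSys t u)
    simp only [mul_assoc] at e
    rw [← mul_one (U (t + t') _), ← mul_one (U t' s')]
    simp only [hU, mul_assoc, e, x_mul_x_mul, (cm 27 28 (by decide +kernel) _ _).left_comm, (cm 27 30 (by decide +kernel) _ _).left_comm,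
      (cm 25 28 (by decide +kernel) _ _).left_comm, (cm 25 30 (by decide +kernel) _ _).left_comm,
      (cm 28 30 (by decide +kernel) _ _).left_comm, map_add, map_mul]
    congr 3
    · congr 1; linear_combination (-(f t * t')) * h2
    · congr 2; linear_combination (-(f t' ^ 2)) * h.hff t - (f s * f s' + (f s + f s') * f (f t) * f t') * h2
  have U0 : U 0 0 = 1 := by simp [hU]
  have Uc : ∀ (a b : Fin 48) (i j i' j' i'' j'' k l : ℤ) {v}, v ≠ 0 → (certF4.R.pair (rt a) (rt 27) = i ∧ certF4.R.pair (rt b) (rt 27) = j) ∧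
      (certF4.R.pair (rt a) (rt 25) = i' ∧ certF4.R.pair (rt b) (rt 25) = j') ∧
      (certF4.R.pair (rt a) (rt 28) = i'' ∧ certF4.R.pair (rt b) (rt 28) = j'') ∧
      (certF4.R.pair (rt a) (rt 30) = k ∧ certF4.R.pair (rt b) (rt 30) = l) → ∀ {c}, f v ^ i * v ^ j = f c → f v ^ i' * v ^ j' = c →
      f v ^ i'' * v ^ j'' = f c * c → f v ^ k * v ^ l = c * f c ^ 2 → ∀ t s,
      (SS).h (rt a) (f v) * (SS).h (rt b) v * U t s * ((SS).h (rt a) (f v) * (SS).h (rt b) v)⁻¹ = U (c * t) (f c * c * s) :=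
    fun a b i j i' j' i'' j'' k l v v0 e c e1 e2 e3 e4 t s => by
    rw [hU, hU, ← conj_mul, ← conj_mul, ← conj_mul, hc _ _ _ _ _ e.1 v0, hc _ _ _ _ _ e.2.1 v0, hc _ _ _ _ _ e.2.2.1 v0,
      hc _ _ _ _ _ e.2.2.2 v0, ← mul_assoc (f v ^ i), ← mul_assoc (f v ^ i'), ← mul_assoc (f v ^ i''), ← mul_assoc (f v ^ k),
      e1, e2, e3, e4, map_mul, map_mul, map_mul, mul_pow, mul_pow, h.hff]
    congr 3 <;> ring
  have fg0 : f g ≠ 0 := (map_ne_zero f).2 g0
  have ffg0 : f (f g) ≠ 0 := (map_ne_zero f).2 fg0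
  obtain ⟨y₀, hy₀⟩ : ∃ y, y = (SS).h (rt 39) (f (f g)) * (SS).h (rt 45) (f g) := ⟨_, rfl⟩
  have yU : ∀ t s, y₀ * U t s * y₀⁻¹ = U (g / f g * t) (f (g / f g) * (g / f g) * s) := hy₀ ▸
    Uc 39 45 (-1) 1 2 (-1) 1 0 0 1 fg0 (by decide +kernel) (by simp [div_eq_inv_mul]) (by simp [zpow_two, ← sq, h.hff, div_eq_mul_inv])
      (by rw [map_div₀]; field_simp; simpa using h.hff g) (by rw [map_div₀, div_pow, h.hff]; field_simp)
  have yΓ : y₀ ∈ twistedF4 K (2 ^ m) := hy₀ ▸ hp 39 45 8 2 (by decide +kernel)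
    (fun t => h.good.mem_of_U (.inl (by simp only [certF4.R_pos_iff]; decide +kernel)) (pF 39 45 (by decide +kernel) t).1
      (pF 39 45 (by decide +kernel) t).2)
    (fun t => h.good.mem_of_U (.inr (by simp only [certF4.R_pos_iff]; decide +kernel)) (pF 8 2 (by decide +kernel) t).1
      (pF 8 2 (by decide +kernel) t).2) _
  have UΓ : ∀ t s, U t s ∈ twistedF4 K (2 ^ m) := fun t s => h.good.pos 1 ((m1 _).2 ⟨t, s, rfl⟩)
  have cU : ∀ a : Fin 48, (∀ s ∈ [27, 25, 28, 30], cmB chevF4 certF4.Z (rt s) (rt a) = true) → ∀ v t s,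
      Commute ((SS).x (rt a) v) (U t s) := fun a e v t s => hU t s ▸ (((cmt certF4 _ (e 27 (by simp)) _ _).mul_right
    (cmt certF4 _ (e 25 (by simp)) _ _)).mul_right (cmt certF4 _ (e 28 (by simp)) _ _)).mul_right (cmt certF4 _ (e 30 (by simp)) _ _)
  obtain ⟨n0, a0, b0⟩ := h.good.exists_n 0
  obtain ⟨n1, a1, b1⟩ := h.good.exists_n 1
  have hn := b0.mul b1
  rw [Sym.w, Sym.w, ← InvGen.wp_append] at hn
  have nΓ : n0 * n1 ∈ twistedF4 K (2 ^ m) := mul_mem a0.2 a1.2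
  generalize n0 * n1 = n at hn nΓ
  obtain ⟨x, hx⟩ : ∃ x, x = (SS).x (rt 14) (f 1) * (SS).x (rt 23) 1 := ⟨_, rfl⟩
  have xF := hx ▸ pF 14 23 (by decide +kernel) 1
  obtain ⟨y, hy⟩ : ∃ y, y = (U 1 0)⁻¹ * y₀ * U 1 0 := ⟨_, rfl⟩
  have cy : ∀ a b : Fin 48, (∀ s ∈ [27, 25, 28, 30], cmB chevF4 certF4.Z (rt s) (rt a) = true) ∧
      (∀ s ∈ [27, 25, 28, 30], cmB chevF4 certF4.Z (rt s) (rt b) = true) → ∀ v w, y * ((SS).x (rt a) v * (SS).x (rt b) w) * y⁻¹ =
      (U 1 0)⁻¹ * (y₀ * (SS).x (rt a) v * y₀⁻¹ * (y₀ * (SS).x (rt b) w * y₀⁻¹)) * U 1 0 := fun a b e v w => by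
    rw [hy, mul_assoc _ (U 1 0), ← ((cU a e.1 v 1 0).mul_left (cU b e.2 w 1 0)).eq]; group
  have cxy : Commute x y := by
    have := cy 14 23 (by decide +kernel) (f 1) 1
    rw [hy₀, hc _ _ _ 0 0 (by decide +kernel) fg0, hc _ _ _ 0 0 (by decide +kernel) fg0] at this
    simp only [zpow_zero, one_mul, ← hx] at this
    rw [mul_assoc (U 1 0)⁻¹, (hx ▸ (cU 14 (by decide +kernel) _ 1 0).mul_left (cU 23 (by decide +kernel) _ 1 0) : Commute x _).eq,
      inv_mul_cancel_left, mul_inv_eq_iff_eq_mul] at this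
    exact this.symm
  have x2 : x ^ 2 = 1 := by
    rw [hx, (cmt certF4 _ (r := rt 23) (s := rt 14) (by decide +kernel) _ _).mul_pow, sq, sq, ← (SS).add, ← (SS).add]
    simp [CharTwo.add_self_eq_zero]
  have yn : y ^ (Fintype.card K - 1) = 1 := by
    rw [hy, ← inv_inv (U 1 0), inv_inv (U 1 0)⁻¹, conj_pow, hy₀, Commute.mul_pow ((SS).nconj.H_comm certF4.r3 ((SS).h_mem_H _ ffg0)
      ((SS).h_mem_H _ fg0)), h_pow certF4.r3 _ ffg0, h_pow certF4.r3 _ fg0]; simp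
  have yΓ' : y ∈ twistedF4 K (2 ^ m) := hy ▸ mul_mem (mul_mem (inv_mem (UΓ _ _)) yΓ) (UΓ _ _)
  refine two_sub (mul_mem (h.good.mem_of_U (.inr (by simp only [certF4.R_pos_iff]; decide +kernel)) xF.1 xF.2) yΓ') nΓ ?_
  have a : x * y ∈ closure {x * y, n} := subset_closure (by simp)
  have nM : n ∈ closure {x * y, n} := subset_closure (by simp)
  generalize closure {x * y, n} = M at a nM
  have d := pow_mem a 2
  rw [cxy.mul_pow, x2, one_mul] at d
  have yM := zpowers_le.2 d (mem_zpowers_pow_iff.2 (Nat.Coprime.coprime_dvd_right (orderOf_dvd_of_pow_eq_one yn)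
    (Nat.Coprime.coprime_dvd_left (hK ▸ dvd_pow_self 2 (by omega)) cop)))
  have xM := (mul_mem_cancel_right yM).1 a
  have nF := h.good.le nΓ
  have mv : ∀ B B' : List ℕ, (∀ b ∈ B', ((symF4.wd 0 ++ symF4.wd 1).map Fin.val).foldr certF4.Z.rf b ∈ B) →
      (SS).U {r | r.1 ∈ B} ⊓ X.Fx ≤ M → (SS).U {r | r.1 ∈ B'} ⊓ X.Fx ≤ M := fun B B' e k z hz => by
    have := k ⟨hn.conj_mem_U (T' := {r | r.1 ∈ B}) (fun r hr => by
      rw [Set.mem_setOf_eq, certF4.act_wp]; exact e _ hr) hz.1, X.Fx.mul_mem (X.Fx.mul_mem nF hz.2) (X.Fx.inv_mem nF)⟩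
    simpa [mul_assoc] using M.mul_mem (M.mul_mem (M.inv_mem nM) this) nM
  have du : ∀ z ∈ (SS).U {r | r.1 ∈ [37, 32]} ⊓ X.Fx, ∃ t, z = (SS).x (rt 37) (f t) * (SS).x (rt 32) t := fun z hz => by
    have c := fun t u => cmt certF4 (SS).toStSys (r := rt 37) (s := rt 32) (by decide +kernel) t u
    obtain ⟨s, t, rfl⟩ := (SS).U_induction (p := fun z => ∃ s t, z = (SS).x (rt 37) s * (SS).x (rt 32) t) ⟨0, 0, by simp⟩ (by
      rintro _ - r hr v ⟨s, t, rfl⟩
      rcases List.mem_pair.1 hr with e | e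
      · obtain rfl : r = rt 37 := Fin.ext e
        exact ⟨s + v, t, by rw [mul_assoc, (c _ _).eq, (SS).add, mul_assoc]⟩
      · obtain rfl : r = rt 32 := Fin.ext e
        exact ⟨s, t + v, by rw [(SS).add, mul_assoc]⟩) hz.1
    have e := hz.2.2
    have p : symF4.ρ (rt 37) = rt 32 ∧ symF4.ρ (rt 32) = rt 37 ∧ grF4.lam (rt 32) = 1 := by decide +kernel
    rw [X.σ_mul _ ((SS).x_mem_grp _ _) _ ((SS).x_mem_grp _ _), X.σ_x, X.σ_x, h.hX (rt 32), p.1, p.2.1, p.2.2, pow_one, (c _ _).eq] at e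
    have := (SS).inj.wd_inj (w := [(rt 37, f t), (rt 32, X.φ (rt 37) s)]) (w' := [(rt 37, s), (rt 32, t)]) rfl
      (by simp only [List.map]; decide +kernel) (by simp only [certF4.R_pos_iff, List.map]; decide +kernel)
      (by simpa [wd_cons] using e)
    simp only [List.cons.injEq, Prod.mk.injEq, true_and] at this
    exact ⟨t, by rw [this.1]⟩
  have k7 : (SS).U {r | r.1 ∈ [37, 32]} ⊓ X.Fx ≤ M := fun z hz => by
    obtain ⟨t, ht⟩ := du (n⁻¹ * x * n) ⟨hn.conj_mem_U' (T := {r | r.1 ∈ [14, 23]}) (fun r hr => by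
      have p : ∀ i : Fin 2, certF4.R.act (certF4.R.gen.wp (symF4.wd 0 ++ symF4.wd 1)) (rt (![37, 32] i)) = rt (![14, 23] i) :=
        fun i => Fin.ext ((certF4.act_wp _ _).trans (by revert i; decide +kernel))
      rcases List.mem_pair.1 hr with e | e
      · rw [show r = _ from (Fin.ext e).trans (p 0).symm, RS.act_inv_act]; exact List.Mem.head _
      · rw [show r = _ from (Fin.ext e).trans (p 1).symm, RS.act_inv_act]; exact List.Mem.tail _ (.head _)) xF.1,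
      X.Fx.mul_mem (X.Fx.mul_mem (X.Fx.inv_mem nF) xF.2) nF⟩
    have pM := ht ▸ M.mul_mem (M.mul_mem (M.inv_mem nM) xM) nM
    have t0 : t ≠ 0 := fun e => by
      have : x = 1 := by simpa [e, mul_assoc] using congrArg (n * · * n⁻¹) ht
      have e1 : (SS).x (rt 14) (f 1) = (SS).x (rt 23) (-1) := by rw [(SS).x_neg]; exact eq_inv_of_mul_eq_one_left (hx ▸ this)
      have c1 := (SS).nconj.h_conj (rt 24) g0 (rt 14) (f 1)
      have p : certF4.R.pair (rt 24) (rt 14) = 0 ∧ certF4.R.pair (rt 24) (rt 23) = -2 := by decide +kernel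
      rw [p.1, zpow_zero, one_mul, e1, (SS).nconj.h_conj _ g0, p.2] at c1
      have c2 := (SS).inj.x_injective _ c1
      rw [zpow_neg, zpow_two] at c2
      field_simp at c2
      exact g1 (sub_eq_zero.1 (pow_eq_zero_iff two_ne_zero |>.1 (by first | linear_combination (1 - g) * h2 + c2 | linear_combination (1 - g) * h2 - c2)))
    obtain ⟨t', rfl⟩ := du z hz
    by_cases e : t' = 0
    · simp [e]
    obtain ⟨k, hk⟩ := hg (Units.mk0 (t' / t) (div_ne_zero e t0))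
    rw [show t' = g ^ k * t by rw [← div_mul_cancel₀ t' t0]; simpa using congrArg (fun u : Kˣ => (u : K) * t) hk.symm]
    clear hk
    induction k with
    | zero => simpa using pM
    | succ k ih =>
      have := mul_mem (mul_mem yM ih) (inv_mem yM)
      rw [cy 37 32 (by decide +kernel), hy₀, hc _ _ _ 0 1 (by decide +kernel) fg0, hc _ _ _ 2 0 (by decide +kernel) fg0, mul_assoc,
        ((cU 37 (by decide +kernel) _ 1 0).mul_left (cU 32 (by decide +kernel) _ 1 0)).eq, inv_mul_cancel_left] at this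
      convert this using 3
      · simp [pow_succ', mul_assoc]
      · rw [zpow_two, ← sq, h.hff, zpow_zero, one_mul, pow_succ', mul_assoc]
  have k6 := mv _ [39, 45] (by decide +kernel) k7
  have k4 := mv _ [33, 24] (by decide +kernel) (mv _ [38, 43] (by decide +kernel) k6)
  have k2 := mv _ [8, 2] (by decide +kernel) (mv _ [10, 15] (by decide +kernel) k4)
  have k0 := mv _ [14, 23] (by decide +kernel) (mv _ [9, 4] (by decide +kernel) k2)
  have y0M : y₀ ∈ M := hy₀ ▸ hp 39 45 8 2 (by decide +kernel) (fun t => k6 (pF 39 45 (by decide +kernel) t))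
    (fun t => k2 (pF 8 2 (by decide +kernel) t)) _
  have hM := hp 33 24 14 23 (by decide +kernel) (fun t => k4 (pF 33 24 (by decide +kernel) t))
    (fun t => k0 (pF 14 23 (by decide +kernel) t))
  have Ui : ∀ t s, (U t s)⁻¹ = U t (s + f t * t) := fun t s => inv_eq_of_mul_eq_one_right (by
    rw [Um, ← U0]; congr 1; exacts [CharTwo.add_self_eq_zero _, by linear_combination (s + f t * t) * h2])
  have u1 : ∀ t ≠ 0, ∃ s, U t s ∈ M := fun t t0 => by
    have a := mul_mem yM (inv_mem y0M)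
    rw [hy, mul_assoc, mul_assoc, ← mul_assoc y₀, yU, Ui, Um] at a
    have c0 : 1 + g / f g * 1 ≠ 0 := fun e => g1 (mul_left_cancel₀ g0 (by
      have : f g = g := by field_simp at e; linear_combination e - g * h2
      have e' := h.hff g
      rw [this, this] at e'
      linear_combination e'))
    generalize 1 + g / f g * 1 = c at a c0
    have v0 : c / t ≠ 0 := div_ne_zero c0 t0
    have := mul_mem (mul_mem (hM (c / t)) a) (inv_mem (hM (c / t)))
    rw [Uc 33 24 (-1) 0 0 (-1) (-1) (-1) (-2) (-1) v0 (by decide +kernel) (c := (c / t)⁻¹) (by simp) (by simp) (by simp)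
      (by simp [zpow_two, sq, mul_comm]), show (c / t)⁻¹ * c = t by field_simp] at this
    exact ⟨_, this⟩
  have u0 : ∀ s, U 0 s ∈ M := fun s => by
    obtain ⟨t, rfl⟩ := Finite.surjective_of_injective (f := fun t : K => f t * t) (fun a b e => by
      have e2 := congrArg (fun z => f z ^ 2) e
      simp only [map_mul, mul_pow, h.hff] at e e2
      by_cases b0 : b = 0
      · simpa [b0] using e
      have fb := (map_ne_zero f).2 b0
      refine f.injective (mul_left_cancel₀ (mul_ne_zero fb b0) ?_)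
      linear_combination e2 - f a * e) s
    by_cases t0 : t = 0
    · simp [t0, U0]
    obtain ⟨s, hs⟩ := u1 t t0
    have := mul_mem hs hs
    rwa [Um, CharTwo.add_self_eq_zero, CharTwo.add_self_eq_zero, zero_add] at this
  have k8 : (SS).U {r | r.1 ∈ [27, 25, 28, 30]} ⊓ X.Fx ≤ M := fun z hz => by
    obtain ⟨t, s, rfl⟩ := (m1 z).1 ⟨(SS).U_mono (fun r hr => (P1 r).1 (List.mem_map_of_injective Fin.val_injective |>.1 hr)) hz.1, hz.2⟩
    by_cases t0 : t = 0
    · exact t0 ▸ u0 s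
    obtain ⟨s', hs⟩ := u1 t t0
    simpa [Um] using mul_mem hs (u0 (s - s'))
  have k9 := mv _ [20, 22, 19, 17] (by decide +kernel) (mv _ [34, 26, 36, 42] (by decide +kernel)
    (mv _ [29, 41, 44, 47] (by decide +kernel) (mv _ [35, 31, 40, 46] (by decide +kernel) k8)))
  have fin : ∀ {B : List ℕ} (L : List (Fin chevF4.nroots × K)), (SS).U {r | r.1 ∈ B} ⊓ X.Fx ≤ M → (∀ p ∈ L, p.1.1 ∈ B) →
      (L.map fun p => (p.1.1, p.2)) ∈ f4Words K (2 ^ m) → (SS).wd L ∈ M := fun L a b c =>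
    a ⟨(SS).wd_mem b, h.good.le (certF4.wd_mem_gen L c)⟩
  refine certF4.gen_le fun v hv => ?_
  obtain ⟨t, rfl | rfl⟩ | ⟨t, u, rfl | rfl⟩ := id hv
  exacts [⟨[(rt 33, _), (rt 24, _)], rfl, fin _ k4 (by simp [rt]) hv⟩, ⟨[(rt 14, _), (rt 23, _)], rfl, fin _ k0 (by simp [rt]) hv⟩,
    ⟨[(rt 27, _), (rt 25, _), (rt 28, _), (rt 30, _)], rfl, fin _ k8 (by simp [rt]) hv⟩,
    ⟨[(rt 20, _), (rt 22, _), (rt 19, _), (rt 17, _)], rfl, fin _ k9 (by simp [rt]) hv⟩]

end TF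
end H6.TG
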